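import Mathlib
import Cfsg.Agent.Root.R3
import Cfsg.Agent.Classical.DicksonSL

/-! Dickson's lemma: `SL₂(k(λ))` is generated by `x(k)` and `y(kλ)`. -/

set_option autoImplicit false

namespace Cfsg.Agent.Root

open Subgroup Matrix Polynomial
open scoped MatrixGroups

section Disc

variable {R S : Type*} [CommRing R] [CommRing S]

/-- first reduction step of the Euclidean algorithm -/
noncomputable def redA (n : ℕ) (a c : R[X]) : R[X] :=
  C (c.coeff (n + 1)) * a - C (a.coeff (n + 1)) * c

/-- second reduction step of the Euclidean algorithm -/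
noncomputable def redC (n : ℕ) (a c : R[X]) : R[X] :=
  C ((redA n a c).coeff n) * c - C (c.coeff (n + 1)) * (X * redA n a c)

/-- the product of the leading coefficients met in the Euclidean algorithm -/
noncomputable def disc : ℕ → R[X] → R[X] → R
  | 0, a, _ => a.coeff 0
  | n + 1, a, c => c.coeff (n + 1) * (redA n a c).coeff n * disc n (redA n a c) (redC n a c)

theorem redA_map (f : R →+* S) (n : ℕ) (a c : R[X]) :
    (redA n a c).map f = redA n (a.map f) (c.map f) := by
  simp [redA, Polynomial.map_sub, Polynomial.map_mul]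

theorem redC_map (f : R →+* S) (n : ℕ) (a c : R[X]) :
    (redC n a c).map f = redC n (a.map f) (c.map f) := by
  rw [redC, redC, ← redA_map]
  simp [Polynomial.map_sub, Polynomial.map_mul]

theorem disc_map (f : R →+* S) (n : ℕ) : ∀ a c : R[X],
    f (disc n a c) = disc n (a.map f) (c.map f) := by
  induction n with
  | zero => intro a c; simp [disc]
  | succ n ih =>
    intro a c
    rw [disc, disc, map_mul, map_mul, ih, redA_map, redC_map, ← redA_map, coeff_map, coeff_map]

theorem exists_disc (n : ℕ) : ∃ a c : R[X], a.natDegree ≤ n ∧ c.natDegree ≤ n ∧ c.coeff 0 = 0 ∧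
    a.coeff n = 1 ∧ disc n a c = 1 := by
  induction n with
  | zero => exact ⟨1, 0, by simp, by simp, by simp, by simp, by simp [disc]⟩
  | succ n ih =>
    obtain ⟨a, c, h1, h2, h3, h4, h5⟩ := ih
    have ha : a.coeff (n + 1) = 0 := coeff_eq_zero_of_natDegree_lt (by omega)
    have hc : c.coeff (n + 1) = 0 := coeff_eq_zero_of_natDegree_lt (by omega)
    have hX : (X * a).natDegree ≤ n + 1 := by
      refine natDegree_mul_le.trans ?_
      have : (X : R[X]).natDegree ≤ 1 := natDegree_X_le
      omega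
    have hc' : (c + X * a).natDegree ≤ n + 1 :=
      (natDegree_add_le _ _).trans (max_le (by omega) hX)
    have e1 : (c + X * a).coeff (n + 1) = 1 := by simp [coeff_X_mul, hc, h4]
    have e2 : (a + (c + X * a)).coeff (n + 1) = 1 := by rw [coeff_add, e1, ha, zero_add]
    have r1 : redA n (a + (c + X * a)) (c + X * a) = a := by
      rw [redA, e1, e2]; simp
    have r2 : redC n (a + (c + X * a)) (c + X * a) = c := by
      rw [redC, r1, e1, h4]; simp
    refine ⟨a + (c + X * a), c + X * a, (natDegree_add_le _ _).trans (max_le (by omega) hc'), hc',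
      by simp [h3], e2, ?_⟩
    rw [disc, r1, r2, e1, h4, h5]; simp

end Disc

section Inf

variable {k K : Type*} [Field k] [Field K] [Algebra k K]

/-- the vector `(p, q)` is, after scaling coordinates, proportional to a first column in `H` -/
def PCol (k : Type*) {K : Type*} [Field k] [Field K] [Algebra k K] (H : Subgroup SL(2, K))
    (p q : K) : Prop :=
  ∀ m1 m2 : k, m1 ≠ 0 → m2 ≠ 0 → ∃ h ∈ H, ∃ m : k, m ≠ 0 ∧
    h.1 0 0 = algebraMap k K (m * m1) * p ∧ h.1 1 0 = algebraMap k K (m * m2) * q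

variable {H : Subgroup SL(2, K)} {l : K}

theorem PCol.scaleL {p q : K} {t : k} (ht : t ≠ 0) (h : PCol k H (algebraMap k K t * p) q) :
    PCol k H p q := by
  intro m1 m2 h1 h2
  obtain ⟨g, hg, m, hm, e1, e2⟩ := h (m1 / t) m2 (div_ne_zero h1 ht) h2
  refine ⟨g, hg, m, hm, ?_, e2⟩
  rw [e1, ← mul_assoc, ← map_mul]
  congr 2; field_simp

theorem PCol.scaleR {p q : K} {t : k} (ht : t ≠ 0) (h : PCol k H p (algebraMap k K t * q)) :
    PCol k H p q := by
  intro m1 m2 h1 h2
  obtain ⟨g, hg, m, hm, e1, e2⟩ := h m1 (m2 / t) h1 (div_ne_zero h2 ht)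
  refine ⟨g, hg, m, hm, e1, ?_⟩
  rw [e2, ← mul_assoc, ← map_mul]
  congr 2; field_simp

theorem PCol.addL (hx : ∀ c : k, mU (algebraMap k K c) ∈ H) {p q : K} (h : PCol k H p q) (t : k) :
    PCol k H (p + algebraMap k K t * q) q := by
  intro m1 m2 h1 h2
  obtain ⟨g, hg, m, hm, e1, e2⟩ := h m1 m2 h1 h2
  refine ⟨mU (algebraMap k K (m1 * t / m2)) * g, H.mul_mem (hx _) hg, m, hm, ?_, ?_⟩
  · rw [(mU_mul _ g).1, e1, e2, mul_add, ← mul_assoc, ← mul_assoc, ← map_mul, ← map_mul]
    congr 3; field_simp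
  · rw [(mU_mul _ g).2.2.1, e2]

theorem PCol.addR (hy : ∀ c : k, mL (algebraMap k K c * l) ∈ H) {p q : K} (h : PCol k H p q)
    (t : k) : PCol k H p (q + algebraMap k K t * (l * p)) := by
  intro m1 m2 h1 h2
  obtain ⟨g, hg, m, hm, e1, e2⟩ := h m1 m2 h1 h2
  refine ⟨mL (algebraMap k K (m2 * t / m1) * l) * g, H.mul_mem (hy _) hg, m, hm, ?_, ?_⟩
  · rw [← e1]; simp [Matrix.mul_apply, Fin.sum_univ_two]
  · have : (mL (algebraMap k K (m2 * t / m1) * l) * g).1 1 0 =
        algebraMap k K (m2 * t / m1) * l * g.1 0 0 + g.1 1 0 := by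
      simp [Matrix.mul_apply, Fin.sum_univ_two]
    have h1' : algebraMap k K m1 ≠ 0 := by simpa using h1
    rw [this, e1, e2]
    simp only [map_mul, map_div₀]
    field_simp
    ring

theorem pcol_of_disc (hx : ∀ c : k, mU (algebraMap k K c) ∈ H)
    (hy : ∀ c : k, mL (algebraMap k K c * l) ∈ H) (n : ℕ) : ∀ a c : k[X], a.natDegree ≤ n →
    c.natDegree ≤ n → c.coeff 0 = 0 → disc n a c ≠ 0 → PCol k H (aeval l a) (aeval l c) := by
  induction n with
  | zero =>
    intro a c h1 h2 h3 h4 m1 m2 e1 e2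
    rw [disc] at h4
    rw [eq_C_of_natDegree_le_zero h1, eq_C_of_natDegree_le_zero h2, h3]
    refine ⟨1, H.one_mem, (m1 * a.coeff 0)⁻¹, inv_ne_zero (mul_ne_zero e1 h4), ?_, by simp⟩
    rw [aeval_C, ← map_mul, show (m1 * a.coeff 0)⁻¹ * m1 * a.coeff 0 = 1 by field_simp]
    simp
  | succ n ih =>
    intro a c h1 h2 h3 h4
    rw [disc] at h4
    have hc : c.coeff (n + 1) ≠ 0 := fun h => h4 (by rw [h]; simp)
    have ha : (redA n a c).coeff n ≠ 0 := fun h => h4 (by rw [h]; simp)
    have hd : disc n (redA n a c) (redC n a c) ≠ 0 := fun h => h4 (by rw [h]; simp)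
    have d1 : (redA n a c).natDegree ≤ n := by
      rw [natDegree_le_iff_coeff_eq_zero]
      intro N hN
      rcases (Nat.succ_le_of_lt hN).eq_or_lt with e | e
      · rw [redA, coeff_sub, coeff_C_mul, coeff_C_mul, ← e]; ring
      · have z1 : a.coeff N = 0 := coeff_eq_zero_of_natDegree_lt (by omega)
        have z2 : c.coeff N = 0 := coeff_eq_zero_of_natDegree_lt (by omega)
        rw [redA, coeff_sub, coeff_C_mul, coeff_C_mul, z1, z2]; ring
    have d2 : (redC n a c).natDegree ≤ n := by
      rw [natDegree_le_iff_coeff_eq_zero]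
      intro N hN
      obtain ⟨N, rfl⟩ : ∃ N', N = N' + 1 := ⟨N - 1, by omega⟩
      rw [redC, coeff_sub, coeff_C_mul, coeff_C_mul, coeff_X_mul]
      rcases (Nat.succ_le_of_lt hN).eq_or_lt with e | e
      · have : N = n := by omega
        rw [this]; ring
      · have z1 : (redA n a c).coeff N = 0 := coeff_eq_zero_of_natDegree_lt (by omega)
        have z2 : c.coeff (N + 1) = 0 := coeff_eq_zero_of_natDegree_lt (by omega)
        rw [z1, z2]; ring
    have d3 : (redC n a c).coeff 0 = 0 := by simp [redC, h3]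
    have P1 := (ih _ _ d1 d2 d3 hd).addR hy (c.coeff (n + 1))
    have e1 : aeval l (redC n a c) + algebraMap k K (c.coeff (n + 1)) * (l * aeval l (redA n a c))
        = algebraMap k K ((redA n a c).coeff n) * aeval l c := by
      rw [redC]; simp
    rw [e1] at P1
    have P2 := (P1.scaleR ha).addL hx (a.coeff (n + 1))
    have e2 : aeval l (redA n a c) + algebraMap k K (a.coeff (n + 1)) * aeval l c
        = algebraMap k K (c.coeff (n + 1)) * aeval l a := by
      rw [redA]; simp
    rw [e2] at P2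
    exact P2.scaleL hc

theorem conj_mU {g : SL(2, K)} (h : g.1 1 0 = 0) (t : K) :
    g * mU t * g⁻¹ = mU (g.1 0 0 ^ 2 * t) := by
  rw [mul_inv_eq_iff_eq_mul]
  have hd := m_det g
  rw [h, mul_zero, sub_zero] at hd
  ext i j
  fin_cases i <;> fin_cases j <;> simp [Matrix.mul_apply, Fin.sum_univ_two, h]
  linear_combination (-(g.1 0 0 * t)) * hd

theorem mU_of_pcol {p q r : K} (hx : ∀ c : k, mU (algebraMap k K c) ∈ H) (h1 : PCol k H p q)
    (h2 : PCol k H (r * p) (r * q)) (c : k) : mU (algebraMap k K c * r ^ 2) ∈ H := by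
  obtain ⟨g, hg, m, hm, e1, e2⟩ := h1 1 1 one_ne_zero one_ne_zero
  obtain ⟨g', hg', m', hm', e1', e2'⟩ := h2 1 1 one_ne_zero one_ne_zero
  have hm0 : algebraMap k K m ≠ 0 := by simpa using hm
  have hm0' : algebraMap k K m' ≠ 0 := by simpa using hm'
  have hd := m_det g
  rw [mul_one] at e1 e2 e1' e2'
  have f1 : g'.1 0 0 = algebraMap k K (m' / m) * r * g.1 0 0 := by
    rw [e1, e1', map_div₀]; field_simp
  have f2 : g'.1 1 0 = algebraMap k K (m' / m) * r * g.1 1 0 := by
    rw [e2, e2', map_div₀]; field_simp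
  have v1 : (g⁻¹ * g').1 1 0 = 0 := by
    simp [Matrix.mul_apply, Fin.sum_univ_two, adjugate_fin_two, f1, f2]; ring
  have v2 : (g⁻¹ * g').1 0 0 = algebraMap k K (m' / m) * r := by
    have : (g⁻¹ * g').1 0 0 = g.1 1 1 * g'.1 0 0 - g.1 0 1 * g'.1 1 0 := by
      simp [Matrix.mul_apply, Fin.sum_univ_two, adjugate_fin_two]; ring
    rw [this, f1, f2]
    linear_combination (algebraMap k K (m' / m) * r) * hd
  have := H.mul_mem (H.mul_mem (H.mul_mem (H.inv_mem hg) hg') (hx (c * (m / m') ^ 2)))
    (H.inv_mem (H.mul_mem (H.inv_mem hg) hg'))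
  rw [conj_mU v1, v2] at this
  convert this using 2
  simp only [map_mul, map_div₀, map_pow]
  field_simp

theorem mU_mem_of_infinite [Infinite k] [FiniteDimensional k K] (h2 : (2 : k) ≠ 0) (hl : l ≠ 0)
    (hgen : ∀ z : K, ∃ p : k[X], aeval l p = z) (hx : ∀ c : k, mU (algebraMap k K c) ∈ H)
    (hy : ∀ c : k, mL (algebraMap k K c * l) ∈ H) (ν : K) : mU ν ∈ H := by
  have hint : IsIntegral k l := IsIntegral.of_finite k l
  have hm := minpoly.monic hint
  have hred : ∀ z : K, ∃ p : k[X], aeval l p = z ∧ p.natDegree + 1 ≤ (minpoly k l).natDegree := by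
    intro z
    obtain ⟨p, rfl⟩ := hgen z
    refine ⟨p %ₘ minpoly k l, aeval_modByMonic_eq_self_of_root (minpoly.aeval k l), ?_⟩
    exact natDegree_modByMonic_lt p hm (minpoly.ne_one k l)
  set n := (minpoly k l).natDegree with hn
  obtain ⟨a, c, h1, h2', h3, -, h5⟩ := exists_disc (R := k) n
  obtain ⟨w1, hw1, dw1⟩ := hred (ν * aeval l a)
  obtain ⟨w2, hw2, dw2⟩ := hred (ν * aeval l c / l)
  set A : k[X][X] := a.map C + C X * w1.map C with hA
  set B : k[X][X] := c.map C + C X * (X * w2).map C with hB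
  have hev : ∀ s : k, (disc n A B).eval s = disc n (a + C s * w1) (c + C s * (X * w2)) := by
    intro s
    have := disc_map (evalRingHom s) n A B
    rw [coe_evalRingHom] at this
    rw [this, hA, hB]
    have hc : (evalRingHom s).comp C = RingHom.id k := by ext; simp
    simp [Polynomial.map_add, Polynomial.map_mul, Polynomial.map_map, hc]
  have hD : disc n A B ≠ 0 := by
    intro h
    have := hev 0
    rw [h] at this
    simp [h5] at this
  have hD' : (disc n A B).comp (-X) ≠ 0 := by
    intro h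
    have := congrArg (Polynomial.eval 0) h
    rw [eval_comp] at this
    simp only [eval_neg, eval_X, neg_zero, eval_zero] at this
    rw [hev 0] at this
    simp [h5] at this
  have hne : X * disc n A B * (disc n A B).comp (-X) ≠ 0 :=
    mul_ne_zero (mul_ne_zero X_ne_zero hD) hD'
  obtain ⟨s, hs⟩ : ∃ s : k, (X * disc n A B * (disc n A B).comp (-X)).eval s ≠ 0 := by
    by_contra hh
    push Not at hh
    exact hne (Polynomial.funext fun r => by rw [hh r, eval_zero])
  rw [eval_mul, eval_mul, eval_X, eval_comp, eval_neg, eval_X] at hs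
  have hs0 : s ≠ 0 := fun h => hs (by rw [h]; simp)
  have hP : ∀ t : k, (disc n A B).eval t ≠ 0 →
      PCol k H ((1 + algebraMap k K t * ν) * aeval l a) ((1 + algebraMap k K t * ν) * aeval l c) := by
    intro t ht
    rw [hev] at ht
    have := pcol_of_disc hx hy n _ _
      ((natDegree_add_le _ _).trans (max_le h1 ((natDegree_C_mul_le _ _).trans (by omega))))
      ((natDegree_add_le _ _).trans (max_le h2' ((natDegree_C_mul_le _ _).trans
        (natDegree_mul_le.trans (by have : (X : k[X]).natDegree ≤ 1 := natDegree_X_le; omega)))))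
      (by simp [h3]) ht
    convert this using 1
    · simp [hw1]; ring
    · simp [hw2]; field_simp
  have P0 : PCol k H (aeval l a) (aeval l c) :=
    pcol_of_disc hx hy n a c h1 h2' h3 (by rw [h5]; exact one_ne_zero)
  have u1 := mU_of_pcol hx P0 (hP s fun h => hs (by rw [h]; simp)) (4 * s)⁻¹
  have u2 := mU_of_pcol hx P0 (hP (-s) fun h => hs (by rw [h]; simp)) (-(4 * s)⁻¹)
  have := H.mul_mem u1 u2
  rw [← mU_add] at this
  convert this using 2
  have h4 : (4 : k) ≠ 0 := by
    have : (4 : k) = 2 * 2 := by norm_num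
    rw [this]; exact mul_ne_zero h2 h2
  have h4' : algebraMap k K 4 = 4 := map_ofNat _ 4
  have h4K : (4 : K) ≠ 0 := by rw [← h4']; simpa using h4
  have hsK : algebraMap k K s ≠ 0 := by simpa using hs0
  simp only [map_neg, map_inv₀, map_mul, h4']
  field_simp
  ring

theorem eq_top_of_mU {l : K} (hl : l ≠ 0) (hx : ∀ t : K, mU t ∈ H) (hy : mL l ∈ H) : H = ⊤ := by
  have hw : ∀ t : K, mL t = (mU (-l⁻¹) * mL l * mU (-l⁻¹)) * mU (-(t / l ^ 2)) *
      (mU (-l⁻¹) * mL l * mU (-l⁻¹))⁻¹ := by
    intro t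
    rw [eq_mul_inv_iff_mul_eq]
    ext i j
    fin_cases i <;> fin_cases j <;> simp [Matrix.mul_apply, Fin.sum_univ_two] <;>
      field_simp <;> ring_nf <;> simp
  rw [eq_top_iff, ← upper_sup_lower, sup_le_iff]
  constructor
  · intro g hg
    obtain ⟨t, rfl⟩ := mem_upper.1 hg
    exact hx t
  · intro g hg
    obtain ⟨t, rfl⟩ := mem_lower.1 hg
    have h1 := H.mul_mem (H.mul_mem (hx (-l⁻¹)) hy) (hx (-l⁻¹))
    rw [hw]
    exact H.mul_mem (H.mul_mem h1 (hx _)) (H.inv_mem h1)

open Cfsg.Agent.Classical Cfsg.Agent.Classical.P1 Cfsg.Agent.Classical.Dickson in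
theorem eq_top_of_finite [Finite k] [FiniteDimensional k K] (h2 : (2 : k) ≠ 0)
    (h3 : Nat.card k ≠ 3) (hl : l ≠ 0)
    (hgen : ∀ z : K, ∃ p : k[X], aeval l p = z) (hx : ∀ c : k, mU (algebraMap k K c) ∈ H)
    (hy : ∀ c : k, mL (algebraMap k K c * l) ∈ H) : H = ⊤ := by
  haveI : Finite K := Module.finite_of_finite k
  obtain ⟨p, hp⟩ := CharP.exists k
  haveI : Fact p.Prime := ⟨CharP.char_is_prime k p⟩
  haveI : CharP K p := charP_of_injective_algebraMap (algebraMap k K).injective p
  set H' : Subgroup PGL(2, K) := H.map SpecialLinearGroup.toPGL with hH'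
  have hU : ∀ t : K, SpecialLinearGroup.toPGL (mU t) = aff 1 t := by
    intro t
    rw [aff]
    refine congrArg ProjGenLinGroup.mk ?_
    ext i j
    fin_cases i <;> fin_cases j <;> rfl
  have hx' : ∀ c : k, aff 1 (algebraMap k K c) ∈ H' := fun c => ⟨_, hx c, hU _⟩
  have hy' : SpecialLinearGroup.toPGL (mL l) ∈ H' := ⟨_, by simpa using hy 1, rfl⟩
  have hyinf : SpecialLinearGroup.toPGL (mL l) • (inf : PL K) = pt l⁻¹ := by
    change ProjGenLinGroup.mk (SpecialLinearGroup.toGL (mL l)) • _ = _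
    rw [P1.mk_smul, smul_inf_eq_pt_iff]
    change (1 : K) = l⁻¹ * l
    field_simp
  have w0 : IsWild p H' inf := by
    refine ⟨aff 1 1, by simpa using hx' 1, by simp [aff_eq_one_iff], ?_, aff_smul_inf _ _⟩
    rw [aff_pow_char_iff]
  have w1 : IsWild p H' (pt 0) := by
    refine ⟨_, hy', ?_, ?_, ?_⟩
    · change ProjGenLinGroup.mk (SpecialLinearGroup.toGL (mL l)) ≠ 1
      rw [Ne, mk_eq_one_iff]
      rintro ⟨-, h, -⟩
      exact hl h
    · rw [← map_pow]
      have : ∀ n : ℕ, mL l ^ n = mL (n * l) := by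
        intro n
        induction n with
        | zero => simp [mL_zero]
        | succ n ih => rw [pow_succ, ih, ← mL_add]; congr 1; push_cast; ring
      rw [this, CharP.cast_eq_zero, zero_mul, mL_zero, map_one]
    · change ProjGenLinGroup.mk (SpecialLinearGroup.toGL (mL l)) • _ = _
      rw [P1.mk_smul, smul_pt_eq_pt_iff]
      change (1 : K) * 0 + 0 = 0 * _
      simp
  have wc : ∀ c : k, IsWild p H' (pt (algebraMap k K c)) := by
    intro c
    have := w1.smul (hx' c)
    simpa using this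
  let f : Multiplicative k →* H' :=
    { toFun := fun c => ⟨aff 1 (algebraMap k K c.toAdd), hx' _⟩
      map_one' := by ext; simp [aff_eq_one_iff]
      map_mul' := by intro a b; ext; simp [aff_mul, add_comm] }
  have hf : Function.Injective f := by
    intro a b h
    have := congrArg Subtype.val h
    simp only [f, MonoidHom.coe_mk, OneHom.coe_mk, aff_inj, true_and] at this
    exact (algebraMap k K).injective this
  have hdvd : Nat.card k ∣ Nat.card H' := by
    have := Subgroup.card_dvd_of_injective f hf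
    rwa [Nat.card_congr Multiplicative.toAdd] at this
  haveI := Fintype.ofFinite k
  obtain ⟨n, -, hn⟩ := FiniteField.card k p
  rw [← Nat.card_eq_fintype_card] at hn
  have hpH : p ∣ Nat.card H' := (hn ▸ dvd_pow_self p n.ne_zero).trans hdvd
  rcases P1Inst.wild_of_injective H'.subtype H'.subtype_injective hpH with h | h | h | h
  · have := fixed_of_card_sylow w0 h _ hy'
    rw [hyinf] at this
    have h4 := (mk_eq_mk_iff_det _ _).1 this
    simp at h4
  · exact absurd (by have := CharP.cast_eq_zero k p; rw [h.1] at this; exact_mod_cast this) h2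
  · obtain ⟨rfl, ⟨e⟩⟩ := h
    rw [Nat.card_congr e.toEquiv, DicksonSL.card_A5, hn] at hdvd
    have : 2 ≤ (n : ℕ) := by
      by_contra h5
      have : (n : ℕ) = 1 := by have := n.pos; omega
      rw [this] at hn
      exact h3 hn
    exact absurd ((pow_dvd_pow 3 this).trans hdvd) (by norm_num)
  · obtain ⟨L, -, -, h5, h6⟩ := ident_of_wild H' h w0 w1 (by simpa using wc 1)
    have hk : ∀ c : k, algebraMap k K c ∈ L := fun c => (h5 _).1 (wc c)
    have hlL : l ∈ L := by
      have := (h5 _).1 (hyinf ▸ w0.smul hy')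
      simpa using L.inv_mem this
    have hL : ∀ z, z ∈ L := by
      intro z
      obtain ⟨q, rfl⟩ := hgen z
      rw [aeval_eq_sum_range]
      refine sum_mem fun i _ => ?_
      rw [Algebra.smul_def]
      exact L.mul_mem (hk _) (L.pow_mem hlL _)
    have h7 : P1Ident.subPSL L ≤ H' := by
      rcases h6 with h6 | h6
      · rw [h6]; exact P1Ident.subPSL_le_subPGL L
      · exact h6.ge
    have h8 := DicksonSL.range_map_le_of_subPSL_le p h7
    refine eq_top_of_mU hl (fun t => h8 ⟨mU ⟨t, hL t⟩, ?_⟩) (by simpa using hy 1)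
    ext i j
    fin_cases i <;> fin_cases j <;> simp

/-- Dickson's lemma -/
theorem dickson_gen [FiniteDimensional k K] (h2 : (2 : k) ≠ 0) (h3 : Nat.card k ≠ 3) (hl : l ≠ 0)
    (hgen : ∀ z : K, ∃ p : k[X], aeval l p = z) (hx : ∀ c : k, mU (algebraMap k K c) ∈ H)
    (hy : ∀ c : k, mL (algebraMap k K c * l) ∈ H) : H = ⊤ := by
  cases finite_or_infinite k
  · exact eq_top_of_finite h2 h3 hl hgen hx hy
  · exact eq_top_of_mU hl (mU_mem_of_infinite h2 hl hgen hx hy) (by simpa using hy 1)

theorem two_ne_zero_of_ringChar (h : ringChar k ≠ 2) : (2 : k) ≠ 0 := by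
  intro h2
  apply h
  have h3 : ringChar k ∣ 2 := (ringChar.spec k 2).1 (by exact_mod_cast h2)
  rcases (Nat.dvd_prime Nat.prime_two).1 h3 with h4 | h4
  · exact absurd h4 (CharP.ringChar_ne_one)
  · exact h4

end Inf

end Cfsg.Agent.Root
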