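import Mathlib
import Cfsg.Agent.Root.Q1

/-! Calculus in the algebra generated by two elements of square zero. -/

set_option autoImplicit false

namespace Cfsg.Agent.Root

open Polynomial

section Calc

variable {k : Type*} [Field k] {R : Type*} [Ring R] [Algebra k R]

/-- the anticommutator -/
def gam (α β : R) : R := α * β + β * α

theorem gam_comm (α β : R) : gam α β = gam β α := add_comm _ _

/-- the element corresponding to the matrix `[[z + X p, q], [X r, z]]` -/
noncomputable def TT (α β : R) (z p q r : k[X]) : R :=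
  aeval (gam α β) z + aeval (gam α β) p * (α * β) + aeval (gam α β) q * α + aeval (gam α β) r * β

variable {α β : R}

theorem gam_mul_left (ha : α * α = 0) : gam α β * α = α * β * α := by
  rw [gam, add_mul, mul_assoc β, ha, mul_zero, add_zero]

theorem mul_gam_left (ha : α * α = 0) : α * gam α β = α * β * α := by
  rw [gam, mul_add, ← mul_assoc, ha, zero_mul, zero_add, mul_assoc]

theorem gam_mul_right (hb : β * β = 0) : gam α β * β = β * α * β := by
  rw [gam_comm, gam_mul_left hb]

theorem commute_gam_left (ha : α * α = 0) : Commute α (gam α β) := by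
  rw [Commute, SemiconjBy, gam_mul_left ha, mul_gam_left ha]

theorem commute_gam_right (hb : β * β = 0) : Commute β (gam α β) := by
  rw [gam_comm]; exact commute_gam_left hb

theorem commute_aeval {x y : R} (h : Commute x y) (p : k[X]) : Commute x (aeval y p) := by
  induction p using Polynomial.induction_on' with
  | add p q hp hq => rw [map_add]; exact hp.add_right hq
  | monomial n a =>
    rw [aeval_monomial]
    exact (Algebra.commute_algebraMap_right a x).mul_right (h.pow_right n)

theorem mul_ev_left (ha : α * α = 0) (p : k[X]) :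
    α * aeval (gam α β) p = aeval (gam α β) p * α := commute_aeval (commute_gam_left ha) p

theorem mul_ev_right (hb : β * β = 0) (p : k[X]) :
    β * aeval (gam α β) p = aeval (gam α β) p * β := commute_aeval (commute_gam_right hb) p

theorem TT_add (z p q r z' p' q' r' : k[X]) :
    TT α β z p q r + TT α β z' p' q' r' = TT α β (z + z') (p + p') (q + q') (r + r') := by
  simp only [TT, map_add, add_mul]; abel

theorem TT_sub (z p q r z' p' q' r' : k[X]) :
    TT α β z p q r - TT α β z' p' q' r' = TT α β (z - z') (p - p') (q - q') (r - r') := by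
  simp only [TT, map_sub, sub_mul]; abel

theorem TT_neg (z p q r : k[X]) : -TT α β z p q r = TT α β (-z) (-p) (-q) (-r) := by
  simp only [TT, map_neg, neg_mul]; abel

theorem ev_mul_TT (u z p q r : k[X]) :
    aeval (gam α β) u * TT α β z p q r = TT α β (u * z) (u * p) (u * q) (u * r) := by
  simp only [TT, map_mul, mul_add, mul_assoc]

theorem smul_TT (c : k) (z p q r : k[X]) :
    c • TT α β z p q r = TT α β (C c * z) (C c * p) (C c * q) (C c * r) := by
  rw [← ev_mul_TT, aeval_C, Algebra.smul_def]

theorem TT_one : TT α β (1 : k[X]) 0 0 0 = 1 := by simp [TT]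
theorem TT_zero : TT α β (0 : k[X]) 0 0 0 = 0 := by simp [TT]
theorem TT_ev (z : k[X]) : TT α β z 0 0 0 = aeval (gam α β) z := by simp [TT]
theorem TT_al (q : k[X]) : TT α β 0 0 q 0 = aeval (gam α β) q * α := by simp [TT]
theorem TT_be (r : k[X]) : TT α β 0 0 0 r = aeval (gam α β) r * β := by simp [TT]
theorem TT_al1 : TT α β (0 : k[X]) 0 1 0 = α := by simp [TT]
theorem TT_be1 : TT α β (0 : k[X]) 0 0 1 = β := by simp [TT]

theorem TT_congr {z p q r z' p' q' r' : k[X]} (h1 : z = z') (h2 : p = p') (h3 : q = q')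
    (h4 : r = r') : TT α β z p q r = TT α β z' p' q' r' := by rw [h1, h2, h3, h4]

theorem al_mul_TT (ha : α * α = 0) (hb : β * β = 0) (z p q r : k[X]) :
    α * TT α β z p q r = TT α β 0 r z 0 := by
  simp only [TT, mul_add, ← mul_assoc, mul_ev_left ha, map_zero, zero_mul, zero_add, add_zero]
  simp only [mul_assoc, ha, mul_zero, add_zero]
  rw [zero_mul, add_zero, add_comm]

theorem be_mul_TT (ha : α * α = 0) (hb : β * β = 0) (z p q r : k[X]) :
    β * TT α β z p q r = TT α β (X * q) (-q) 0 (z + X * p) := by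
  simp only [TT, mul_add, ← mul_assoc, mul_ev_right hb, map_zero, zero_mul, add_zero]
  have e1 : aeval (gam α β) p * β * α * β = aeval (gam α β) (X * p) * β := by
    rw [mul_comm X p, map_mul, aeval_X, mul_assoc _ (gam α β), gam_mul_right hb]
    simp only [mul_assoc]
  have e2 : aeval (gam α β) q * β * α = aeval (gam α β) (X * q) - aeval (gam α β) q * α * β := by
    rw [mul_comm X q, map_mul, aeval_X, mul_assoc, mul_assoc, ← mul_sub, gam]
    congr 1; abel
  rw [e1, e2, mul_assoc _ β β, hb, map_add, map_neg]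
  simp only [add_mul, neg_mul, mul_zero]
  abel

theorem TT_mul (ha : α * α = 0) (hb : β * β = 0) (z p q r z' p' q' r' : k[X]) :
    TT α β z p q r * TT α β z' p' q' r' = TT α β (z * z' + X * r * q')
      (z * p' + p * z' + X * p * p' + q * r' - r * q') ((z + X * p) * q' + q * z')
      (r * (z' + X * p') + z * r') := by
  conv_lhs => rw [TT.eq_1 α β z]
  rw [add_mul, add_mul, add_mul, mul_assoc, mul_assoc, mul_assoc, mul_assoc, be_mul_TT ha hb,
    al_mul_TT ha hb, al_mul_TT ha hb, ev_mul_TT, ev_mul_TT, ev_mul_TT, ev_mul_TT, TT_add, TT_add,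
    TT_add]
  exact TT_congr (by ring) (by ring) (by ring) (by ring)

theorem TT_flip (z p q r : k[X]) : TT (-α) (-β) z p q r = TT α β z p (-q) (-r) := by
  have : gam (-α) (-β) = gam α β := by simp [gam]
  simp [TT, this]

theorem ev_be_of_ev_al (hb : β * β = 0) {c : k[X]} (h : aeval (gam α β) c * α = 0) :
    aeval (gam α β) (X * c) * β = 0 := by
  rw [mul_comm X c, map_mul, aeval_X, mul_assoc, gam_mul_right hb, ← mul_assoc, ← mul_assoc,
    ← mul_ev_right hb, mul_assoc β, h, mul_zero, zero_mul]

theorem ev_of_ev_al (hb : β * β = 0) {c : k[X]} (h : aeval (gam α β) c * α = 0) :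
    aeval (gam α β) (X * c) = 0 := by
  rw [mul_comm X c, map_mul, aeval_X]
  conv_lhs => rw [show gam α β = gam α β from rfl]; enter [2]; rw [gam]
  rw [mul_add, ← mul_assoc, h, zero_mul, zero_add, ← mul_assoc, ← mul_ev_right hb, mul_assoc, h,
    mul_zero]

theorem TT_eq_zero (hb : β * β = 0) {c : k[X]} (h : aeval (gam α β) c * α = 0)
    {z p q r : k[X]} (h1 : X * c ∣ z) (h2 : c ∣ p) (h3 : c ∣ q) (h4 : X * c ∣ r) :
    TT α β z p q r = 0 := by
  obtain ⟨z, rfl⟩ := h1
  obtain ⟨p, rfl⟩ := h2
  obtain ⟨q, rfl⟩ := h3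
  obtain ⟨r, rfl⟩ := h4
  rw [TT, mul_comm _ z, mul_comm _ p, mul_comm _ q, mul_comm _ r, map_mul _ z, map_mul _ p,
    map_mul _ q, map_mul _ r, ev_of_ev_al hb h, mul_assoc, mul_assoc, mul_assoc, ← mul_assoc _ α β,
    h]
  simp

/-- the conjugate of `α` by the element with first column `(a, X r)` -/
noncomputable def NT (α β : R) (a r : k[X]) : R :=
  TT α β (X * a * r) (-(2 * a * r)) (a ^ 2) (-(X * r ^ 2))

theorem TT_conj (ha : α * α = 0) (hb : β * β = 0) (z p q r : k[X]) :
    TT α β z p q r * α * TT α β (z + X * p) (-p) (-q) (-r) = NT α β (z + X * p) r := by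
  rw [mul_assoc, al_mul_TT ha hb, TT_mul ha hb, NT]
  exact TT_congr (by ring) (by ring) (by ring) (by ring)

theorem TT_mul_inv (ha : α * α = 0) (hb : β * β = 0) {z p q r : k[X]}
    (h : z * (z + X * p) - X * q * r = 1) :
    TT α β z p q r * TT α β (z + X * p) (-p) (-q) (-r) = 1 := by
  rw [TT_mul ha hb, ← TT_one (k := k) (α := α) (β := β)]
  exact TT_congr (by linear_combination h) (by ring) (by ring) (by ring)

theorem gam_NT (ha : α * α = 0) (hb : β * β = 0) (a r : k[X]) :
    gam α (NT α β a r) = aeval (gam α β) (-(X * r) ^ 2) := by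
  rw [gam, NT, al_mul_TT ha hb]
  conv_lhs => enter [2, 2]; rw [← TT_al1 (k := k) (α := α) (β := β)]
  rw [TT_mul ha hb, TT_add, ← TT_ev]
  exact TT_congr (by ring) (by ring) (by ring) (by ring)

theorem gam_NT_be (ha : α * α = 0) (hb : β * β = 0) (a r : k[X]) :
    gam (NT α β a r) β = aeval (gam α β) (X * a ^ 2) := by
  rw [gam, NT, be_mul_TT ha hb]
  conv_lhs => enter [1, 2]; rw [← TT_be1 (k := k) (α := α) (β := β)]
  rw [TT_mul ha hb, TT_add, ← TT_ev]
  exact TT_congr (by ring) (by ring) (by ring) (by ring)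

end Calc

end Cfsg.Agent.Root
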