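import Mathlib
import Cfsg.Agent.Root.Q2

/-! Quadratic elements of a linear group: the structure of pairs. -/

set_option autoImplicit false

namespace Cfsg.Agent.Root

open Polynomial Matrix
open scoped MatrixGroups commutatorElement

variable {k : Type*} [Field k] {M : Type*} [AddCommGroup M] [Module k M]

/-- `x` is an element of `G` -/
def InG (G : Subgroup (LinearMap.GeneralLinearGroup k M)) (x : Module.End k M) : Prop :=
  ∃ g ∈ G, (g : M →ₗ[k] M) = x

/-- square zero endomorphisms whose scalar family lies in `G` -/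
def NN (G : Subgroup (LinearMap.GeneralLinearGroup k M)) (α : Module.End k M) : Prop :=
  α * α = 0 ∧ ∀ c : k, InG G (1 + c • α)

/-- the rank -/
noncomputable def rk (α : Module.End k M) : ℕ := Module.finrank k (LinearMap.range α)

/-- non-zero members of `NN G` of minimal rank -/
structure ND (G : Subgroup (LinearMap.GeneralLinearGroup k M)) (α : Module.End k M) : Prop where
  nn : NN G α
  ne : α ≠ 0
  min : ∀ β, NN G β → β ≠ 0 → rk α ≤ rk β

variable {G : Subgroup (LinearMap.GeneralLinearGroup k M)} {α β : Module.End k M}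

theorem InG.mul {x y : Module.End k M} (hx : InG G x) (hy : InG G y) : InG G (x * y) := by
  obtain ⟨g, hg, rfl⟩ := hx
  obtain ⟨h, hh, rfl⟩ := hy
  exact ⟨g * h, G.mul_mem hg hh, rfl⟩

theorem InG.one : InG G 1 := ⟨1, G.one_mem, rfl⟩

theorem InG.inv {x y : Module.End k M} (hx : InG G x) (h : x * y = 1) : InG G y := by
  obtain ⟨g, hg, rfl⟩ := hx
  exact ⟨g⁻¹, G.inv_mem hg, Units.inv_eq_of_mul_eq_one_right h⟩

theorem InG.mul_comm' {x y : Module.End k M} (hx : InG G x) (h : x * y = 1) : y * x = 1 := by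
  obtain ⟨g, hg, rfl⟩ := hx
  rw [← Units.inv_eq_of_mul_eq_one_right h, Units.inv_mul]

theorem NN.zero : NN G (0 : Module.End k M) := ⟨by simp, fun c => by simpa using InG.one⟩

theorem NN.smul (h : NN G α) (c : k) : NN G (c • α) :=
  ⟨by rw [smul_mul_smul_comm, h.1, smul_zero], fun d => by rw [smul_smul]; exact h.2 _⟩

theorem NN.neg (h : NN G α) : NN G (-α) := by simpa using h.smul (-1)

theorem NN.add (h : NN G α) (h' : NN G β) (h1 : α * β = 0) (h2 : β * α = 0) : NN G (α + β) := by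
  refine ⟨by rw [add_mul, mul_add, mul_add, h.1, h'.1, h1, h2]; simp, fun c => ?_⟩
  convert (h.2 c).mul (h'.2 c) using 1
  rw [add_mul, mul_add, mul_add, smul_mul_smul_comm, h1]
  simp only [one_mul, mul_one, smul_zero, add_zero, smul_add]; abel

theorem NN.sub (h : NN G α) (h' : NN G β) (h1 : α * β = 0) (h2 : β * α = 0) : NN G (α - β) := by
  rw [sub_eq_add_neg]
  exact h.add h'.neg (by rw [mul_neg, h1, neg_zero]) (by rw [neg_mul, h2, neg_zero])

theorem NN.inG (h : NN G α) : InG G (1 + α) := by simpa using h.2 1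

theorem NN.inG' (h : NN G α) : InG G (1 - α) := by simpa [sub_eq_add_neg] using h.2 (-1)

theorem one_add_mul_one_sub (h : α * α = 0) : (1 + α) * (1 - α) = 1 := by
  rw [add_mul, mul_sub, mul_sub, h]; simp

theorem NN.conj (h : NN G α) {x y : Module.End k M} (hx : InG G x) (e : x * y = 1) :
    NN G (x * α * y) := by
  have e' := hx.mul_comm' e
  refine ⟨?_, fun c => ?_⟩
  · calc x * α * y * (x * α * y) = x * α * (y * x) * α * y := by simp only [mul_assoc]
      _ = 0 := by rw [e', mul_one, mul_assoc x, h.1, mul_zero, zero_mul]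
  · convert (hx.mul (h.2 c)).mul (hx.inv e) using 1
    rw [mul_add, add_mul, mul_one, e, mul_smul_comm, smul_mul_assoc]

theorem NN.comm (h : NN G α) (h' : NN G β) (h1 : α * β * α = 0) (h2 : β * α * β = 0) :
    NN G (α * β - β * α) := by
  have ha := h.1
  have hb := h'.1
  have h1' : ∀ x, α * (β * (α * x)) = 0 := fun x => by
    rw [← mul_assoc, ← mul_assoc, h1, zero_mul]
  have h2' : ∀ x, β * (α * (β * x)) = 0 := fun x => by
    rw [← mul_assoc, ← mul_assoc, h2, zero_mul]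
  have ha' : ∀ x, α * (α * x) = 0 := fun x => by rw [← mul_assoc, ha, zero_mul]
  have hb' : ∀ x, β * (β * x) = 0 := fun x => by rw [← mul_assoc, hb, zero_mul]
  rw [mul_assoc] at h1 h2
  refine ⟨?_, fun c => ?_⟩
  · simp only [sub_mul, mul_sub, mul_assoc, h1', h2', ha', hb', h1, h2, mul_zero, sub_zero]
  · convert (((h.2 c).mul h'.inG).mul (h.2 (-c))).mul h'.inG' using 1
    simp only [sub_mul, mul_sub, add_mul, mul_add, mul_assoc, h1', h2', ha', hb', h1, h2, mul_zero,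
      one_mul, mul_one, smul_mul_assoc, mul_smul_comm, ha, hb, smul_zero, neg_smul, mul_neg,
      neg_mul, smul_sub, smul_add, smul_neg, zero_mul]
    abel

theorem rk_mul_le_right [FiniteDimensional k M] (x y : Module.End k M) : rk (x * y) ≤ rk y := by
  rw [rk, rk, Module.End.mul_eq_comp, LinearMap.range_comp]
  exact Submodule.finrank_map_le _ _

theorem rk_mul_le_left [FiniteDimensional k M] (x y : Module.End k M) : rk (x * y) ≤ rk x :=
  Submodule.finrank_mono (LinearMap.range_comp_le_range _ _)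

theorem rk_mul_lt [FiniteDimensional k M] {x y : Module.End k M} {v : M}
    (hv : v ∈ LinearMap.range y) (hv0 : v ≠ 0) (hx : x v = 0) : rk (x * y) < rk y := by
  rw [rk, rk, Module.End.mul_eq_comp, LinearMap.range_comp]
  have h1 := LinearMap.finrank_range_add_finrank_ker (x.domRestrict (LinearMap.range y))
  rw [LinearMap.range_domRestrict] at h1
  have h2 : 0 < Module.finrank k (LinearMap.ker (x.domRestrict (LinearMap.range y))) := by
    rw [Module.finrank_pos_iff_exists_ne_zero]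
    exact ⟨⟨⟨v, hv⟩, hx⟩, fun h => hv0 (congrArg (fun t => (t.1.1 : M)) h)⟩
  omega

theorem rk_conj [FiniteDimensional k M] {x y : Module.End k M} (e : x * y = 1) (e' : y * x = 1) :
    rk (x * α * y) = rk α := by
  apply le_antisymm ((rk_mul_le_left _ _).trans (rk_mul_le_right _ _))
  have : α = y * (x * α * y) * x := by
    calc α = (y * x) * α * (y * x) := by rw [e', one_mul, mul_one]
      _ = _ := by simp only [mul_assoc]
  conv_lhs => rw [this]
  exact (rk_mul_le_left _ _).trans (rk_mul_le_right _ _)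

theorem ND.of_rk_le (h : ND G α) (h' : NN G β) (h0 : β ≠ 0) (hr : rk β ≤ rk α) : ND G β :=
  ⟨h', h0, fun ξ h1 h2 => hr.trans (h.min ξ h1 h2)⟩

theorem ND.rk_eq (h : ND G α) (h' : ND G β) : rk α = rk β :=
  le_antisymm (h.min β h'.nn h'.ne) (h'.min α h.nn h.ne)

theorem ND.conj [FiniteDimensional k M] (h : ND G α) {x y : Module.End k M} (hx : InG G x)
    (e : x * y = 1) : ND G (x * α * y) := by
  have e' := hx.mul_comm' e
  refine h.of_rk_le (h.nn.conj hx e) (fun h0 => h.ne ?_) (rk_conj e e').le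
  calc α = (y * x) * α * (y * x) := by rw [e', one_mul, mul_one]
    _ = y * (x * α * y) * x := by simp only [mul_assoc]
    _ = 0 := by rw [h0, mul_zero, zero_mul]

theorem ND.eq_zero (h : ND G α) (h' : NN G β) (hr : rk β < rk α) : β = 0 := by
  by_contra h0
  exact absurd (h.min β h' h0) (not_le.2 hr)

theorem ND.mul_eq_zero [FiniteDimensional k M] (h : ND G α) {x : Module.End k M}
    (h' : NN G (x * α)) {v : M} (hv : v ∈ LinearMap.range α) (hv0 : v ≠ 0) (hx : x v = 0) :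
    x * α = 0 := h.eq_zero h' (rk_mul_lt hv hv0 hx)

theorem ND.neg (h : ND G α) : ND G (-α) :=
  h.of_rk_le h.nn.neg (neg_ne_zero.2 h.ne) (by rw [rk, rk, LinearMap.range_neg])

theorem ND.smul (h : ND G α) {c : k} (hc : c ≠ 0) : ND G (c • α) :=
  h.of_rk_le (h.nn.smul c) (smul_ne_zero hc h.ne) (by rw [rk, rk, LinearMap.range_smul _ _ hc])

theorem four_ne_zero' (h2 : (2 : k) ≠ 0) : (4 : k) ≠ 0 := by
  have : (4 : k) = 2 * 2 := by norm_num
  rw [this]; exact mul_ne_zero h2 h2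

theorem ev_ker_mul {γ : Module.End k M} {f : k[X]} {v : M} (h : aeval γ f v = 0) (g : k[X]) :
    aeval γ (g * f) v = 0 := by
  rw [map_mul, Module.End.mul_apply, h, map_zero]

theorem ev_ker_of_dvd {γ : Module.End k M} {f g : k[X]} {v : M} (h : aeval γ f v = 0)
    (hd : f ∣ g) : aeval γ g v = 0 := by
  obtain ⟨u, rfl⟩ := hd
  rw [mul_comm]; exact ev_ker_mul h u

theorem ev_zero_of_dvd {γ x : Module.End k M} {f g : k[X]} (h : aeval γ f * x = 0)
    (hd : f ∣ g) : aeval γ g * x = 0 := by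
  obtain ⟨u, rfl⟩ := hd
  rw [mul_comm f, map_mul, mul_assoc, h, mul_zero]

theorem dvd_of_ev_ker {γ : Module.End k M} {f g : k[X]} (hf : Irreducible f) {v : M} (hv : v ≠ 0)
    (h : aeval γ f v = 0) (h' : aeval γ g v = 0) : f ∣ g := by
  by_contra hn
  obtain ⟨a, b, e⟩ := (hf.coprime_iff_not_dvd).2 hn
  apply hv
  have := congrArg (fun t => aeval γ t v) e
  simp only [map_add, LinearMap.add_apply, ev_ker_mul h, ev_ker_mul h', map_one,
    Module.End.one_apply, add_zero] at this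
  exact this.symm

/-- the basic killing lemma -/
theorem kill [FiniteDimensional k M] (h2 : (2 : k) ≠ 0) (hα : ND G α) (hb : β * β = 0)
    {a r : k[X]} (h1 : NN G (NT α β a r)) (h1' : NN G (NT α β a (-r)))
    (hcop : IsCoprime a (X * r)) (hc : aeval (gam α β) ((X * r) ^ 2) * α = 0) {v : M}
    (hv : v ∈ LinearMap.range α) (hv0 : v ≠ 0) (hx : aeval (gam α β) (X * r) v = 0) :
    aeval (gam α β) (X * r) * α = 0 := by
  have ha := hα.nn.1
  have key : ∀ s : k[X], s ^ 2 = r ^ 2 → NN G (NT α β a s) →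
      NN G (TT α β ((X * r) ^ 2) (-(2 * X * r ^ 2)) (2 * a * X * s) 0) := by
    intro s hs h
    have e1 : α * NT α β a s * α = 0 := by
      rw [← gam_mul_left ha, gam_NT ha hb, mul_pow, hs, ← mul_pow, map_neg, neg_mul, hc, neg_zero]
    have e2 : NT α β a s * α * NT α β a s = 0 := by
      rw [← gam_mul_right h.1, gam_NT ha hb, NT, ev_mul_TT, mul_pow, hs, ← mul_pow]
      exact TT_eq_zero hb hc ⟨-(a * s), by ring⟩ ⟨2 * a * s, by ring⟩ ⟨-a ^ 2, by ring⟩
        ⟨s ^ 2, by rw [← hs]; ring⟩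
    have := hα.nn.comm h e1 e2
    convert this using 1
    rw [NT, al_mul_TT ha hb]
    conv_rhs => enter [2, 2]; rw [← TT_al1 (k := k) (α := α) (β := β)]
    rw [TT_mul ha hb, TT_sub]
    exact TT_congr (by rw [mul_pow, ← hs]; ring) (by rw [← hs]; ring) (by ring) (by ring)
  have k1 := key r rfl h1
  have k2 := key (-r) (by ring) h1'
  have k3 := k1.sub k2 (by
    rw [TT_mul ha hb]
    exact TT_eq_zero hb hc ⟨X * r ^ 2, by ring⟩ ⟨0, by ring⟩ ⟨4 * a * X * r, by ring⟩ ⟨0, by ring⟩)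
    (by
    rw [TT_mul ha hb]
    exact TT_eq_zero hb hc ⟨X * r ^ 2, by ring⟩ ⟨0, by ring⟩ ⟨-(4 * a * X * r), by ring⟩
      ⟨0, by ring⟩)
  rw [TT_sub, TT_congr (z' := 0) (p' := 0) (q' := C 4 * a * (X * r)) (r' := 0) (by ring) (by ring)
    (by rw [show (C 4 : k[X]) = 4 from rfl]; ring) (by ring), TT_al] at k3
  have k4 := hα.mul_eq_zero k3 hv hv0 (ev_ker_mul hx _)
  obtain ⟨u, w, e⟩ := hcop
  have : X * r = C 4⁻¹ * u * (C 4 * a * (X * r)) + w * (X * r) ^ 2 := by
    have h4 : (C 4⁻¹ : k[X]) * C 4 = 1 := by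
      rw [← C_mul, inv_mul_cancel₀ (four_ne_zero' h2), C_1]
    linear_combination (-(X * r)) * e - u * a * (X * r) * h4
  rw [this, map_add, add_mul, ev_zero_of_dvd k4 (dvd_mul_left _ _),
    ev_zero_of_dvd hc (dvd_mul_left _ _), add_zero]

section Delta

variable {K : Type*} [Field K] [Algebra k K]

/-- the correspondence between matrices over `k[X]`, their values at `l` and elements of `G` -/
def Delta (G : Subgroup (LinearMap.GeneralLinearGroup k M)) {α β : Module.End k M}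
    (ha : α * α = 0) (hb : β * β = 0) (l : K) :
    Subgroup (SL(2, K) × Multiplicative k × LinearMap.GeneralLinearGroup k M) where
  carrier := {x | ∃ z p q r : k[X], z.coeff 0 = 1 ∧ z * (z + X * p) - X * q * r = 1 ∧
    x.1.1 0 0 = aeval l (z + X * p) ∧ x.1.1 0 1 = aeval l q ∧ x.1.1 1 0 = aeval l (X * r) ∧
    x.1.1 1 1 = aeval l z ∧ x.2.1.toAdd = r.coeff 0 ∧
    (x.2.2 : M →ₗ[k] M) = TT α β z p q r ∧ x.2.2 ∈ G ∧ InG G (TT α β z p (-q) (-r))}
  one_mem' := ⟨1, 0, 0, 0, by simp, by simp, by simp, by simp, by simp, by simp, by simp,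
    by rw [TT_one]; rfl, G.one_mem, by rw [neg_zero, TT_one]; exact InG.one⟩
  mul_mem' := by
    rintro x y ⟨z, p, q, r, h1, h2, h3, h4, h5, h6, h7, h8, h9, h10⟩
      ⟨z', p', q', r', h1', h2', h3', h4', h5', h6', h7', h8', h9', h10'⟩
    refine ⟨z * z' + X * r * q', z * p' + p * z' + X * p * p' + q * r' - r * q',
      (z + X * p) * q' + q * z', r * (z' + X * p') + z * r', ?_, ?_, ?_, ?_, ?_, ?_, ?_, ?_,
      G.mul_mem h9 h9', ?_⟩
    · simp [h1, h1', mul_assoc]
    · linear_combination (z' * (z' + X * p') - X * q' * r') * h2 + h2'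
    · simp [Matrix.mul_apply, Fin.sum_univ_two, h3, h4, h3', h5']; ring
    · simp [Matrix.mul_apply, Fin.sum_univ_two, h3, h4, h4', h6']
    · simp [Matrix.mul_apply, Fin.sum_univ_two, h5, h6, h3', h5']; ring
    · simp [Matrix.mul_apply, Fin.sum_univ_two, h5, h6, h4', h6']; ring
    · simp [h7, h7', h1, h1']
    · rw [← TT_mul ha hb, ← h8, ← h8']; rfl
    · convert h10.mul h10' using 1
      rw [TT_mul ha hb]
      exact TT_congr (by ring) (by ring) (by ring) (by ring)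
  inv_mem' := by
    rintro x ⟨z, p, q, r, h1, h2, h3, h4, h5, h6, h7, h8, h9, h10⟩
    refine ⟨z + X * p, -p, -q, -r, by simp [h1], by linear_combination h2, ?_, ?_, ?_, ?_, ?_, ?_,
      G.inv_mem h9, h10.inv (TT_mul_inv ha hb (by linear_combination h2))⟩
    · simp [adjugate_fin_two, h6]
    · simp [adjugate_fin_two, h4]
    · simp [adjugate_fin_two, h5]
    · simp [adjugate_fin_two, h3]
    · simp [h7]
    · apply Units.inv_eq_of_mul_eq_one_right
      change (x.2.2 : M →ₗ[k] M) * _ = 1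
      rw [h8, TT_mul_inv ha hb h2]

theorem delta_U (hα : NN G α) (hb : β * β = 0) (l : K) (c : k) :
    ∃ g : LinearMap.GeneralLinearGroup k M, (g : M →ₗ[k] M) = 1 + c • α ∧
      (mU (algebraMap k K c), 1, g) ∈ Delta G hα.1 hb l := by
  obtain ⟨g, hg, e⟩ := hα.2 c
  have e1 : ∀ c : k, TT α β 1 0 (C c) 0 = 1 + c • α := by
    intro c; simp [TT, Algebra.smul_def]
  refine ⟨g, e, 1, 0, C c, 0, by simp, by simp, by simp, by simp, by simp, by simp, by simp,
    by rw [e1]; exact e, hg, ?_⟩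
  rw [neg_zero, ← C_neg, e1]
  exact hα.2 _

theorem delta_L (ha : α * α = 0) (hβ : NN G β) (l : K) (c : k) :
    ∃ g : LinearMap.GeneralLinearGroup k M, (g : M →ₗ[k] M) = 1 + c • β ∧
      (mL (algebraMap k K c * l), Multiplicative.ofAdd c, g) ∈ Delta G ha hβ.1 l := by
  obtain ⟨g, hg, e⟩ := hβ.2 c
  have e1 : ∀ c : k, TT α β 1 0 0 (C c) = 1 + c • β := by
    intro c; simp [TT, Algebra.smul_def]
  refine ⟨g, e, 1, 0, 0, C c, by simp, by simp, by simp, by simp, by rw [mul_comm X]; simp,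
    by simp, by simp, by rw [e1]; exact e, hg, ?_⟩
  rw [neg_zero, ← C_neg, e1]
  exact hβ.2 _

theorem delta_surj [FiniteDimensional k K] (h2 : (2 : k) ≠ 0) (h3 : Nat.card k ≠ 3) {l : K}
    (hl : l ≠ 0) (hgen : ∀ z : K, ∃ p : k[X], aeval l p = z) (hα : NN G α) (hβ : NN G β) :
    (Delta G hα.1 hβ.1 l).map (MonoidHom.fst _ _) = ⊤ := by
  refine dickson_gen h2 h3 hl hgen (fun c => ?_) (fun c => ?_)
  · obtain ⟨g, -, h⟩ := delta_U hα hβ.1 l c
    exact ⟨_, h, rfl⟩
  · obtain ⟨g, -, h⟩ := delta_L hα.1 hβ l c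
    exact ⟨_, h, rfl⟩

theorem exists_sq_ne_one (h2 : (2 : k) ≠ 0) (h3 : Nat.card k ≠ 3) :
    ∃ t : k, t ≠ 0 ∧ t ^ 2 ≠ 1 := by
  by_contra h
  push Not at h
  apply h3
  have : (Set.univ : Set k) = {0, 1, -1} := by
    symm
    rw [Set.eq_univ_iff_forall]
    intro t
    by_cases h0 : t = 0
    · exact Or.inl h0
    · exact Or.inr (sq_eq_one_iff.1 (h t h0))
  rw [← Set.ncard_univ, this]
  refine Set.ncard_eq_three.2 ⟨0, 1, -1, zero_ne_one, by simp, fun h => h2 ?_, rfl⟩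
  linear_combination h

theorem exists_delta_zero [FiniteDimensional k K] (h2 : (2 : k) ≠ 0) (h3 : Nat.card k ≠ 3) {l : K}
    (hl : l ≠ 0) (hgen : ∀ z : K, ∃ p : k[X], aeval l p = z) (hα : NN G α) (hβ : NN G β)
    (m : SL(2, K)) : ∃ x ∈ Delta G hα.1 hβ.1 l, x.1 = m ∧ x.2.1 = 1 := by
  obtain ⟨t, ht, ht2⟩ := exists_sq_ne_one h2 h3
  have hp : commutator SL(2, K) = ⊤ := Matrix.SL2.commutator_eq_top (a := algebraMap k K t)
    (by simpa using ht) (fun h => ht2 ((algebraMap k K).injective (by simpa using h)))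
  set D := Delta G hα.1 hβ.1 l
  have h1 : (⁅D, D⁆).map (MonoidHom.fst _ _) = ⊤ := by
    rw [Subgroup.map_commutator, delta_surj h2 h3 hl hgen hα hβ]; exact hp
  have h4 : ⁅D, D⁆ ≤ ((MonoidHom.fst _ _).comp (MonoidHom.snd _ _)).ker := by
    rw [Subgroup.commutator_le]
    intro x _ y _
    rw [MonoidHom.mem_ker, map_commutatorElement, commutatorElement_eq_one_iff_mul_comm, mul_comm]
  obtain ⟨x, hx, e⟩ := h1.ge (Subgroup.mem_top m)
  exact ⟨x, ((Subgroup.commutator_le_sup D D).trans (sup_idem D).le) hx, e, h4 hx⟩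

end Delta

theorem nn_ev_add (ha : α * α = 0) {u w : k[X]} (h1 : NN G (aeval (gam α β) u * α))
    (h2 : NN G (aeval (gam α β) w * α)) : NN G (aeval (gam α β) (u + w) * α) := by
  have key : ∀ u w : k[X], aeval (gam α β) u * α * (aeval (gam α β) w * α) = 0 := by
    intro u w
    rw [mul_assoc, ← mul_assoc α, mul_ev_left ha, mul_assoc, ha, mul_zero, mul_zero]
  rw [map_add, add_mul]
  exact h1.add h2 (key _ _) (key _ _)

theorem nn_ev_C {u : k[X]} (h1 : NN G (aeval (gam α β) u * α)) (c : k) :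
    NN G (aeval (gam α β) (C c * u) * α) := by
  rw [map_mul, aeval_C, mul_assoc, ← Algebra.smul_def]
  exact h1.smul c

theorem nn_ev_sub (ha : α * α = 0) {u w : k[X]} (h1 : NN G (aeval (gam α β) u * α))
    (h2 : NN G (aeval (gam α β) w * α)) : NN G (aeval (gam α β) (u - w) * α) := by
  have := nn_ev_add ha h1 (nn_ev_C h2 (-1))
  rwa [C_neg, C_1, neg_one_mul, ← sub_eq_add_neg] at this

/-- the multiplier algebra -/
def SA (G : Subgroup (LinearMap.GeneralLinearGroup k M)) {α : Module.End k M} (ha : α * α = 0)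
    (β : Module.End k M) : Subalgebra k k[X] where
  carrier := {s | ∀ u : k[X], NN G (aeval (gam α β) u * α) → NN G (aeval (gam α β) (s * u) * α)}
  mul_mem' := fun {s t} hs ht u hu => by rw [mul_assoc]; exact hs _ (ht u hu)
  add_mem' := fun {s t} hs ht u hu => by rw [add_mul]; exact nn_ev_add ha (hs u hu) (ht u hu)
  algebraMap_mem' := fun c u hu => nn_ev_C hu c

theorem SA_nn (hα : NN G α) {s : k[X]} (hs : s ∈ SA G hα.1 β) : NN G (aeval (gam α β) s * α) := by
  simpa using hs 1 (by simpa using hα)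

theorem nn_NT (ha : α * α = 0) (hb : β * β = 0) {z p q r u : k[X]}
    (hd : z * (z + X * p) - X * q * r = 1) (hg : InG G (TT α β z p q r))
    (hu : NN G (aeval (gam α β) u * α)) : NN G (aeval (gam α β) u * NT α β (z + X * p) r) := by
  convert hu.conj hg (TT_mul_inv ha hb hd) using 1
  rw [← TT_al, TT_mul ha hb, TT_mul ha hb, NT, ev_mul_TT]
  exact TT_congr (by ring) (by ring) (by ring) (by ring)

theorem nd_NT [FiniteDimensional k M] (hα : ND G α) (hb : β * β = 0) {z p q r : k[X]}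
    (hd : z * (z + X * p) - X * q * r = 1) (hg : InG G (TT α β z p q r)) :
    ND G (NT α β (z + X * p) r) := by
  rw [← TT_conj hα.nn.1 hb z p q r]
  exact hα.conj hg (TT_mul_inv hα.nn.1 hb hd)

theorem mult_one (h2 : (2 : k) ≠ 0) (ha : α * α = 0) (hb : β * β = 0) {a r u : k[X]}
    (h1 : NN G (aeval (gam α β) u * NT α β a r)) (h1' : NN G (aeval (gam α β) u * NT α β a (-r)))
    (hc : aeval (gam α β) (X * r) * α = 0) (hr : X ∣ r) :
    NN G (aeval (gam α β) (a ^ 2 * u) * α) := by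
  rw [NT, ev_mul_TT] at h1 h1'
  have h3 := h1.add h1' (by
    rw [TT_mul ha hb]
    exact TT_eq_zero hb hc ⟨-(2 * u ^ 2 * a ^ 2 * r), by ring⟩ ⟨0, by ring⟩
      ⟨-(2 * u ^ 2 * a ^ 3), by ring⟩ ⟨-(2 * u ^ 2 * a * r ^ 2), by ring⟩) (by
    rw [TT_mul ha hb]
    exact TT_eq_zero hb hc ⟨-(2 * u ^ 2 * a ^ 2 * r), by ring⟩ ⟨0, by ring⟩
      ⟨2 * u ^ 2 * a ^ 3, by ring⟩ ⟨2 * u ^ 2 * a * r ^ 2, by ring⟩)
  obtain ⟨r', hr'⟩ := hr
  have h4 : TT α β 0 0 0 (2 * u * X * r ^ 2) = 0 :=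
    TT_eq_zero hb hc (dvd_zero _) (dvd_zero _) (dvd_zero _)
      ⟨2 * u * r', by rw [sq]; nth_rewrite 2 [hr']; ring⟩
  rw [← add_zero (_ + _), ← h4, TT_add, TT_add, TT_congr (z' := 0) (p' := 0)
    (q' := C 2 * (a ^ 2 * u)) (r' := 0) (by ring) (by ring)
    (by rw [show (C 2 : k[X]) = 2 from rfl]; ring) (by ring), TT_al] at h3
  have := nn_ev_C h3 2⁻¹
  rwa [← mul_assoc, ← C_mul, inv_mul_cancel₀ h2, C_1, one_mul] at this

theorem exists_mult [FiniteDimensional k M] (h2 : (2 : k) ≠ 0) (h3 : Nat.card k ≠ 3)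
    (hα : ND G α) (hβ : NN G β) {f : k[X]} [hf : Fact (Irreducible f)] (hfX : ¬ f ∣ X) {v : M}
    (hv : v ∈ LinearMap.range α) (hv0 : v ≠ 0) (hfv : aeval (gam α β) f v = 0)
    (hP : ∀ a r : k[X], ND G (NT α β a r) → f ∣ r → aeval (gam α β) ((X * r) ^ 2) * α = 0)
    {t : AdjoinRoot f} (ht : t ≠ 0) :
    ∃ a : k[X], AdjoinRoot.mk f a = t ∧ a.coeff 0 = 1 ∧ a ^ 2 ∈ SA G hα.nn.1 β := by
  haveI : FiniteDimensional k (AdjoinRoot f) := (AdjoinRoot.powerBasis hf.out.ne_zero).finite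
  have hl : AdjoinRoot.root f ≠ 0 := fun h => hfX (AdjoinRoot.mk_eq_zero.1 h)
  obtain ⟨x, ⟨z, p, q, r, h1, hd, e1, -, e2, -, e3, e4, e5, e6⟩, rfl', e7⟩ :=
    exists_delta_zero h2 h3 hl
    (fun z => by obtain ⟨p, rfl⟩ := AdjoinRoot.mk_surjective z; exact ⟨p, AdjoinRoot.aeval_eq p⟩)
    hα.nn hβ (SpecialLinearGroup.diag2 t ht)
  rw [rfl', SpecialLinearGroup.diag2_coe', AdjoinRoot.aeval_eq] at e1 e2
  rw [e7] at e3
  have hfr : f ∣ r := ((hf.out.prime.dvd_or_dvd (AdjoinRoot.mk_eq_zero.1 e2.symm)).resolve_left hfX)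
  have hXr : X ∣ r := X_dvd_iff.2 e3.symm
  have g1 : InG G (TT α β z p q r) := ⟨_, e5, e4⟩
  have hd' : z * (z + X * p) - X * (-q) * (-r) = 1 := by linear_combination hd
  have n1 := nd_NT hα hβ.1 hd g1
  have n2 := nd_NT hα hβ.1 hd' e6
  have hc := kill h2 hα hβ.1 n1.nn n2.nn ⟨z, -q, by linear_combination hd⟩ (hP _ _ n1 hfr) hv hv0
    (ev_ker_of_dvd hfv (hfr.mul_left _))
  exact ⟨z + X * p, e1.symm, by simp [h1], fun u hu => mult_one h2 hα.nn.1 hβ.1
    (nn_NT hα.nn.1 hβ.1 hd g1 hu) (nn_NT hα.nn.1 hβ.1 hd' e6 hu) hc hXr⟩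

theorem exists_irred_ker [FiniteDimensional k M] (γ : Module.End k M) {W : Submodule k M}
    (hW : ∀ w ∈ W, γ w ∈ W) {w : M} (hw : w ∈ W) (hw0 : w ≠ 0) :
    ∃ f : k[X], Irreducible f ∧ ∃ v ∈ W, v ≠ 0 ∧ aeval γ f v = 0 := by
  have hWp : ∀ (p : k[X]), ∀ w ∈ W, aeval γ p w ∈ W := by
    intro p
    induction p using Polynomial.induction_on with
    | C a => intro w hw; rw [aeval_C, Module.algebraMap_end_apply]; exact W.smul_mem _ hw
    | add p q hp hq =>
      intro w hw; rw [map_add, LinearMap.add_apply]; exact W.add_mem (hp w hw) (hq w hw)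
    | monomial n a h =>
      intro w hw
      rw [pow_succ, ← mul_assoc, map_mul, aeval_X, Module.End.mul_apply]
      exact h _ (hW w hw)
  have key : ∀ p : k[X], p ≠ 0 → ∀ w ∈ W, w ≠ 0 → aeval γ p w = 0 →
      ∃ f : k[X], Irreducible f ∧ ∃ v ∈ W, v ≠ 0 ∧ aeval γ f v = 0 := by
    intro p
    induction p using WfDvdMonoid.induction_on_irreducible with
    | zero => intro h; exact absurd rfl h
    | unit u hu =>
      intro _ w _ hw0 h
      obtain ⟨u', e⟩ := hu.exists_left_inv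
      have := ev_ker_mul h u'
      rw [e, map_one] at this
      exact absurd this hw0
    | mul a i ha hi ih =>
      intro _ w hw hw0 h
      by_cases h1 : aeval γ a w = 0
      · exact ih ha w hw hw0 h1
      · exact ⟨i, hi, _, hWp a w hw, h1, by rwa [map_mul] at h⟩
  have hint : IsIntegral k γ := IsIntegral.of_finite k γ
  exact key _ (minpoly.ne_zero hint) w hw hw0 (by rw [minpoly.aeval]; rfl)

theorem ev_mem_range (ha : α * α = 0) (p : k[X]) {v : M} (hv : v ∈ LinearMap.range α) :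
    aeval (gam α β) p v ∈ LinearMap.range α := by
  obtain ⟨w, rfl⟩ := hv
  exact ⟨aeval (gam α β) p w, by rw [← Module.End.mul_apply, mul_ev_left ha]; rfl⟩

theorem TT_flip_be (hβ : NN G β) (c : k) : InG G (TT α β 1 0 0 (C c)) := by
  convert hβ.2 c using 1
  simp [TT, Algebra.smul_def]

/-- if the anticommutator kills a vector in the range of `α`, it kills the range of `α` -/
theorem gam_kill [FiniteDimensional k M] (h2 : (2 : k) ≠ 0) (h3 : Nat.card k ≠ 3) (n : ℕ) :
    ∀ {α β : Module.End k M}, ND G α → NN G β → rk (gam α β * α) = n →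
      ∀ v ∈ LinearMap.range α, v ≠ 0 → gam α β v = 0 → gam α β * α = 0 := by
  induction n using Nat.strong_induction_on with
  | _ n ih =>
  intro α β hα hβ hn v0 hv0 hv00 hγ0
  have ha := hα.nn.1
  have hb := hβ.1
  by_contra hne
  obtain ⟨w, hw⟩ : ∃ w, (gam α β * α) w ≠ 0 := by
    by_contra hh; push Not at hh; exact hne (LinearMap.ext hh)
  obtain ⟨f, hf, v, hv, hv', hfv⟩ := exists_irred_ker (gam α β)
    (W := LinearMap.range (gam α β * α)) (by
      rintro _ ⟨u, rfl⟩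
      refine ⟨gam α β u, ?_⟩
      change (gam α β * α * gam α β) u = (gam α β * (gam α β * α)) u
      rw [mul_assoc, (commute_gam_left ha).eq]) ⟨w, rfl⟩ hw
  have hvα : v ∈ LinearMap.range α := by
    obtain ⟨u, rfl⟩ := hv
    have := ev_mem_range (β := β) ha X ⟨u, rfl⟩
    rwa [aeval_X] at this
  have hP : ∀ a r : k[X], ND G (NT α β a r) → f ∣ X * r ^ 2 →
      aeval (gam α β) ((X * r) ^ 2) * α = 0 := by
    intro a r hN hr
    have e1 : gam α (NT α β a r) * α = aeval (gam α β) (-(X * r ^ 2)) * (gam α β * α) := by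
      rw [gam_NT ha hb, ← mul_assoc]
      congr 1
      conv_rhs => enter [2]; rw [← aeval_X (R := k) (gam α β)]
      rw [← map_mul]; congr 1; ring
    have := ih _ (by
      rw [← hn, e1]; exact rk_mul_lt hv hv' (ev_ker_of_dvd hfv hr.neg_right)) hα hN.nn rfl v hvα hv'
      (by rw [gam_NT ha hb]
          exact ev_ker_of_dvd hfv (hr.trans ⟨-X, by ring⟩))
    rwa [gam_NT ha hb, map_neg, neg_mul, neg_eq_zero] at this
  by_cases hfX : f ∣ X
  · have n1 := nd_NT (z := 1) (p := 0) (q := 0) (r := C 1) hα hb (by simp) (TT_flip_be hβ 1)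
    have n2 := nd_NT (z := 1) (p := 0) (q := 0) (r := C (-1)) hα hb (by simp) (TT_flip_be hβ (-1))
    rw [C_neg] at n2
    have := kill h2 hα hb n1.nn n2.nn (by simp [isCoprime_one_left]) (hP _ _ n1 (by simpa using hfX))
      hvα hv' (ev_ker_of_dvd hfv (by simpa using hfX))
    exact hne (by simpa using this)
  · haveI := Fact.mk hf
    obtain ⟨t, ht, ht2⟩ := exists_sq_ne_one h2 h3
    obtain ⟨a, e1, e2, e3⟩ := exists_mult h2 h3 hα hβ hfX hvα hv' hfv
      (fun a r h1 h4 => hP a r h1 (h4.trans ⟨X * r, by ring⟩))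
      (t := algebraMap k (AdjoinRoot f) t) (by simpa using ht)
    have n1 : NN G (aeval (gam α β) (a ^ 2 - 1) * α) :=
      SA_nn hα.nn (Subalgebra.sub_mem _ e3 (Subalgebra.one_mem _))
    have hX : X ∣ a ^ 2 - 1 := X_dvd_iff.2 (by simp [sq, e2])
    have z1 := hα.mul_eq_zero n1 hv0 hv00 (ev_ker_of_dvd (by rwa [aeval_X]) hX)
    obtain ⟨u, hu⟩ := hvα
    have z2 : aeval (gam α β) (a ^ 2 - 1) v = 0 := by
      rw [← hu, ← Module.End.mul_apply, z1]; rfl
    have := AdjoinRoot.mk_eq_zero.2 (dvd_of_ev_ker hf hv' hfv z2)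
    rw [map_sub, map_pow, e1, map_one, sub_eq_zero, ← map_pow,
      ← map_one (algebraMap k (AdjoinRoot f))] at this
    exact ht2 ((algebraMap k (AdjoinRoot f)).injective this)

theorem gam_inj [FiniteDimensional k M] (h2 : (2 : k) ≠ 0) (h3 : Nat.card k ≠ 3) (hα : ND G α)
    (hβ : NN G β) (hne : gam α β * α ≠ 0) {v : M} (hv : v ∈ LinearMap.range α)
    (h : gam α β v = 0) : v = 0 := by
  by_contra h0
  exact hne (gam_kill h2 h3 _ hα hβ rfl v hv h0 h)

/-- the structure of a pair with `α β α ≠ 0` -/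
theorem pair_main [FiniteDimensional k M] (h2 : (2 : k) ≠ 0) (h3 : Nat.card k ≠ 3) (hα : ND G α)
    (hβ : NN G β) (hne : gam α β * α ≠ 0) :
    ∃ f : k[X], Irreducible f ∧ ¬ f ∣ X ∧ (∀ p, aeval (gam α β) p * α = 0 ↔ f ∣ p) ∧
      ∀ r : k[X], NN G (aeval (gam α β) r * α) := by
  have ha := hα.nn.1
  have hb := hβ.1
  have cancel : ∀ p : k[X], aeval (gam α β) (X * p) * α = 0 → aeval (gam α β) p * α = 0 := by
    intro p hp
    ext w
    refine gam_inj h2 h3 hα hβ hne (ev_mem_range ha p ⟨w, rfl⟩) ?_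
    have := LinearMap.congr_fun hp w
    rwa [map_mul, aeval_X] at this
  obtain ⟨w, hw⟩ : ∃ w, α w ≠ 0 := by
    by_contra hh; push Not at hh; exact hα.ne (LinearMap.ext hh)
  obtain ⟨f, hf, v, hv, hv0, hfv⟩ := exists_irred_ker (gam α β) (W := LinearMap.range α)
    (fun u hu => by have := ev_mem_range (β := β) ha X hu; rwa [aeval_X] at this) ⟨w, rfl⟩ hw
  have hfX : ¬ f ∣ X := fun h => hv0 (gam_inj h2 h3 hα hβ hne hv
    (by have := ev_ker_of_dvd hfv h; rwa [aeval_X] at this))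
  have hK : ∀ (ξ : Module.End k M) (c : k[X]), NN G ξ → gam α ξ = aeval (gam α β) c → f ∣ c →
      aeval (gam α β) c * α = 0 := by
    intro ξ c hξ e hc
    rw [← e]
    exact gam_kill h2 h3 _ hα hξ rfl v hv hv0 (by rw [e]; exact ev_ker_of_dvd hfv hc)
  have hA : ∀ u : k[X], NN G (aeval (gam α β) u * α) → f ∣ u → aeval (gam α β) u * α = 0 :=
    fun u hu h => hα.mul_eq_zero hu hv hv0 (ev_ker_of_dvd hfv h)
  haveI := Fact.mk hf
  have hsq : ∀ t : AdjoinRoot f, ∃ s ∈ SA G ha β, AdjoinRoot.mk f s = t ^ 2 := by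
    intro t
    by_cases ht : t = 0
    · exact ⟨0, Subalgebra.zero_mem _, by simp [ht]⟩
    obtain ⟨a, e1, -, e3⟩ := exists_mult h2 h3 hα hβ hfX hv hv0 hfv (fun a r h1 h4 => by
      have := hK _ _ h1.nn (gam_NT ha hb a r) (h4.trans ⟨-(X ^ 2 * r), by ring⟩)
      rwa [map_neg, neg_mul, neg_eq_zero] at this) ht
    exact ⟨_, e3, by rw [map_pow, e1]⟩
  have hsurj : ∀ t : AdjoinRoot f, ∃ s ∈ SA G ha β, AdjoinRoot.mk f s = t := by
    intro t
    obtain ⟨s1, h4, e1⟩ := hsq (t + 1)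
    obtain ⟨s2, h5, e2⟩ := hsq (t - 1)
    refine ⟨C 4⁻¹ * (s1 - s2), Subalgebra.mul_mem _ (Subalgebra.algebraMap_mem _ _)
      (Subalgebra.sub_mem _ h4 h5), ?_⟩
    have h6 : AdjoinRoot.mk f (C 4⁻¹) * 4 = 1 := by
      rw [show (4 : AdjoinRoot f) = AdjoinRoot.mk f (C 4) from (map_ofNat _ 4).symm, ← map_mul,
        ← C_mul, inv_mul_cancel₀ (four_ne_zero' h2), C_1, map_one]
    rw [map_mul, map_sub, e1, e2]
    linear_combination t * h6
  have hl : AdjoinRoot.root f ≠ 0 := fun h => hfX (AdjoinRoot.mk_eq_zero.1 h)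
  obtain ⟨s, hs, es⟩ := hsurj (AdjoinRoot.root f)⁻¹
  have hfa : f ∣ 1 + X * -s := by
    rw [← AdjoinRoot.mk_eq_zero, map_add, map_mul, map_neg, es, AdjoinRoot.mk_X, map_one]
    field_simp; ring
  have g1 : InG G (TT α β 1 (-s) (-s) 1) := by
    convert (SA_nn hα.nn hs).inG'.mul hβ.inG using 1
    rw [← TT_one (k := k) (α := α) (β := β), ← TT_al, TT_sub]
    conv_rhs => enter [2, 2]; rw [← TT_be1 (k := k) (α := α) (β := β)]
    rw [TT_add, TT_mul ha hb]
    exact TT_congr (by ring) (by ring) (by ring) (by ring)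
  have hd : (1 : k[X]) * (1 + X * -s) - X * -s * 1 = 1 := by ring
  have hinv := TT_mul_inv ha hb hd
  have a2 : aeval (gam α β) ((1 + X * -s) ^ 2) * α = 0 := by
    refine cancel _ (hK _ _ (hβ.conj (g1.inv hinv) (g1.mul_comm' hinv)) ?_
      (hfa.trans ⟨X * (1 + X * -s), by ring⟩))
    rw [gam, mul_assoc, be_mul_TT ha hb, TT_mul ha hb, al_mul_TT ha hb]
    conv_lhs => enter [2, 2]; rw [← TT_al1 (k := k) (α := α) (β := β)]
    rw [TT_mul ha hb, TT_add, ← TT_ev]
    exact TT_congr (by ring) (by ring) (by ring) (by ring)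
  have n1 := nd_NT hα hb hd g1
  set a : k[X] := 1 + X * -s with hadef
  have n2 := n1.nn.comm hβ (by
    rw [← gam_mul_left n1.nn.1, gam_NT_be ha hb, NT, ev_mul_TT]
    exact TT_eq_zero hb a2 ⟨X * a, by ring⟩ ⟨-(2 * X * a), by ring⟩ ⟨X * a ^ 2, by ring⟩
      ⟨-X, by ring⟩) (by
    rw [← gam_mul_right hb, gam_NT_be ha hb]
    exact ev_be_of_ev_al hb a2)
  have e3 : NT α β a 1 * β - β * NT α β a 1 = TT α β 0 0 0 (2 * a * X) := by
    rw [← sub_eq_zero, NT, be_mul_TT ha hb]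
    conv_lhs => enter [1, 1, 2]; rw [← TT_be1 (k := k) (α := α) (β := β)]
    rw [TT_mul ha hb, TT_sub, TT_sub]
    exact TT_eq_zero hb a2 ⟨-1, by ring⟩ ⟨2, by ring⟩ ⟨0, by ring⟩ ⟨0, by ring⟩
  rw [e3] at n2
  have a1 : aeval (gam α β) a * α = 0 := by
    have := hK _ (X * (X * (C 2 * a))) n2 (by
      rw [gam, al_mul_TT ha hb]
      conv_lhs => enter [2, 2]; rw [← TT_al1 (k := k) (α := α) (β := β)]
      rw [TT_mul ha hb, TT_add, ← TT_ev]
      exact TT_congr (by rw [show (C 2 : k[X]) = 2 from rfl]; ring) (by ring) (by ring) (by ring))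
      (hfa.trans ⟨X * X * C 2, by ring⟩)
    have := ev_zero_of_dvd (g := C 2⁻¹ * (C 2 * a)) (cancel _ (cancel _ this)) (dvd_mul_left _ _)
    rwa [← mul_assoc (C 2⁻¹), ← C_mul, inv_mul_cancel₀ h2, C_1, one_mul] at this
  have hI : ∀ r : k[X], aeval (gam α β) r * α = 0 → r ∈ SA G ha β := by
    intro r hr u _
    rw [ev_zero_of_dvd hr (dvd_mul_right _ _)]
    exact NN.zero
  obtain ⟨x, hx, ex⟩ := hsurj (AdjoinRoot.root f)
  have a3 : aeval (gam α β) (1 - s * x) * α = 0 := by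
    refine hA _ (SA_nn hα.nn (Subalgebra.sub_mem _ (Subalgebra.one_mem _)
      (Subalgebra.mul_mem _ hs hx))) ?_
    rw [← AdjoinRoot.mk_eq_zero, map_sub, map_mul, es, ex, map_one]
    field_simp; ring
  have hX : X ∈ SA G ha β := by
    have : (X : k[X]) = x + (X * (1 - s * x) - x * a) := by rw [hadef]; ring
    rw [this]
    exact Subalgebra.add_mem _ hx (Subalgebra.sub_mem _
      (hI _ (ev_zero_of_dvd a3 (dvd_mul_left _ _))) (hI _ (ev_zero_of_dvd a1 (dvd_mul_left _ _))))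
  have hall : ∀ r : k[X], NN G (aeval (gam α β) r * α) := by
    intro r
    have : SA G ha β = ⊤ := by
      rw [eq_top_iff, ← Polynomial.adjoin_X, Algebra.adjoin_le_iff]
      simpa using hX
    exact SA_nn hα.nn (this.ge (Algebra.mem_top))
  refine ⟨f, hf, hfX, fun p => ⟨fun hp => dvd_of_ev_ker hf hv0 hfv ?_, hA p (hall p)⟩, hall⟩
  obtain ⟨u, rfl⟩ := hv
  rw [← Module.End.mul_apply, hp]; rfl

end Cfsg.Agent.Root
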