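import Mathlib
import Cfsg.Agent.Root.Map

/-! Connected components of the graph of rank one pairs; passage to the generated subgroup. -/

set_option autoImplicit false

namespace Cfsg.Agent.Root

open Subgroup Cfsg.Agent.LocalEven
open scoped commutatorElement

variable {G : Type*} [Group G] {S : Set (Subgroup G)}

/-- the component of `A` -/
abbrev Cmp (S : Set (Subgroup G)) (A : Subgroup G) : Set (Subgroup G) := componentOf (FAdj S) S A

theorem cmp_sub {A : Subgroup G} : Cmp S A ⊆ S := fun _ h => h.1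

theorem self_mem_cmp {A : Subgroup G} (hA : A ∈ S) : A ∈ Cmp S A := ⟨hA, Relation.ReflTransGen.refl⟩

theorem cmp_eq {A B : Subgroup G} (h : Relation.ReflTransGen (FAdj S) A B) : Cmp S A = Cmp S B :=
  Set.ext fun _ => and_congr_right fun _ =>
    ⟨fun h' => (freach_symm h).trans h', fun h' => h.trans h'⟩

theorem le_iSup_mem {T : Set (Subgroup G)} {A : Subgroup G} (hA : A ∈ T) : A ≤ ⨆ E ∈ T, E :=
  le_iSup₂_of_le (f := fun E (_ : E ∈ T) => E) A hA le_rfl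

theorem cj_iSup_le {T T' : Set (Subgroup G)} {g : G} (h : ∀ A ∈ T, cj g A ∈ T') :
    cj g (⨆ E ∈ T, E) ≤ ⨆ E ∈ T', E := by
  rw [cj_iSup]
  refine iSup_le fun B => ?_
  rw [cj_iSup]
  exact iSup_le fun hB => le_iSup_mem (h B hB)

theorem com_iSup {T : Set (Subgroup G)} {B : Subgroup G} (h : ∀ A ∈ T, Com A B) :
    Com (⨆ E ∈ T, E) B := com_iff_le.2 (iSup₂_le fun A hA => com_iff_le.1 (h A hA))

namespace RS

variable (hS : RS S) (hni : ∀ A ∈ S, NI S A)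
include hS hni

theorem reach_comm {A B : Subgroup G} (hA : A ∈ S) (hB : B ∈ S) (hC : ⁅A, B⁆ ∈ S) :
    Relation.ReflTransGen (FAdj S) A ⁅A, B⁆ :=
  hS.reach_of_line hA hC (hni A hA) (hni _ hC) (hS.cc_of_mem hA hB hC).cl.symm
    (cov_of_line (hS.line_partner hA hB hC (hni A hA)))

theorem com_of_not_reach {A B : Subgroup G} (hA : A ∈ S) (hB : B ∈ S)
    (h : ¬ Relation.ReflTransGen (FAdj S) A B) : Com A B := by
  rcases hS.tri A hA B hB with h1 | h1 | ⟨h1, -⟩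
  · exact h1
  · exact absurd (Relation.ReflTransGen.single ⟨hA, hB, h1⟩) h
  · have h2 := hS.reach_comm hni hB hA (commutator_comm A B ▸ h1)
    rw [commutator_comm B A] at h2
    exact absurd ((hS.reach_comm hni hA hB h1).trans (freach_symm h2)) h

theorem cmp (A : Subgroup G) : RS (Cmp S A) where
  com := fun B hB => hS.com B hB.1
  ne_bot := fun B hB => hS.ne_bot B hB.1
  cj_mem := fun B hB C hC g hg =>
    ⟨hS.cj_mem B hB.1 C hC.1 g hg, hB.2.trans (hS.reach_cj_mem hB.1 hC.1 (hni B hB.1) hg)⟩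
  tri := fun B hB C hC => by
    rcases hS.tri B hB.1 C hC.1 with h | h | ⟨h, h'⟩
    · exact Or.inl h
    · exact Or.inr (Or.inl h)
    · exact Or.inr (Or.inr ⟨⟨h, hB.2.trans (hS.reach_comm hni hB.1 hC.1 h)⟩, h'⟩)

omit hS in
theorem cmp_ni (A : Subgroup G) : ∀ B ∈ Cmp S A, NI (Cmp S A) B := by
  intro B hB
  obtain ⟨C, hC, h⟩ := hni B hB.1
  exact ⟨C, ⟨hC, hB.2.tail ⟨hB.1, hC, h⟩⟩, h⟩

theorem com_cmp {A B : Subgroup G} (h : Cmp S A ≠ Cmp S B) :
    Com (⨆ E ∈ Cmp S A, E) (⨆ E ∈ Cmp S B, E) :=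
  com_iSup fun C hC => (com_iSup fun D hD => hS.com_of_not_reach hni hD.1 hC.1 fun h' =>
    h ((cmp_eq hC.2).trans ((cmp_eq h').symm.trans (cmp_eq hD.2).symm))).symm

end RS

theorem cmp_conj {A B : Subgroup G} (hA : A ∈ S) (hB : B ∈ Cmp S A) :
    ∃ g ∈ ⨆ E ∈ Cmp S A, E, B = cj g A := by
  obtain ⟨-, h⟩ := hB
  induction h with
  | refl => exact ⟨1, one_mem _, (cj_one _).symm⟩
  | tail h1 h2 ih =>
    obtain ⟨g, hg, e⟩ := ih
    obtain ⟨x, hx, e'⟩ := right_mem_om h2.2.2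
    refine ⟨x * g, mul_mem ((sup_le (le_iSup_mem ⟨h2.1, h1⟩)
      (le_iSup_mem ⟨h2.2.1, h1.tail h2⟩) : _ ≤ ⨆ E ∈ Cmp S A, E) hx) hg, ?_⟩
    rw [cj_mul, ← e]; exact e'

theorem cj_cmp {g : G} (hg : ∀ A ∈ S, cj g A ∈ S) {A B : Subgroup G} (hB : B ∈ Cmp S A) :
    cj g B ∈ Cmp S (cj g A) := ⟨hg B hB.1, freach_cj hg hB.2⟩

/-! ### Passage to the subgroup generated -/

theorem map_sub {X A : Subgroup G} (h : A ≤ X) : (A.subgroupOf X).map X.subtype = A :=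
  map_subgroupOf_eq_of_le h

theorem cj_sub {X : Subgroup G} (A : Subgroup G) (g : X) :
    cj g (A.subgroupOf X) = (cj (g : G) A).subgroupOf X := by
  ext x
  rw [mem_cj, mem_subgroupOf, mem_subgroupOf, mem_cj]; rfl

theorem comm_sub {X A B : Subgroup G} (hA : A ≤ X) (hB : B ≤ X) :
    ⁅A.subgroupOf X, B.subgroupOf X⁆ = ⁅A, B⁆.subgroupOf X := by
  apply map_injective X.subtype_injective
  rw [map_commutator, map_sub hA, map_sub hB,
    map_sub ((commutator_le_sup A B).trans (sup_le hA hB))]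

theorem com_sub {X A B : Subgroup G} (hA : A ≤ X) (hB : B ≤ X) :
    Com (A.subgroupOf X) (B.subgroupOf X) ↔ Com A B :=
  ⟨fun h => by simpa only [map_sub hA, map_sub hB] using h.map X.subtype,
    fun h => com_of_map_inj X.subtype_injective (by rwa [map_sub hA, map_sub hB])⟩

theorem r1_sub {X A B : Subgroup G} (hA : A ≤ X) (hB : B ≤ X) :
    IsRankOnePair (A.subgroupOf X) (B.subgroupOf X) ↔ IsRankOnePair A B := by
  rw [← r1_map_iff X.subtype_injective, map_sub hA, map_sub hB]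

theorem RS.rootSet (hS : RS S) :
    IsRootSubgroupSet ((fun A : Subgroup G => A.subgroupOf (⨆ B ∈ S, B)) '' S) := by
  set X := ⨆ B ∈ S, B with hX
  have hle : ∀ A ∈ S, A ≤ X := fun A hA => le_iSup_mem hA
  refine isRootSubgroupSet_mk ?_ ?_ ?_ ?_ ?_
  · rintro _ ⟨A, hA, rfl⟩
    exact (com_sub (hle A hA) (hle A hA)).2 (hS.com A hA)
  · rintro _ ⟨A, hA, rfl⟩ e
    exact hS.ne_bot A hA (by rw [← map_sub (hle A hA), show A.subgroupOf X = ⊥ from e, Subgroup.map_bot])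
  · apply map_injective X.subtype_injective
    rw [← MonoidHom.range_eq_map, range_subtype]
    apply le_antisymm (map_subtype_le _)
    conv_lhs => rw [hX]
    refine iSup₂_le fun A hA => ?_
    rw [← map_sub (hle A hA)]
    exact map_mono (le_iSup_mem ⟨A, hA, rfl⟩)
  · rintro _ ⟨A, hA, rfl⟩ g
    exact ⟨_, hS.cj_mem_iSup subset_rfl g.2 A hA, (cj_sub A g).symm⟩
  · rintro _ ⟨A, hA, rfl⟩ _ ⟨B, hB, rfl⟩
    rcases hS.tri A hA B hB with h | h | ⟨h, h'⟩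
    · exact Or.inl ((com_sub (hle A hA) (hle B hB)).2 h)
    · exact Or.inr (Or.inl ((r1_sub (hle A hA) (hle B hB)).2 h))
    · exact Or.inr (Or.inr ⟨⟨_, h, (comm_sub (hle A hA) (hle B hB)).symm⟩,
        cc_of_map_inj X.subtype_injective (by rwa [map_sub (hle A hA), map_sub (hle B hB)])⟩)

theorem RS.rootClass (hS : RS S) (hni : ∀ A ∈ S, NI S A) {A : Subgroup G} (hA : A ∈ S) :
    IsRootSubgroupClass ((fun B : Subgroup G => B.subgroupOf (⨆ E ∈ Cmp S A, E)) '' Cmp S A) := by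
  refine ⟨(hS.cmp hni A).rootSet, ⟨_, A, self_mem_cmp hA, rfl⟩, ?_⟩
  rintro _ ⟨B, hB, rfl⟩ _ ⟨C, hC, rfl⟩
  obtain ⟨g, hg, rfl⟩ := cmp_conj hA hB
  obtain ⟨g', hg', rfl⟩ := cmp_conj hA hC
  refine ⟨⟨g' * g⁻¹, mul_mem hg' (inv_mem hg)⟩, ?_⟩
  rw [show ∀ (U : Subgroup ↥(⨆ E ∈ Cmp S A, E)) x, conjBy U x = cj x U from fun _ _ => rfl, cj_sub,
    cj_cj]
  simp

theorem normal_top_or_center' (hS : IsRootSubgroupClass S) (hni : ∀ A ∈ S, NI S A)
    (h3 : ∀ A ∈ S, ∀ B ∈ S, IsRankOnePair A B → ⁅A ⊔ B, A ⊔ B⁆ = A ⊔ B)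
    (N : Subgroup G) [hN : N.Normal] :
    N = ⊤ ∨ ∀ A ∈ S, ∀ n ∈ N, ∀ E ∈ S, Com E A → Com E (cj n A) := by
  have hR := rs_of hS.1
  have top_of : ∀ A ∈ S, A ≤ N → N = ⊤ := by
    intro A hA hle
    rw [eq_top_iff, ← hS.1.generates]
    refine iSup₂_le fun E hE => ?_
    obtain ⟨g, rfl⟩ := hS.2.2 A hA E hE
    exact cj_le_of_mem_normalizer (le_normalizer_of_normal (K := ⊤) trivial) hle
  by_contra hc
  push Not at hc
  obtain ⟨ht, A, hA, n, hn, D, hD, h4, h5⟩ := hc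
  apply ht
  have hC := hS.1.conj_mem A hA n
  set C := cj n A with hCd
  let π := QuotientGroup.mk' N
  have hker : ∀ {U W : Subgroup G}, Com (U.map π) (W.map π) → ⁅U, W⁆ ≤ N := by
    intro U W h
    rw [← com_iff, ← map_commutator, Subgroup.map_eq_bot_iff, QuotientGroup.ker_mk'] at h
    exact h
  have e1 : C.map π = A.map π := by
    rw [hCd, map_cj, show π n = 1 from (QuotientGroup.eq_one_iff n).2 hn, cj_one]
  have c1 : Com (C.map π) (D.map π) := e1 ▸ (h4.map π).symm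
  rcases hR.tri C hC D hD with h | h | ⟨h, -⟩
  · exact absurd h.symm h5
  · refine top_of C hC (le_sup_left.trans ((h3 C hC D hD h).symm.le.trans (hker ?_)))
    rw [Subgroup.map_sup]
    exact (((hR.com C hC).map π).sup_right c1).sup_left (c1.symm.sup_right ((hR.com D hD).map π))
  · exact top_of _ h (hker c1)

/-- quasisimplicity of the group generated by a component -/
theorem RS.quasisimple (hS : RS S) (hni : ∀ A ∈ S, NI S A) {A : Subgroup G} (hA : A ∈ S)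
    (h3 : ∀ A ∈ S, ∀ B ∈ S, IsRankOnePair A B → ⁅A ⊔ B, A ⊔ B⁆ = A ⊔ B)
    (h2 : ∀ N ≤ ⨆ E ∈ Cmp S A, E, (∀ g ∈ ⨆ E ∈ Cmp S A, E, cj g N ≤ N) →
      (∀ B ∈ Cmp S A, ∀ n ∈ N, ∀ E ∈ Cmp S A, Com E B → Com E (cj n B)) →
      Com N (⨆ E ∈ Cmp S A, E)) : IsQuasisimple ↥(⨆ E ∈ Cmp S A, E) := by
  have hC := hS.rootClass hni hA
  set X := ⨆ E ∈ Cmp S A, E with hX
  have hle : ∀ B ∈ Cmp S A, B ≤ X := fun B hB => le_iSup_mem hB
  have hni' : ∀ B ∈ (fun B : Subgroup G => B.subgroupOf X) '' Cmp S A,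
      NI ((fun B : Subgroup G => B.subgroupOf X) '' Cmp S A) B := by
    rintro _ ⟨B, hB, rfl⟩
    obtain ⟨C, hC, h⟩ := RS.cmp_ni hni A B hB
    exact ⟨_, ⟨C, hC, rfl⟩, (r1_sub (hle B hB) (hle C hC)).2 h⟩
  have h3' : ∀ B ∈ (fun B : Subgroup G => B.subgroupOf X) '' Cmp S A,
      ∀ C ∈ (fun B : Subgroup G => B.subgroupOf X) '' Cmp S A, IsRankOnePair B C →
      ⁅B ⊔ C, B ⊔ C⁆ = B ⊔ C := by
    rintro _ ⟨B, hB, rfl⟩ _ ⟨C, hC, rfl⟩ h
    apply map_injective X.subtype_injective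
    rw [map_commutator, Subgroup.map_sup, map_sub (hle B hB), map_sub (hle C hC)]
    exact h3 B hB.1 C hC.1 ((r1_sub (hle B hB) (hle C hC)).1 h)
  haveI : Group.IsPerfect X := ⟨class_perfect hC hni' (Or.inr h3')⟩
  obtain ⟨a, -, ha1⟩ := (rs_of hC.1).exists_ne_one ⟨A, self_mem_cmp hA, rfl⟩
  haveI : Nontrivial X := ⟨⟨a, 1, ha1⟩⟩
  refine Comp2.quasisimple_of_normal fun N hN => ?_
  refine (normal_top_or_center' hC hni' h3' N).imp id fun h n hn => ?_
  have := h2 (N.map X.subtype) (map_subtype_le _) (fun g hg => by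
    have := map_cj X.subtype ⟨g, hg⟩ N
    rw [cj_eq_of_normal] at this
    exact this.ge) (by
    rintro B hB _ ⟨n, hn, rfl⟩ E hE h'
    have := h _ ⟨B, hB, rfl⟩ n hn _ ⟨E, hE, rfl⟩ ((com_sub (hle E hE) (hle B hB)).2 h')
    rw [cj_sub] at this
    exact (com_sub (hle E hE) (cj_le_of_mem n.2 (hle B hB))).1 this)
  exact mem_center_iff.2 fun g => Subtype.ext (this _ ⟨n, hn, rfl⟩ g g.2).symm

end Cfsg.Agent.Root
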