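import Mathlib
import Cfsg.Agent.Root.Q3
import Cfsg.Agent.Root.Map

/-! The groups `E(σ)` of a quadratic pair; opposite pairs. -/

set_option autoImplicit false

namespace Cfsg.Agent.Root

open Polynomial Matrix Cfsg.Agent.LocalEven
open scoped MatrixGroups commutatorElement

variable {k : Type*} [Field k] {M : Type*} [AddCommGroup M] [Module k M]

/-- the unit `1 + ξ` -/
def un (ξ : Module.End k M) (h : ξ * ξ = 0) : LinearMap.GeneralLinearGroup k M :=
  ⟨1 + ξ, 1 - ξ, one_add_mul_one_sub h, by rw [sub_mul, mul_add, mul_add, h]; simp⟩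

@[simp] theorem un_val (ξ : Module.End k M) (h : ξ * ξ = 0) : (un ξ h : M →ₗ[k] M) = 1 + ξ := rfl
@[simp] theorem un_inv_val (ξ : Module.End k M) (h : ξ * ξ = 0) :
    (((un ξ h)⁻¹ : LinearMap.GeneralLinearGroup k M) : M →ₗ[k] M) = 1 - ξ := rfl

variable {G : Subgroup (LinearMap.GeneralLinearGroup k M)} {α β ξ : Module.End k M}

theorem un_ne_one {h : ξ * ξ = 0} (h0 : ξ ≠ 0) : un ξ h ≠ 1 := fun e => h0 (by
  have := congrArg (fun g : LinearMap.GeneralLinearGroup k M => (g : M →ₗ[k] M)) e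
  simpa using this)

theorem InG.mem {g : LinearMap.GeneralLinearGroup k M} (h : InG G (g : M →ₗ[k] M)) : g ∈ G := by
  obtain ⟨g', hg', e⟩ := h
  rwa [← Units.ext e]

theorem NN.un_mem (h : NN G ξ) : un ξ h.1 ∈ G := InG.mem h.inG

theorem inv_val_of_sq {g : LinearMap.GeneralLinearGroup k M}
    (h : ((g : M →ₗ[k] M) - 1) * ((g : M →ₗ[k] M) - 1) = 0) :
    ((g⁻¹ : LinearMap.GeneralLinearGroup k M) : M →ₗ[k] M) = 1 - ((g : M →ₗ[k] M) - 1) := by
  apply Units.inv_eq_of_mul_eq_one_right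
  have := one_add_mul_one_sub h
  rwa [add_sub_cancel] at this

theorem mul_eq_zero_of_range_le {x : Module.End k M} (h : LinearMap.range ξ ≤ LinearMap.range α)
    (hx : x * α = 0) : x * ξ = 0 := by
  ext m
  obtain ⟨u, hu⟩ := h ⟨m, rfl⟩
  rw [Module.End.mul_apply, ← hu, ← Module.End.mul_apply, hx]; rfl

theorem mul_eq_zero_of_ker_le {x : Module.End k M} (h : LinearMap.ker α ≤ LinearMap.ker ξ)
    (hx : α * x = 0) : ξ * x = 0 := by
  ext m
  exact h (LinearMap.congr_fun hx m)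

theorem range_le_ker_iff' {x y : Module.End k M} :
    LinearMap.range y ≤ LinearMap.ker x ↔ x * y = 0 := LinearMap.range_le_ker_iff

/-- the square zero maps with the same action as `α` -/
def SM (G : Subgroup (LinearMap.GeneralLinearGroup k M)) (α : Module.End k M) :
    Submodule k (Module.End k M) where
  carrier := {ξ | NN G ξ ∧ LinearMap.ker α ≤ LinearMap.ker ξ ∧
    LinearMap.range ξ ≤ LinearMap.range α ∧ α * ξ = 0}
  zero_mem' := ⟨NN.zero, by simp, by simp, by simp⟩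
  smul_mem' := fun c ξ h => ⟨h.1.smul c, h.2.1.trans (LinearMap.ker_le_ker_smul _ _),
    (LinearMap.range_smul_le_range _ _).trans h.2.2.1, by rw [mul_smul_comm, h.2.2.2, smul_zero]⟩
  add_mem' := fun {ξ η} h h' => ⟨h.1.add h'.1 (mul_eq_zero_of_ker_le h.2.1 h'.2.2.2)
    (mul_eq_zero_of_ker_le h'.2.1 h.2.2.2),
    fun m hm => by
      rw [LinearMap.mem_ker, LinearMap.add_apply, h.2.1 hm, h'.2.1 hm, add_zero],
    (LinearMap.range_add_le _ _).trans (sup_le h.2.2.1 h'.2.2.1),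
    by rw [mul_add, h.2.2.2, h'.2.2.2, add_zero]⟩

theorem mem_SM : ξ ∈ SM G α ↔ NN G ξ ∧ LinearMap.ker α ≤ LinearMap.ker ξ ∧
    LinearMap.range ξ ≤ LinearMap.range α ∧ α * ξ = 0 := Iff.rfl

theorem sm_nn (h : ξ ∈ SM G α) : NN G ξ := h.1

theorem sm_left (h : ξ ∈ SM G α) {x : Module.End k M} (hx : x * α = 0) : x * ξ = 0 :=
  mul_eq_zero_of_range_le h.2.2.1 hx

theorem sm_right (h : ξ ∈ SM G α) {x : Module.End k M} (hx : α * x = 0) : ξ * x = 0 :=
  mul_eq_zero_of_ker_le h.2.1 hx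

theorem sm_mul {η : Module.End k M} (h : ξ ∈ SM G α) (h' : η ∈ SM G α) : ξ * η = 0 :=
  sm_right h h'.2.2.2

theorem sm_self (h : NN G α) : α ∈ SM G α := ⟨h, le_rfl, le_rfl, h.1⟩

theorem sm_mk (ha : α * α = 0) (h : NN G ξ) (h1 : LinearMap.ker α ≤ LinearMap.ker ξ)
    (h2 : LinearMap.range ξ ≤ LinearMap.range α) : ξ ∈ SM G α :=
  ⟨h, h1, h2, mul_eq_zero_of_range_le h2 ha⟩

theorem rk_add_ker [FiniteDimensional k M] (α : Module.End k M) :
    rk α + Module.finrank k (LinearMap.ker α) = Module.finrank k M :=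
  LinearMap.finrank_range_add_finrank_ker α

theorem ND.sm [FiniteDimensional k M] (hα : ND G α) (h : ξ ∈ SM G α) (h0 : ξ ≠ 0) :
    ND G ξ ∧ LinearMap.ker ξ = LinearMap.ker α ∧ LinearMap.range ξ = LinearMap.range α := by
  have h1 := hα.min ξ h.1 h0
  have h2 : LinearMap.range ξ = LinearMap.range α := Submodule.eq_of_le_of_finrank_le h.2.2.1 h1
  have h3 : rk ξ = rk α := by rw [rk, rk, h2]
  refine ⟨hα.of_rk_le h.1 h0 h3.le, (Submodule.eq_of_le_of_finrank_le h.2.1 ?_).symm, h2⟩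
  have := rk_add_ker α
  have := rk_add_ker ξ
  omega

theorem SM_congr (h1 : LinearMap.ker α = LinearMap.ker β)
    (h2 : LinearMap.range α = LinearMap.range β) : SM G α = SM G β := by
  ext ξ
  rw [mem_SM, mem_SM, ← range_le_ker_iff', ← range_le_ker_iff', h1, h2]

theorem ND.SM_eq [FiniteDimensional k M] (hα : ND G α) (h : ξ ∈ SM G α) (h0 : ξ ≠ 0) :
    SM G ξ = SM G α := SM_congr (hα.sm h h0).2.1 (hα.sm h h0).2.2

theorem SM_neg : SM G (-α) = SM G α := SM_congr (LinearMap.ker_neg _) (LinearMap.range_neg _)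

/-- the group `1 + SM G α` -/
def EG (G : Subgroup (LinearMap.GeneralLinearGroup k M)) (α : Module.End k M) :
    Subgroup (LinearMap.GeneralLinearGroup k M) where
  carrier := {g | (g : M →ₗ[k] M) - 1 ∈ SM G α}
  one_mem' := by simp
  mul_mem' := fun {g h} hg hh => by
    have e : ((g * h : LinearMap.GeneralLinearGroup k M) : M →ₗ[k] M) - 1 =
        ((g : M →ₗ[k] M) - 1) * ((h : M →ₗ[k] M) - 1) + (((g : M →ₗ[k] M) - 1) +
          ((h : M →ₗ[k] M) - 1)) := by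
      rw [Units.val_mul]; noncomm_ring
    change _ ∈ SM G α
    rw [e, sm_mul hg hh, zero_add]
    exact Submodule.add_mem _ hg hh
  inv_mem' := fun {g} hg => by
    change _ ∈ SM G α
    rw [inv_val_of_sq hg.1.1, sub_sub_cancel_left]
    exact Submodule.neg_mem _ hg

theorem mem_EG {g : LinearMap.GeneralLinearGroup k M} :
    g ∈ EG G α ↔ (g : M →ₗ[k] M) - 1 ∈ SM G α := Iff.rfl

theorem un_mem_EG (h : ξ ∈ SM G α) : un ξ h.1.1 ∈ EG G α := by
  rw [mem_EG, un_val, add_sub_cancel_left]; exact h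

theorem mem_EG' {g : LinearMap.GeneralLinearGroup k M} :
    g ∈ EG G α ↔ ∃ ξ, ∃ h : ξ ∈ SM G α, g = un ξ h.1.1 :=
  ⟨fun h => ⟨_, h, Units.ext (by simp)⟩, fun ⟨_, h, e⟩ => e ▸ un_mem_EG h⟩

theorem EG_congr (h : SM G α = SM G β) : EG G α = EG G β := by
  ext g; rw [mem_EG, mem_EG, h]

theorem EG_le : EG G α ≤ G := by
  intro g hg
  obtain ⟨ξ, h, rfl⟩ := mem_EG'.1 hg
  exact h.1.un_mem

theorem EG_com : Com (EG G α) (EG G α) := by
  intro g hg g' hg'
  obtain ⟨ξ, h, rfl⟩ := mem_EG'.1 hg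
  obtain ⟨η, h', rfl⟩ := mem_EG'.1 hg'
  ext1
  simp only [Units.val_mul, un_val, add_mul, mul_add, sm_mul h h', sm_mul h' h, one_mul, mul_one]
  abel

theorem EG_ne_bot (h : ND G α) : EG G α ≠ ⊥ := by
  intro e
  have := un_mem_EG (sm_self h.nn)
  rw [e, Subgroup.mem_bot] at this
  exact un_ne_one h.ne this

theorem sm_conj {g : LinearMap.GeneralLinearGroup k M} (hg : g ∈ G) (h : ξ ∈ SM G α) :
    (g : M →ₗ[k] M) * ξ * (g⁻¹ : LinearMap.GeneralLinearGroup k M) ∈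
      SM G ((g : M →ₗ[k] M) * α * (g⁻¹ : LinearMap.GeneralLinearGroup k M)) := by
  refine ⟨h.1.conj ⟨g, hg, rfl⟩ g.mul_inv, fun m hm => ?_, ?_, ?_⟩
  · rw [LinearMap.mem_ker, Module.End.mul_apply, Module.End.mul_apply] at hm ⊢
    have : α ((g⁻¹ : LinearMap.GeneralLinearGroup k M).1 m) = 0 :=
      (LinearMap.GeneralLinearGroup.toLinearEquiv g).injective (by simpa using hm)
    rw [h.2.1 this, map_zero]
  · rintro _ ⟨m, rfl⟩
    obtain ⟨u, hu⟩ := h.2.2.1 ⟨(g⁻¹ : LinearMap.GeneralLinearGroup k M).1 m, rfl⟩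
    refine ⟨g.1 u, ?_⟩
    rw [Module.End.mul_apply, Module.End.mul_apply, Module.End.mul_apply, Module.End.mul_apply,
      ← hu, ← Module.End.mul_apply _ g.1, Units.inv_mul, Module.End.one_apply]
  · calc _ = (g : M →ₗ[k] M) * α * ((g⁻¹ : LinearMap.GeneralLinearGroup k M) * g) * ξ *
        (g⁻¹ : LinearMap.GeneralLinearGroup k M) := by simp only [mul_assoc]
      _ = 0 := by rw [Units.inv_mul, mul_one, mul_assoc _ α, h.2.2.2, mul_zero, zero_mul]

theorem conj_conj_inv (g : LinearMap.GeneralLinearGroup k M) (α : Module.End k M) :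
    ((g⁻¹ : LinearMap.GeneralLinearGroup k M) : M →ₗ[k] M) *
      ((g : M →ₗ[k] M) * α * (g⁻¹ : LinearMap.GeneralLinearGroup k M)) *
      (g⁻¹⁻¹ : LinearMap.GeneralLinearGroup k M) = α := by
  rw [inv_inv, ← mul_assoc, ← mul_assoc, Units.inv_mul, one_mul, mul_assoc, Units.inv_mul, mul_one]

theorem conj_sub_one (g x : LinearMap.GeneralLinearGroup k M) :
    ((g * x * g⁻¹ : LinearMap.GeneralLinearGroup k M) : M →ₗ[k] M) - 1 =
      (g : M →ₗ[k] M) * ((x : M →ₗ[k] M) - 1) * (g⁻¹ : LinearMap.GeneralLinearGroup k M) := by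
  rw [mul_sub, sub_mul, mul_one, Units.mul_inv]; rfl

theorem cj_EG {g : LinearMap.GeneralLinearGroup k M} (hg : g ∈ G) :
    cj g (EG G α) = EG G ((g : M →ₗ[k] M) * α * (g⁻¹ : LinearMap.GeneralLinearGroup k M)) := by
  apply le_antisymm
  · rw [cj_le_iff']
    intro x hx
    rw [mem_EG, conj_sub_one]
    exact sm_conj hg hx
  · rw [le_cj_iff, cj_le_iff']
    intro x hx
    have := sm_conj (G.inv_mem hg) hx
    rw [conj_conj_inv] at this
    rw [mem_EG, conj_sub_one]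
    exact this

theorem ND.conj' [FiniteDimensional k M] (h : ND G α) {g : LinearMap.GeneralLinearGroup k M}
    (hg : g ∈ G) : ND G ((g : M →ₗ[k] M) * α * (g⁻¹ : LinearMap.GeneralLinearGroup k M)) :=
  h.conj ⟨g, hg, rfl⟩ g.mul_inv

theorem finrank_SM_conj [FiniteDimensional k M] {g : LinearMap.GeneralLinearGroup k M}
    (hg : g ∈ G) : Module.finrank k (SM G α) ≤ Module.finrank k
      (SM G ((g : M →ₗ[k] M) * α * (g⁻¹ : LinearMap.GeneralLinearGroup k M))) := by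
  let f : SM G α →ₗ[k] SM G ((g : M →ₗ[k] M) * α * (g⁻¹ : LinearMap.GeneralLinearGroup k M)) :=
    { toFun := fun x => ⟨_, sm_conj hg x.2⟩
      map_add' := fun x y => by ext1; simp [mul_add, add_mul]
      map_smul' := fun c x => by ext1; simp }
  refine LinearMap.finrank_le_finrank_of_injective (f := f) fun x y h => ?_
  have := congrArg Subtype.val h
  simp only [f, LinearMap.coe_mk, AddHom.coe_mk] at this
  ext1
  rw [← conj_conj_inv g x, this, conj_conj_inv]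

/-! ### The definitions of the prelude -/

theorem mem_quad_iff {σ : LinearMap.GeneralLinearGroup k M} :
    σ ∈ quadraticElements G ↔ NN G ((σ : M →ₗ[k] M) - 1) ∧ (σ : M →ₗ[k] M) - 1 ≠ 0 := by
  constructor
  · rintro ⟨-, ⟨h1, h2⟩, h3⟩
    refine ⟨⟨h1, fun c => ?_⟩, h2⟩
    have h4 : (c • ((σ : M →ₗ[k] M) - 1)) * (c • ((σ : M →ₗ[k] M) - 1)) = 0 := by
      rw [smul_mul_smul_comm, h1, smul_zero]
    exact ⟨un _ h4, h3 ⟨c, rfl⟩, rfl⟩
  · rintro ⟨h1, h2⟩
    refine ⟨InG.mem (by simpa using h1.inG), ⟨h1.1, h2⟩, ?_⟩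
    rintro τ ⟨c, hc⟩
    exact InG.mem (hc ▸ h1.2 c)

theorem mem_min_iff {σ : LinearMap.GeneralLinearGroup k M} :
    σ ∈ minimalQuadraticElements G ↔ ND G ((σ : M →ₗ[k] M) - 1) := by
  constructor
  · rintro ⟨h1, h2⟩
    obtain ⟨h3, h4⟩ := mem_quad_iff.1 h1
    refine ⟨h3, h4, fun β hβ h0 => ?_⟩
    have := h2 (un β hβ.1) (mem_quad_iff.2 (by simpa using ⟨hβ, h0⟩))
    rw [commutatorRank, commutatorRank, un_val, add_sub_cancel_left] at this
    exact this
  · intro h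
    refine ⟨mem_quad_iff.2 ⟨h.nn, h.ne⟩, fun τ hτ => ?_⟩
    obtain ⟨h3, h4⟩ := mem_quad_iff.1 hτ
    exact h.min _ h3 h4

theorem sameActionClass_eq [FiniteDimensional k M] {σ : LinearMap.GeneralLinearGroup k M}
    (h : ND G ((σ : M →ₗ[k] M) - 1)) :
    sameActionClass G σ ∪ {1} = (EG G ((σ : M →ₗ[k] M) - 1) : Set _) := by
  ext τ
  constructor
  · rintro (⟨h1, h2, h3⟩ | rfl)
    · exact sm_mk h.nn.1 (mem_min_iff.1 h1).nn h2.ge h3.le
    · exact Subgroup.one_mem _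
  · intro hτ
    by_cases h1 : τ = 1
    · exact Or.inr h1
    · obtain ⟨h2, h3, h4⟩ := h.sm hτ fun h0 => h1 (Units.ext (sub_eq_zero.1 h0))
      exact Or.inl ⟨mem_min_iff.2 h2, h3, h4⟩

theorem sameActionSubgroup_eq [FiniteDimensional k M] {σ : LinearMap.GeneralLinearGroup k M}
    (h : ND G ((σ : M →ₗ[k] M) - 1)) : sameActionSubgroup G σ = EG G ((σ : M →ₗ[k] M) - 1) := by
  rw [sameActionSubgroup, ← Subgroup.closure_union_one, sameActionClass_eq h, Subgroup.closure_eq]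

theorem mem_qrs [FiniteDimensional k M] {A : Subgroup (LinearMap.GeneralLinearGroup k M)} :
    A ∈ quadraticRootSubgroups G ↔ ∃ α, ND G α ∧ A = EG G α := by
  constructor
  · rintro ⟨σ, hσ, rfl⟩
    exact ⟨_, mem_min_iff.1 hσ, sameActionSubgroup_eq (mem_min_iff.1 hσ)⟩
  · rintro ⟨α, hα, rfl⟩
    have : ND G ((un α hα.nn.1 : M →ₗ[k] M) - 1) := by simpa using hα
    refine ⟨un α hα.nn.1, mem_min_iff.2 this, ?_⟩
    rw [sameActionSubgroup_eq this]; simp

/-! ### Opposite pairs -/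

/-- matrix units -/
structure MU (α β : Module.End k M) : Prop where
  aa : α * α = 0
  bb : β * β = 0
  aba : α * β * α = α
  bab : β * α * β = β

theorem MU.symm (h : MU α β) : MU β α := ⟨h.bb, h.aa, h.bab, h.aba⟩

theorem MU.neg (h : MU α β) : MU (-α) (-β) :=
  ⟨by simpa using h.aa, by simpa using h.bb, by simpa using h.aba, by simpa using h.bab⟩

/-- opposite position -/
def OP (α β : Module.End k M) : Prop :=
  Disjoint (LinearMap.range α) (LinearMap.ker β) ∧ Disjoint (LinearMap.range β) (LinearMap.ker α)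

theorem OP.symm (h : OP α β) : OP β α := ⟨h.2, h.1⟩

theorem OP.congr {α' β' : Module.End k M} (h : OP α β) (h1 : LinearMap.ker α' = LinearMap.ker α)
    (h2 : LinearMap.range α' = LinearMap.range α) (h3 : LinearMap.ker β' = LinearMap.ker β)
    (h4 : LinearMap.range β' = LinearMap.range β) : OP α' β' := by
  rw [OP, h1, h2, h3, h4]; exact h

theorem MU.disj (h : MU α β) : Disjoint (LinearMap.range α) (LinearMap.ker β) := by
  rw [Submodule.disjoint_def]
  rintro _ ⟨u, rfl⟩ hu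
  rw [← h.aba, Module.End.mul_apply, Module.End.mul_apply, hu, map_zero]

theorem MU.op (h : MU α β) : OP α β := ⟨h.disj, h.symm.disj⟩

theorem OP.ne (h : OP α β) (h0 : α ≠ 0) : α * β * α ≠ 0 := by
  intro e
  apply h0
  ext m
  have h1 : β (α m) = 0 :=
    Submodule.disjoint_def.1 h.2 _ ⟨_, rfl⟩ (LinearMap.congr_fun e m)
  exact Submodule.disjoint_def.1 h.1 _ ⟨_, rfl⟩ h1

section Fin

variable [FiniteDimensional k M] (h2 : (2 : k) ≠ 0) (h3 : Nat.card k ≠ 3)
include h2 h3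

theorem exists_unit (hα : ND G α) (hβ : NN G β) (hne : α * β * α ≠ 0) :
    ∃ s : k[X], aeval (gam α β) s * (α * β * α) = α ∧ ∀ r : k[X], NN G (aeval (gam α β) r * α) := by
  rw [← gam_mul_left hα.nn.1] at hne ⊢
  obtain ⟨f, hf, hfX, h4, h5⟩ := pair_main h2 h3 hα hβ hne
  obtain ⟨a, b, e⟩ := (hf.coprime_iff_not_dvd).2 hfX
  refine ⟨b, ?_, h5⟩
  have := (h4 (1 - b * X)).2 ⟨a, by linear_combination -e⟩
  rw [map_sub, map_one, map_mul, aeval_X, sub_mul, one_mul, sub_eq_zero, mul_assoc] at this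
  exact this.symm

theorem bab_ne (hα : ND G α) (hβ : NN G β) (hne : α * β * α ≠ 0) : β * α * β ≠ 0 := by
  obtain ⟨s, h4, -⟩ := exists_unit h2 h3 hα hβ hne
  intro e
  apply hne
  calc α * β * α = α * β * (aeval (gam α β) s * (α * β * α)) := by rw [h4]
    _ = aeval (gam α β) s * α * (β * α * β) * α := by
      rw [← mul_assoc, mul_assoc α β, mul_ev_right hβ.1, ← mul_assoc α, mul_ev_left hα.nn.1]
      simp only [mul_assoc]
    _ = 0 := by rw [e, mul_zero, zero_mul]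

theorem exists_mu_partner (hα : ND G α) (hβ : ND G β) (hne : α * β * α ≠ 0) :
    ∃ β' ∈ SM G β, MU α β' := by
  have ha := hα.nn.1
  have hb := hβ.nn.1
  obtain ⟨s, h4, -⟩ := exists_unit h2 h3 hα hβ.nn hne
  obtain ⟨s', h5, h6⟩ := exists_unit h2 h3 hβ hα.nn (bab_ne h2 h3 hα hβ.nn hne)
  rw [gam_comm] at h5 h6
  have e1 : α * (aeval (gam α β) s * β) * α = α := by
    rw [← mul_assoc, mul_ev_left ha, mul_assoc, mul_assoc, ← mul_assoc α, h4]
  have e2 : β * α * (aeval (gam α β) s * β) = β := by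
    calc _ = aeval (gam α β) s * (β * α * β) := by
          rw [← mul_assoc, mul_assoc β, mul_ev_left ha, ← mul_assoc β, mul_ev_right hb]
          simp only [mul_assoc]
      _ = aeval (gam α β) s * (aeval (gam α β) s' * (β * α * β) * α * β) := by rw [h5]
      _ = aeval (gam α β) s' * β * (aeval (gam α β) s * (α * β * α)) * β := by
          rw [mul_assoc _ β, ← mul_assoc β, mul_ev_right hb, ← mul_assoc, ← mul_assoc,
            ← mul_assoc, ← mul_assoc, ← mul_assoc, ← map_mul, mul_comm s, map_mul]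
          simp only [mul_assoc]
      _ = β := by rw [h4, mul_assoc, mul_assoc, ← mul_assoc β, h5]
  refine ⟨aeval (gam α β) s * β, sm_mk hb (h6 s) (LinearMap.ker_le_ker_comp _ _) ?_, ha, (h6 s).1,
    e1, ?_⟩
  · rw [← mul_ev_right hb]; exact LinearMap.range_comp_le_range _ _
  · rw [mul_assoc, mul_assoc, ← mul_assoc β, e2]

theorem op_iff (hα : ND G α) (hβ : ND G β) : OP α β ↔ α * β * α ≠ 0 := by
  refine ⟨fun h => h.ne hα.ne, fun h => ?_⟩
  obtain ⟨β', h4, h5⟩ := exists_mu_partner h2 h3 hα hβ h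
  have h0 : β' ≠ 0 := fun e => hα.ne (by rw [← h5.aba, e, mul_zero, zero_mul])
  obtain ⟨-, h6, h7⟩ := hβ.sm h4 h0
  exact h5.op.congr rfl rfl h6.symm h7.symm

theorem OP.partner (h : OP α β) (hα : ND G α) (hβ : ND G β) {α' : Module.End k M}
    (h' : α' ∈ SM G α) (h0 : α' ≠ 0) : ∃ β' ∈ SM G β, β' ≠ 0 ∧ MU α' β' := by
  obtain ⟨h4, h5, h6⟩ := hα.sm h' h0
  obtain ⟨β', h7, h8⟩ := exists_mu_partner h2 h3 h4 hβ ((h.congr h5 h6 rfl rfl).ne h0)
  exact ⟨β', h7, fun e => h0 (by rw [← h8.aba, e, mul_zero, zero_mul]), h8⟩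

theorem not_op_mul (h : ¬ OP α β) (hα : ND G α) (hβ : ND G β) {α₁ α₂ β₁ : Module.End k M}
    (h4 : α₁ ∈ SM G α) (h5 : α₂ ∈ SM G α) (h6 : β₁ ∈ SM G β) : α₁ * β₁ * α₂ = 0 := by
  by_cases h0 : β₁ = 0
  · rw [h0, mul_zero, zero_mul]
  obtain ⟨h7, h8, h9⟩ := hβ.sm h6 h0
  have : α * β₁ * α = 0 := by
    by_contra e
    exact h (((op_iff h2 h3 hα h7).2 e).congr rfl rfl h8.symm h9.symm)
  refine sm_left h5 ?_
  rw [mul_assoc] at this ⊢
  exact sm_right h4 this

end Fin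

theorem MU.conj_eq (h : MU α β) : (1 + β) * α * (1 - β) = -((1 + α) * β * (1 - α)) := by
  have e1 : (1 + β) * α * (1 - β) = α + β * α - α * β - β * α * β := by noncomm_ring
  have e2 : (1 + α) * β * (1 - α) = β + α * β - β * α - α * β * α := by noncomm_ring
  rw [e1, e2, h.aba, h.bab]; abel

theorem MU.cj_eq (h : MU α β) (hα : NN G α) (hβ : NN G β) :
    cj (un β hβ.1) (EG G α) = cj (un α hα.1) (EG G β) := by
  rw [cj_EG hβ.un_mem, cj_EG hα.un_mem, un_val, un_val, un_inv_val, un_inv_val, h.conj_eq]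
  exact EG_congr SM_neg

theorem un_neg (h : ξ * ξ = 0) (h' : -ξ * -ξ = 0) : un (-ξ) h' = (un ξ h)⁻¹ :=
  Units.ext (by simp [sub_eq_add_neg])

section Fin

variable [FiniteDimensional k M] (h2 : (2 : k) ≠ 0) (h3 : Nat.card k ≠ 3)
include h2 h3

theorem OP.cond (h : OP α β) (hα : ND G α) (hβ : ND G β) {a : LinearMap.GeneralLinearGroup k M}
    (ha : a ∈ EG G α) (ha1 : a ≠ 1) : ∃ b ∈ EG G β, b ≠ 1 ∧ cj b (EG G α) = cj a (EG G β) ∧
      cj b⁻¹ (EG G α) = cj a⁻¹ (EG G β) := by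
  obtain ⟨α', h4, rfl⟩ := mem_EG'.1 ha
  have h0 : α' ≠ 0 := fun e => ha1 (Units.ext (by simp [e]))
  obtain ⟨β', h5, h6, h7⟩ := h.partner h2 h3 hα hβ h4 h0
  refine ⟨un β' h5.1.1, un_mem_EG h5, un_ne_one h6, ?_, ?_⟩
  · rw [← EG_congr (hα.SM_eq h4 h0), ← EG_congr (hβ.SM_eq h5 h6)]
    exact h7.cj_eq h4.1 h5.1
  · rw [← EG_congr (hα.SM_eq h4 h0), ← EG_congr (hβ.SM_eq h5 h6), ← un_neg _ h4.1.neg.1,
      ← un_neg _ h5.1.neg.1, ← EG_congr (SM_neg (α := α')), ← EG_congr (SM_neg (α := β'))]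
    exact h7.neg.cj_eq h4.1.neg h5.1.neg

theorem OP.r1 (h : OP α β) (hα : ND G α) (hβ : ND G β) : IsRankOnePair (EG G α) (EG G β) := by
  refine r1_mk (fun e => ?_) (isNilpotent_of_com EG_com) (isNilpotent_of_com EG_com)
    (fun a ha ha1 => ?_) (fun a ha ha1 => ?_)
  · have h4 : β ∈ SM G α := by
      have := un_mem_EG (sm_self hβ.nn)
      rw [← e, mem_EG] at this
      simpa using this
    exact h.ne hα.ne (by rw [h4.2.2.2, zero_mul])
  · obtain ⟨b, h4, h5, h6, -⟩ := h.cond h2 h3 hα hβ ha ha1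
    exact ⟨b, h4, h5, h6⟩
  · obtain ⟨b, h4, h5, h6, -⟩ := h.symm.cond h2 h3 hβ hα ha ha1
    exact ⟨b, h4, h5, h6⟩

theorem OP.sp (h : OP α β) (hα : ND G α) (hβ : ND G β) : Sp (EG G α) (EG G β) := by
  intro a ha b hb e
  have hr := h.r1 h2 h3 hα hβ
  obtain ⟨b', h4, -, h6, h7⟩ := h.cond h2 h3 hα hβ ha (r1_ne_one_left hr hb e)
  rw [r1_inj (r1_symm hr) hb h4 (e.trans h6.symm)]
  exact h7

end Fin

end Cfsg.Agent.Root
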