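import Mathlib
import Cfsg.Agent.Root.R1

/-! Unipotent subgroups of `GL(M)`: a Baer–Suzuki theorem. -/

set_option autoImplicit false

namespace Cfsg.Agent.Root

open Cfsg.Agent.LocalEven

variable {k : Type*} [Field k] {M : Type*} [AddCommGroup M] [Module k M]

/-- the span of the `g - 1`, `g ∈ H` -/
def aug (H : Subgroup (LinearMap.GeneralLinearGroup k M)) : Submodule k (Module.End k M) :=
  Submodule.span k {x | ∃ g ∈ H, x = (g : M →ₗ[k] M) - 1}

/-- nilpotent subspaces -/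
def NilS (N : Submodule k (Module.End k M)) : Prop := ∃ n : ℕ, N ^ n = ⊥

variable {A B H : Subgroup (LinearMap.GeneralLinearGroup k M)}
  {N D : Submodule k (Module.End k M)}

theorem mem_aug {g : LinearMap.GeneralLinearGroup k M} (hg : g ∈ H) :
    (g : M →ₗ[k] M) - 1 ∈ aug H := Submodule.subset_span ⟨g, hg, rfl⟩

theorem aug_le : aug H ≤ N ↔ ∀ g ∈ H, (g : M →ₗ[k] M) - 1 ∈ N := by
  rw [aug, Submodule.span_le]
  exact ⟨fun h g hg => h ⟨g, hg, rfl⟩, by rintro h _ ⟨g, hg, rfl⟩; exact h g hg⟩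

theorem aug_mono (h : A ≤ B) : aug A ≤ aug B := aug_le.2 fun _ hg => mem_aug (h hg)

theorem NilS.mono (h : NilS N) (hle : D ≤ N) : NilS D := by
  obtain ⟨n, hn⟩ := h
  exact ⟨n, le_bot_iff.1 (hn ▸ pow_le_pow_left' hle n)⟩

theorem unip_def : IsUnipotentOn H ↔ ∃ n : ℕ, ∀ l : List (LinearMap.GeneralLinearGroup k M),
    (∀ g ∈ l, g ∈ H) → l.length = n →
      (l.map fun g : LinearMap.GeneralLinearGroup k M => (g : M →ₗ[k] M) - 1).prod = 0 := by
  refine exists_congr fun n => forall_congr' fun l => forall_congr' fun _ =>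
    forall_congr' fun _ => ?_
  rw [bind_pure_comp, List.map_eq_map, List.map_map]
  rfl

theorem unip_iff : IsUnipotentOn H ↔ NilS (aug H) := by
  rw [unip_def]
  constructor
  · rintro ⟨n, hn⟩
    refine ⟨n, ?_⟩
    rw [aug, Submodule.span_pow, Submodule.span_eq_bot]
    intro x hx
    obtain ⟨f, rfl⟩ := Set.mem_pow.1 hx
    choose g hg e using fun i => (f i).2
    have := hn (List.ofFn g) (fun x hx => by
      obtain ⟨i, rfl⟩ := (List.mem_ofFn' _ _).1 hx; exact hg i) (by simp)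
    rw [List.map_ofFn] at this
    rw [← this]
    congr 2
    funext i
    exact e i
  · rintro ⟨n, hn⟩
    refine ⟨n, fun l hl e => ?_⟩
    have key : ∀ l : List (LinearMap.GeneralLinearGroup k M), (∀ g ∈ l, g ∈ H) →
        (l.map fun g : LinearMap.GeneralLinearGroup k M => (g : M →ₗ[k] M) - 1).prod ∈
          aug H ^ l.length := by
      intro l
      induction l with
      | nil => intro _; simp [Submodule.one_le.1 le_rfl]
      | cons a l ih =>
        intro h
        rw [List.map_cons, List.prod_cons, List.length_cons, pow_succ']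
        exact Submodule.mul_mem_mul (mem_aug (h a (by simp)))
          (ih fun g hg => h g (List.mem_cons_of_mem _ hg))
    have := key l hl
    rwa [e, hn] at this

theorem unip_mono (h : IsUnipotentOn B) (hle : A ≤ B) : IsUnipotentOn A :=
  unip_iff.2 ((unip_iff.1 h).mono (aug_mono hle))

theorem mul_sub_one' (g h : LinearMap.GeneralLinearGroup k M) :
    ((g * h : LinearMap.GeneralLinearGroup k M) : M →ₗ[k] M) - 1 =
      ((g : M →ₗ[k] M) - 1) * ((h : M →ₗ[k] M) - 1) + (((g : M →ₗ[k] M) - 1) +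
        ((h : M →ₗ[k] M) - 1)) := by
  rw [Units.val_mul]; noncomm_ring

theorem aug_mul : aug H * aug H ≤ aug H := by
  rw [aug, Submodule.span_mul_span, Submodule.span_le]
  rintro _ ⟨_, ⟨g, hg, rfl⟩, _, ⟨h, hh, rfl⟩, rfl⟩
  have := mul_sub_one' g h
  rw [← sub_eq_iff_eq_add] at this
  change _ * _ ∈ aug H
  rw [← this]
  exact Submodule.sub_mem _ (mem_aug (H.mul_mem hg hh))
    (Submodule.add_mem _ (mem_aug hg) (mem_aug hh))

/-- the units in `1 + N` -/
def oneAdd (N : Submodule k (Module.End k M)) (hN : N * N ≤ N) :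
    Subgroup (LinearMap.GeneralLinearGroup k M) where
  carrier := {g | (g : M →ₗ[k] M) - 1 ∈ N ∧
    ((g⁻¹ : LinearMap.GeneralLinearGroup k M) : M →ₗ[k] M) - 1 ∈ N}
  one_mem' := by simp
  mul_mem' := fun {g h} hg hh => by
    refine ⟨?_, ?_⟩
    · rw [mul_sub_one']
      exact N.add_mem (hN (Submodule.mul_mem_mul hg.1 hh.1)) (N.add_mem hg.1 hh.1)
    · rw [mul_inv_rev, mul_sub_one']
      exact N.add_mem (hN (Submodule.mul_mem_mul hh.2 hg.2)) (N.add_mem hh.2 hg.2)
  inv_mem' := fun {g} hg => ⟨hg.2, by rw [inv_inv]; exact hg.1⟩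

theorem le_oneAdd (hN : N * N ≤ N) : H ≤ oneAdd N hN ↔ aug H ≤ N := by
  rw [aug_le]
  exact ⟨fun h g hg => (h hg).1, fun h g hg => ⟨h g hg, h _ (H.inv_mem hg)⟩⟩

theorem aug_sup_le (hN : N * N ≤ N) (h1 : aug A ≤ N) (h2 : aug B ≤ N) : aug (A ⊔ B) ≤ N :=
  (le_oneAdd hN).1 (sup_le ((le_oneAdd hN).2 h1) ((le_oneAdd hN).2 h2))

theorem aug_iSup_le (hN : N * N ≤ N) {S : Set (Subgroup (LinearMap.GeneralLinearGroup k M))}
    (h : ∀ A ∈ S, aug A ≤ N) : aug (⨆ A ∈ S, A) ≤ N :=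
  (le_oneAdd hN).1 (iSup₂_le fun A hA => (le_oneAdd hN).2 (h A hA))

theorem conj_sub_one' (g x : LinearMap.GeneralLinearGroup k M) :
    ((g * x * g⁻¹ : LinearMap.GeneralLinearGroup k M) : M →ₗ[k] M) - 1 =
      (g : M →ₗ[k] M) * ((x : M →ₗ[k] M) - 1) * (g⁻¹ : LinearMap.GeneralLinearGroup k M) := by
  rw [mul_sub, sub_mul, mul_one, Units.mul_inv]; rfl

theorem conj_mem_aug {g : LinearMap.GeneralLinearGroup k M} (h : cj g A ≤ B) {d : Module.End k M}
    (hd : d ∈ aug A) :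
    (g : M →ₗ[k] M) * d * (g⁻¹ : LinearMap.GeneralLinearGroup k M) ∈ aug B := by
  induction hd using Submodule.span_induction with
  | mem x hx =>
    obtain ⟨a, ha, rfl⟩ := hx
    rw [← conj_sub_one']
    exact mem_aug (h (conj_mem_cj ha))
  | zero => simp
  | add x y _ _ hx hy => rw [mul_add, add_mul]; exact Submodule.add_mem _ hx hy
  | smul c x _ hx => rw [mul_smul_comm, smul_mul_assoc]; exact Submodule.smul_mem _ _ hx

theorem nil_sup_of_norm (hD : D * D ≤ D) (h1 : NilS D) (h2 : NilS (aug H))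
    (hn : ∀ h ∈ H, ∀ d ∈ D, (h : M →ₗ[k] M) * d * (h⁻¹ : LinearMap.GeneralLinearGroup k M) ∈ D) :
    ∃ T : Submodule k (Module.End k M), T * T ≤ T ∧ NilS T ∧ D ≤ T ∧ aug H ≤ T := by
  set B := aug H with hB
  set K : Submodule k (Module.End k M) := 1 ⊔ B with hK
  have hBB : B * B ≤ B := aug_mul
  have hKK : K * K ≤ K := by
    rw [hK, Submodule.sup_mul, one_mul, Submodule.mul_sup, mul_one]
    exact sup_le le_rfl (sup_le le_sup_right (hBB.trans le_sup_right))
  have hDK : D ≤ D * K := by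
    conv_lhs => rw [← mul_one D]
    exact mul_le_mul_right le_sup_left _
  have hKD : K * D ≤ D * K := by
    rw [hK, Submodule.sup_mul, one_mul]
    refine sup_le hDK ?_
    rw [hB, aug, Submodule.mul_le]
    intro x hx d hd
    induction hx using Submodule.span_induction with
    | mem x hx =>
      obtain ⟨g, hg, rfl⟩ := hx
      have e : ((g : M →ₗ[k] M) - 1) * d = (g : M →ₗ[k] M) * d *
          (g⁻¹ : LinearMap.GeneralLinearGroup k M) * (1 + ((g : M →ₗ[k] M) - 1)) - d := by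
        rw [add_sub_cancel, mul_assoc, Units.inv_mul, mul_one, sub_mul, one_mul]
      rw [e]
      exact Submodule.sub_mem _ (Submodule.mul_mem_mul (hn g hg d hd) (Submodule.add_mem _
        (Submodule.mem_sup_left (Submodule.one_le.1 le_rfl)) (Submodule.mem_sup_right (mem_aug hg))))
        (hDK hd)
    | zero => simp
    | add x y _ _ hx hy => rw [add_mul]; exact Submodule.add_mem _ hx hy
    | smul c x _ hx => rw [smul_mul_assoc]; exact Submodule.smul_mem _ _ hx
  set I := D * K with hI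
  have hKI : K * I ≤ I := by
    rw [hI, ← mul_assoc]
    exact (mul_le_mul_left hKD K).trans (by rw [mul_assoc]; exact mul_le_mul_right hKK _)
  have hIK : I * K ≤ I := by rw [hI, mul_assoc]; exact mul_le_mul_right hKK _
  have hII : I * I ≤ I := by
    conv_lhs => enter [1]; rw [hI]
    rw [mul_assoc]
    refine (mul_le_mul_right hKI D).trans ?_
    rw [hI, ← mul_assoc]
    exact mul_le_mul_left hD _
  have hBI : B * I ≤ I := (mul_le_mul_left le_sup_right I).trans hKI
  have hIB : I * B ≤ I := (mul_le_mul_right le_sup_right I).trans hIK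
  have hIp : ∀ m : ℕ, I ^ (m + 1) ≤ D ^ (m + 1) * K := by
    intro m
    induction m with
    | zero => simp [hI]
    | succ m ih =>
      rw [pow_succ]
      refine (mul_le_mul_left ih I).trans ?_
      rw [mul_assoc, pow_succ D (m + 1), mul_assoc]
      exact mul_le_mul_right hKI _
  have hTp : ∀ m : ℕ, (I ⊔ B) ^ (m + 1) ≤ I ⊔ B ^ (m + 1) := by
    intro m
    induction m with
    | zero => simp
    | succ m ih =>
      rw [pow_succ']
      refine (mul_le_mul_right ih _).trans ?_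
      have hIB' : ∀ j : ℕ, I * B ^ j ≤ I := by
        intro j
        induction j with
        | zero => simp
        | succ j ih => rw [pow_succ, ← mul_assoc]; exact (mul_le_mul_left ih B).trans hIB
      rw [Submodule.sup_mul, Submodule.mul_sup, Submodule.mul_sup, ← pow_succ']
      exact sup_le (sup_le (hII.trans le_sup_left) ((hIB' _).trans le_sup_left))
        (sup_le_sup_right hBI _)
  refine ⟨I ⊔ B, ?_, ?_, hDK.trans le_sup_left, le_sup_right⟩
  · rw [Submodule.sup_mul, Submodule.mul_sup, Submodule.mul_sup]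
    exact sup_le (sup_le (hII.trans le_sup_left) (hIB.trans le_sup_left))
      (sup_le_sup hBI hBB)
  · obtain ⟨n, hn1⟩ := h1
    obtain ⟨m, hm⟩ := h2
    refine ⟨(m + 1) * (n + 1), le_bot_iff.1 ?_⟩
    have h3 := hTp m
    rw [pow_succ B, hm, Submodule.bot_mul, sup_bot_eq] at h3
    rw [pow_mul]
    refine (pow_le_pow_left' h3 _).trans ((hIp n).trans ?_)
    rw [pow_succ, hn1, Submodule.bot_mul, Submodule.bot_mul]

theorem unip_sup_of_norm (hA : IsUnipotentOn A) (hB : IsUnipotentOn B)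
    (hn : ∀ b ∈ B, cj b A ≤ A) : IsUnipotentOn (A ⊔ B) := by
  obtain ⟨T, h1, h2, h3, h4⟩ := nil_sup_of_norm aug_mul (unip_iff.1 hA) (unip_iff.1 hB)
    fun b hb d hd => conj_mem_aug (hn b hb) hd
  exact unip_iff.2 (h2.mono (aug_sup_le h1 h3 h4))

theorem unip_sup_of_com (hA : IsUnipotentOn A) (hB : IsUnipotentOn B) (h : Com A B) :
    IsUnipotentOn (A ⊔ B) := unip_sup_of_norm hA hB fun _ hb => (h.symm.cj_eq hb).le

section BS

variable {W : Set (Subgroup (LinearMap.GeneralLinearGroup k M))}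

/-- the span attached to the members of `W` inside `1 + N` -/
def clW (W : Set (Subgroup (LinearMap.GeneralLinearGroup k M))) (N : Submodule k (Module.End k M)) :
    Submodule k (Module.End k M) := aug (⨆ A ∈ {A | A ∈ W ∧ aug A ≤ N}, A)

theorem clW_le (hN : N * N ≤ N) : clW W N ≤ N := aug_iSup_le hN fun _ h => h.2

theorem le_clW (hA : A ∈ W) (h : aug A ≤ N) : aug A ≤ clW W N :=
  aug_mono (le_iSup₂_of_le (f := fun A (_ : A ∈ {A | A ∈ W ∧ aug A ≤ N}) => A) A ⟨hA, h⟩ le_rfl)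

theorem clW_mul : clW W N * clW W N ≤ clW W N := aug_mul

theorem clW_le_of (h : ∀ A ∈ W, aug A ≤ N → aug A ≤ D) : clW W N ≤ clW W D :=
  aug_iSup_le clW_mul fun A hA => le_clW hA.1 (h A hA.1 hA.2)

theorem clW_mono (h : N ≤ D) : clW W N ≤ clW W D := clW_le_of fun _ _ h' => h'.trans h

theorem clW_clW : clW W (clW W N) = clW W N :=
  le_antisymm (clW_le clW_mul) (clW_le_of fun _ hA h => le_clW hA h)

theorem exists_normalizing (hconj : ∀ A ∈ W, ∀ B ∈ W, ∀ a ∈ A, cj a B ∈ W) (hN : clW W N = N)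
    (hnil : NilS N) (hD : clW W D = D) (hle : D ≤ N) (hne : ¬ N ≤ D) :
    ∃ A ∈ W, aug A ≤ N ∧ ¬ aug A ≤ D ∧ ∀ a ∈ A, ∀ d ∈ D,
      (a : M →ₗ[k] M) * d * (a⁻¹ : LinearMap.GeneralLinearGroup k M) ∈ D := by
  classical
  have hNN : N * N ≤ N := hN ▸ clW_mul
  have hDD : D * D ≤ D := hD ▸ clW_mul
  have hp : ∀ j : ℕ, N ^ (j + 1) ≤ N := by
    intro j
    induction j with
    | zero => simp
    | succ j ih => rw [pow_succ]; exact (mul_le_mul_left ih N).trans hNN
  obtain ⟨n, hn⟩ := hnil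
  have hex : ∃ j : ℕ, ∀ A ∈ W, aug A ≤ D ⊔ N ^ (j + 1) → aug A ≤ D :=
    ⟨n, fun A _ h => by rwa [pow_succ, hn, Submodule.bot_mul, sup_bot_eq] at h⟩
  have h0 : Nat.find hex ≠ 0 := by
    intro e
    have := Nat.find_spec hex
    rw [e] at this
    apply hne
    rw [← hN, ← hD]
    exact clW_le_of fun A hA h => this A hA (by simpa using h.trans le_sup_right)
  obtain ⟨j, hj⟩ := Nat.exists_eq_succ_of_ne_zero h0
  have h1 := Nat.find_spec hex
  have h2 := Nat.find_min hex (m := j) (by omega)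
  rw [hj] at h1
  push Not at h2
  obtain ⟨A, hA, h3, h4⟩ := h2
  have l1 : (D ⊔ N ^ (j + 1)) * (D ⊔ N ^ (j + 1 + 1)) ≤ D ⊔ N ^ (j + 1 + 1) := by
    rw [Submodule.sup_mul, Submodule.mul_sup]
    refine sup_le (sup_le_sup hDD ?_) (le_sup_of_le_right ?_)
    · rw [pow_succ' N (j + 1)]
      refine (mul_le_mul_left hle _).trans ?_
      rw [← mul_assoc]; exact mul_le_mul_left hNN _
    · rw [pow_succ N (j + 1)]
      exact mul_le_mul_right (sup_le hle (by rw [← pow_succ]; exact hp _)) _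
  have l2 : (D ⊔ N ^ (j + 1 + 1)) * (D ⊔ N ^ (j + 1)) ≤ D ⊔ N ^ (j + 1 + 1) := by
    rw [Submodule.mul_sup, Submodule.sup_mul]
    refine sup_le (sup_le_sup hDD ?_) (le_sup_of_le_right ?_)
    · rw [pow_succ N (j + 1)]
      refine (mul_le_mul_right hle _).trans ?_
      rw [mul_assoc]; exact mul_le_mul_right hNN _
    · rw [pow_succ' N (j + 1)]
      exact mul_le_mul_left (sup_le hle (by rw [← pow_succ']; exact hp _)) _
  refine ⟨A, hA, h3.trans (sup_le hle (hp j)), h4, fun a ha d hd => ?_⟩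
  rw [← hD] at hd ⊢
  refine conj_mem_aug ?_ hd
  rw [cj_iSup]
  refine iSup_le fun B => ?_
  rw [cj_iSup]
  refine iSup_le fun hB => ?_
  refine le_iSup₂_of_le (f := fun A (_ : A ∈ {A | A ∈ W ∧ aug A ≤ D}) => A) (cj a B)
    ⟨hconj A hA B hB.1 a ha, h1 _ (hconj A hA B hB.1 a ha) (aug_le.2 fun x hx => ?_)⟩ le_rfl
  obtain ⟨b, hb, rfl⟩ := mem_cj'.1 hx
  have z : (b : M →ₗ[k] M) - 1 ∈ D ⊔ N ^ (j + 1 + 1) := Submodule.mem_sup_left (hB.2 (mem_aug hb))
  have x1 := h3 (mem_aug ha)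
  have x2 := h3 (mem_aug (A.inv_mem ha))
  have e : ∀ x y z : Module.End k M, x * z * y = (x - 1) * z * (y - 1) + (x - 1) * z + z * (y - 1)
      + z := fun x y z => by noncomm_ring
  rw [conj_sub_one', e]
  exact Submodule.add_mem _ (Submodule.add_mem _ (Submodule.add_mem _
    (l2 (Submodule.mul_mem_mul (l1 (Submodule.mul_mem_mul x1 z)) x2))
    (l1 (Submodule.mul_mem_mul x1 z))) (l2 (Submodule.mul_mem_mul z x2))) z

/-- Baer–Suzuki for unipotent subgroups -/
theorem unip_iSup [FiniteDimensional k M] (hconj : ∀ A ∈ W, ∀ B ∈ W, ∀ a ∈ A, cj a B ∈ W)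
    (hWW : ∀ A ∈ W, ∀ B ∈ W, IsUnipotentOn (A ⊔ B)) : IsUnipotentOn (⨆ A ∈ W, A) := by
  let P : Submodule k (Module.End k M) → Prop := fun N => clW W N = N ∧ NilS N
  have hP : ∀ T : Submodule k (Module.End k M), T * T ≤ T → NilS T →
      ∃ N, clW W T ≤ N ∧ Maximal P N := fun T h1 h2 =>
    exists_maximal_ge_of_wellFoundedGT P _ ⟨clW_clW, h2.mono (clW_le h1)⟩
  have key : ∀ D N₁ N₂ : Submodule k (Module.End k M), Maximal P N₁ → Maximal P N₂ →
      D = clW W (N₁ ⊓ N₂) → N₁ = N₂ := by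
    intro D
    induction D using WellFoundedGT.induction with
    | ind D ih =>
    intro N₁ N₂ h1 h2 e
    by_contra hne
    have m1 : N₁ * N₁ ≤ N₁ := h1.prop.1 ▸ clW_mul
    have m2 : N₂ * N₂ ≤ N₂ := h2.prop.1 ▸ clW_mul
    have hD : clW W D = D := by rw [e, clW_clW]
    have hD12 : D ≤ N₁ ⊓ N₂ := e ▸ clW_le (le_inf ((mul_le_mul' inf_le_left inf_le_left).trans m1)
      ((mul_le_mul' inf_le_right inf_le_right).trans m2))
    obtain ⟨A₁, a1, b1, c1, d1⟩ := exists_normalizing hconj h1.prop.1 h1.prop.2 hD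
      (hD12.trans inf_le_left)
      (fun h => hne (h1.eq_of_le h2.prop (h.trans (hD12.trans inf_le_right))))
    obtain ⟨A₂, a2, b2, c2, d2⟩ := exists_normalizing hconj h2.prop.1 h2.prop.2 hD
      (hD12.trans inf_le_right)
      (fun h => hne (h2.eq_of_le h1.prop (h.trans (hD12.trans inf_le_left))).symm)
    let K : Subgroup (LinearMap.GeneralLinearGroup k M) :=
      { carrier := {a | (∀ d ∈ D, (a : M →ₗ[k] M) * d *
            (a⁻¹ : LinearMap.GeneralLinearGroup k M) ∈ D) ∧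
          ∀ d ∈ D, ((a⁻¹ : LinearMap.GeneralLinearGroup k M) : M →ₗ[k] M) * d * a ∈ D}
        one_mem' := by simp
        mul_mem' := fun {a b} ha hb => ⟨fun d hd => by
          simpa [mul_assoc] using ha.1 _ (hb.1 d hd), fun d hd => by
          simpa [mul_assoc] using hb.2 _ (ha.2 d hd)⟩
        inv_mem' := fun {a} ha => ⟨by simpa using ha.2, by simpa using ha.1⟩ }
    have hK : A₁ ⊔ A₂ ≤ K := sup_le (fun a ha => ⟨d1 a ha, by simpa using d1 _ (A₁.inv_mem ha)⟩)
      (fun a ha => ⟨d2 a ha, by simpa using d2 _ (A₂.inv_mem ha)⟩)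
    obtain ⟨T, t1, t2, t3, t4⟩ := nil_sup_of_norm (hD ▸ clW_mul)
      (h1.prop.2.mono (hD12.trans inf_le_left)) (unip_iff.1 (hWW A₁ a1 A₂ a2))
      fun a ha => (hK ha).1
    obtain ⟨N₃, n1, n2⟩ := hP T t1 t2
    have hD3 : D ≤ N₃ := (hD ▸ clW_mono t3 : D ≤ clW W T).trans n1
    have f : ∀ (N : Submodule k (Module.End k M)) (A : Subgroup (LinearMap.GeneralLinearGroup k M)),
        Maximal P N → D ≤ N → A ∈ W → aug A ≤ N → ¬ aug A ≤ D → A ≤ A₁ ⊔ A₂ → N = N₃ := by
      intro N A hN hDN hA l1 l2 l3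
      have l4 : aug A ≤ clW W (N ⊓ N₃) :=
        le_clW hA (le_inf l1 ((le_clW hA ((aug_mono l3).trans t4)).trans n1))
      refine ih _ (lt_of_le_of_ne (hD ▸ clW_mono (le_inf hDN hD3)) fun e' => l2 (e' ▸ l4))
        N N₃ hN n2 rfl
    exact hne ((f N₁ A₁ h1 (hD12.trans inf_le_left) a1 b1 c1 le_sup_left).trans
      (f N₂ A₂ h2 (hD12.trans inf_le_right) a2 b2 c2 le_sup_right).symm)
  obtain ⟨N, -, hN⟩ := hP ⊥ (by simp) ⟨1, by simp⟩
  refine unip_iff.2 (hN.prop.2.mono (aug_iSup_le (hN.prop.1 ▸ clW_mul) fun A hA => ?_))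
  obtain ⟨N', h1, h2⟩ := hP (aug A) aug_mul (unip_iff.1 (unip_mono (hWW A hA A hA) le_sup_left))
  rw [key _ N N' hN h2 rfl]
  exact (le_clW hA le_rfl).trans h1

end BS

end Cfsg.Agent.Root
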