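import Mathlib
import Cfsg.Agent.Root.Q4
import Cfsg.Agent.Root.Q5

/-! Pairs of groups `E(σ)`: the unipotent case and the rank one case. -/

set_option autoImplicit false

namespace Cfsg.Agent.Root

open Polynomial Matrix Cfsg.Agent.LocalEven
open scoped MatrixGroups commutatorElement

variable {k : Type*} [Field k] {M : Type*} [AddCommGroup M] [Module k M]
variable {G : Subgroup (LinearMap.GeneralLinearGroup k M)} {α β ξ : Module.End k M}

theorem aug_EG : aug (EG G α) ≤ SM G α := aug_le.2 fun _ h => h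

/-- the nilpotent algebra of a non-opposite pair -/
def JJ (G : Subgroup (LinearMap.GeneralLinearGroup k M)) (α β : Module.End k M) :
    Submodule k (Module.End k M) := (SM G α ⊔ SM G β) ⊔ (SM G α ⊔ SM G β) * (SM G α ⊔ SM G β)

/-- all words of length three vanish -/
def W3 (G : Subgroup (LinearMap.GeneralLinearGroup k M)) (α β : Module.End k M) : Prop :=
  (SM G α ⊔ SM G β) * (SM G α ⊔ SM G β) * (SM G α ⊔ SM G β) = ⊥

theorem w3_of_not_op [FiniteDimensional k M] (h2 : (2 : k) ≠ 0) (h3 : Nat.card k ≠ 3)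
    (h : ¬ OP α β) (hα : ND G α) (hβ : ND G β) : W3 G α β := by
  have e1 : ∀ α, SM G α * SM G α = ⊥ := fun α =>
    le_bot_iff.1 (Submodule.mul_le.2 fun x hx y hy => sm_mul hx hy)
  have e2 : ∀ α β, ¬ OP α β → ND G α → ND G β → SM G α * SM G β * SM G α = ⊥ := by
    intro α β h hα hβ
    rw [← le_bot_iff, Submodule.mul_le]
    intro x hx z hz
    refine Submodule.mul_induction_on hx (fun a ha b hb => not_op_mul h2 h3 h hα hβ ha hz hb) ?_
    intro x y h4 h5
    rw [add_mul]; exact Submodule.add_mem _ h4 h5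
  rw [W3]
  simp only [Submodule.mul_sup, Submodule.sup_mul, e1, Submodule.bot_mul, e2 α β h hα hβ,
    e2 β α (fun h' => h h'.symm) hβ hα]
  simp only [mul_assoc, e1, Submodule.mul_bot, sup_idem]

theorem W3.symm (h : W3 G α β) : W3 G β α := by rw [W3, sup_comm]; exact h

theorem JJ_symm : JJ G α β = JJ G β α := by rw [JJ, JJ, sup_comm (SM G α)]

theorem W3.mul_le (h : W3 G α β) : JJ G α β * JJ G α β ≤ (SM G α ⊔ SM G β) * (SM G α ⊔ SM G β) := by
  rw [W3] at h
  rw [JJ]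
  generalize SM G α ⊔ SM G β = J at h ⊢
  rw [Submodule.mul_sup, Submodule.sup_mul, Submodule.sup_mul, h, ← mul_assoc, h, ← mul_assoc,
    h, Submodule.bot_mul]
  simp

theorem W3.mul_le' (h : W3 G α β) : JJ G α β * JJ G α β ≤ JJ G α β := h.mul_le.trans le_sup_right

theorem W3.cube (h : W3 G α β) : JJ G α β * JJ G α β * JJ G α β = ⊥ := by
  rw [← le_bot_iff]
  refine (mul_le_mul_left h.mul_le _).trans ?_
  rw [W3] at h
  rw [JJ]
  generalize SM G α ⊔ SM G β = J at h ⊢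
  rw [Submodule.mul_sup, h, ← mul_assoc, h, Submodule.bot_mul, sup_idem]

theorem W3.mul3 (h : W3 G α β) {x y z : Module.End k M} (hx : x ∈ JJ G α β) (hy : y ∈ JJ G α β)
    (hz : z ∈ JJ G α β) : x * y * z = 0 :=
  h.cube.le (Submodule.mul_mem_mul (Submodule.mul_mem_mul hx hy) hz)

theorem mem_JJ_left (h : ξ ∈ SM G α) : ξ ∈ JJ G α β :=
  Submodule.mem_sup_left (Submodule.mem_sup_left h)

theorem mem_JJ_right (h : ξ ∈ SM G β) : ξ ∈ JJ G α β :=
  Submodule.mem_sup_left (Submodule.mem_sup_right h)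

theorem W3.aug_le (h : W3 G α β) : aug (EG G α ⊔ EG G β) ≤ JJ G α β :=
  aug_sup_le h.mul_le' (fun _ hx => mem_JJ_left (aug_EG hx)) (fun _ hx => mem_JJ_right (aug_EG hx))

theorem W3.mem (h : W3 G α β) {g : LinearMap.GeneralLinearGroup k M} (hg : g ∈ EG G α ⊔ EG G β) :
    (g : M →ₗ[k] M) - 1 ∈ JJ G α β := h.aug_le (mem_aug hg)

theorem W3.unip (h : W3 G α β) : IsUnipotentOn (EG G α ⊔ EG G β) :=
  unip_iff.2 (NilS.mono ⟨3, by rw [pow_three', h.cube]⟩ h.aug_le)

theorem W3.comm_val (h : W3 G α β) {g g' : LinearMap.GeneralLinearGroup k M}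
    (hg : (g : M →ₗ[k] M) - 1 ∈ JJ G α β) (hg' : (g' : M →ₗ[k] M) - 1 ∈ JJ G α β) :
    ((⁅g, g'⁆ : LinearMap.GeneralLinearGroup k M) : M →ₗ[k] M) - 1 =
      ((g : M →ₗ[k] M) - 1) * ((g' : M →ₗ[k] M) - 1) -
        ((g' : M →ₗ[k] M) - 1) * ((g : M →ₗ[k] M) - 1) := by
  obtain ⟨x, hx⟩ : ∃ x, x = (g : M →ₗ[k] M) - 1 := ⟨_, rfl⟩
  obtain ⟨y, hy⟩ : ∃ y, y = (g' : M →ₗ[k] M) - 1 := ⟨_, rfl⟩
  rw [← hx] at hg ⊢
  rw [← hy] at hg' ⊢
  have e1 : (g : M →ₗ[k] M) = 1 + x := by rw [hx]; abel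
  have e2 : (g' : M →ₗ[k] M) = 1 + y := by rw [hy]; abel
  have e3 : ⁅g, g'⁆ = g * g' * (g' * g)⁻¹ := by rw [commutatorElement_def]; group
  rw [e3, Units.val_mul, sub_eq_iff_eq_add, Units.mul_inv_eq_iff_eq_mul, Units.val_mul,
    Units.val_mul, e1, e2]
  have e4 : (x * y - y * x + 1) * ((1 + y) * (1 + x)) = (1 + x) * (1 + y) + (x * y * y - y * x * y
      + x * y * x - y * x * x + x * y * y * x - y * x * y * x) := by noncomm_ring
  rw [e4, h.mul3 hg hg' hg', h.mul3 hg' hg hg', h.mul3 hg hg' hg, h.mul3 hg' hg hg]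
  simp

theorem unip_EG : IsUnipotentOn (EG G α) :=
  unip_iff.2 (NilS.mono ⟨2, by
    rw [pow_two, ← le_bot_iff]
    exact Submodule.mul_le.2 fun x hx y hy => sm_mul hx hy⟩ aug_EG)

theorem MU.not_unip (h : MU α β) (h0 : α ≠ 0) {H : Subgroup (LinearMap.GeneralLinearGroup k M)}
    (ha : un α h.aa ∈ H) (hb : un β h.bb ∈ H) : ¬ IsUnipotentOn H := by
  intro hu
  obtain ⟨n, hn⟩ := unip_iff.1 hu
  have h1 : α ∈ aug H := by simpa using mem_aug ha
  have h2 : β ∈ aug H := by simpa using mem_aug hb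
  have h3 : (α * β) ^ n = 0 :=
    hn.le (Submodule.pow_mem_pow _ (aug_mul (Submodule.mul_mem_mul h1 h2)) n)
  have h4 : ∀ n : ℕ, (α * β) ^ n * α = α := by
    intro n
    induction n with
    | zero => simp
    | succ n ih => rw [pow_succ, mul_assoc, h.aba, ih]
  exact h0 (by rw [← h4 n, h3, zero_mul])

theorem OP.not_unip [FiniteDimensional k M] (h2 : (2 : k) ≠ 0) (h3 : Nat.card k ≠ 3) (h : OP α β)
    (hα : ND G α) (hβ : ND G β) : ¬ IsUnipotentOn (EG G α ⊔ EG G β) := by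
  obtain ⟨β', h4, -, h5⟩ := h.partner h2 h3 hα hβ (sm_self hα.nn) hα.ne
  exact h5.not_unip hα.ne (Subgroup.mem_sup_left (un_mem_EG (sm_self hα.nn)))
    (Subgroup.mem_sup_right (un_mem_EG h4))

/-! ### The idempotent of an opposite pair -/

theorem MU.gam_al (h : MU α β) : gam α β * α = α := by rw [gam_mul_left h.aa, h.aba]
theorem MU.al_gam (h : MU α β) : α * gam α β = α := by rw [mul_gam_left h.aa, h.aba]
theorem MU.gam_be (h : MU α β) : gam α β * β = β := by rw [gam_comm, h.symm.gam_al]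
theorem MU.be_gam (h : MU α β) : β * gam α β = β := by rw [gam_comm, h.symm.al_gam]

theorem MU.idem (h : MU α β) : gam α β * gam α β = gam α β := by
  conv_lhs => enter [2]; rw [gam]
  rw [mul_add, ← mul_assoc, ← mul_assoc, h.gam_al, h.gam_be, gam]

/-- the elements acting trivially outside the range of the idempotent `π` -/
def piGrp (π : Module.End k M) : Subgroup (LinearMap.GeneralLinearGroup k M) where
  carrier := {g | π * ((g : M →ₗ[k] M) - 1) = (g : M →ₗ[k] M) - 1 ∧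
    ((g : M →ₗ[k] M) - 1) * π = (g : M →ₗ[k] M) - 1}
  one_mem' := by simp
  mul_mem' := fun {g h} hg hh => by
    refine ⟨?_, ?_⟩
    · rw [mul_sub_one', mul_add, mul_add, ← mul_assoc, hg.1, hh.1]
    · rw [mul_sub_one', add_mul, add_mul, mul_assoc, hg.2, hh.2]
  inv_mem' := fun {g} hg => by
    have e1 : ((g⁻¹ : LinearMap.GeneralLinearGroup k M) : M →ₗ[k] M) - 1 =
        -(((g : M →ₗ[k] M) - 1) * (g⁻¹ : LinearMap.GeneralLinearGroup k M)) := by
      rw [sub_mul, Units.mul_inv, one_mul, neg_sub]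
    have e2 : ((g⁻¹ : LinearMap.GeneralLinearGroup k M) : M →ₗ[k] M) - 1 =
        -(((g⁻¹ : LinearMap.GeneralLinearGroup k M) : M →ₗ[k] M) * ((g : M →ₗ[k] M) - 1)) := by
      rw [mul_sub, Units.inv_mul, mul_one, neg_sub]
    refine ⟨?_, ?_⟩
    · rw [e1, mul_neg, ← mul_assoc, hg.1]
    · rw [e2, neg_mul, mul_assoc, hg.2]

theorem EG_le_piGrp {π : Module.End k M} (h1 : π * α = α) (h2 : α * π = α) : EG G α ≤ piGrp π := by
  intro g hg
  have e1 := sm_left hg (x := 1 - π) (by rw [sub_mul, h1, one_mul, sub_self])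
  have e2 := sm_right hg (x := 1 - π) (by rw [mul_sub, h2, mul_one, sub_self])
  rw [sub_mul, one_mul, sub_eq_zero] at e1
  rw [mul_sub, mul_one, sub_eq_zero] at e2
  exact ⟨e1.symm, e2.symm⟩

theorem MU.le_piGrp (h : MU α β) : EG G α ⊔ EG G β ≤ piGrp (gam α β) :=
  sup_le (EG_le_piGrp h.gam_al h.al_gam) (EG_le_piGrp h.gam_be h.be_gam)

theorem mem_fixed {H : Subgroup (LinearMap.GeneralLinearGroup k M)} {m : M} :
    m ∈ fixedSubmodule H ↔ ∀ g ∈ H, ((g : M →ₗ[k] M) - 1) m = 0 := by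
  simp [fixedSubmodule]

theorem range_le_comm {H : Subgroup (LinearMap.GeneralLinearGroup k M)}
    {g : LinearMap.GeneralLinearGroup k M} (hg : g ∈ H) :
    LinearMap.range ((g : M →ₗ[k] M) - 1) ≤ commutatorSubmodule H :=
  le_iSup₂_of_le (f := fun (g : LinearMap.GeneralLinearGroup k M) (_ : g ∈ H) =>
    LinearMap.range ((g : M →ₗ[k] M) - 1)) g hg le_rfl

theorem MU.fixed_eq (h : MU α β) (hα : NN G α) (hβ : NN G β) :
    fixedSubmodule (EG G α ⊔ EG G β) = LinearMap.ker (gam α β) := by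
  ext m
  rw [mem_fixed, LinearMap.mem_ker]
  constructor
  · intro hm
    have h1 := hm _ (Subgroup.mem_sup_left (un_mem_EG (sm_self hα)))
    have h2 := hm _ (Subgroup.mem_sup_right (un_mem_EG (sm_self hβ)))
    rw [un_val, add_sub_cancel_left] at h1 h2
    simp [gam, h1, h2]
  · intro hm g hg
    rw [← (h.le_piGrp hg).2, Module.End.mul_apply, hm, map_zero]

theorem MU.comm_eq (h : MU α β) (hα : NN G α) (hβ : NN G β) :
    commutatorSubmodule (EG G α ⊔ EG G β) = LinearMap.range (gam α β) := by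
  apply le_antisymm
  · refine iSup₂_le fun g hg => ?_
    rw [← (h.le_piGrp hg).1]
    exact LinearMap.range_comp_le_range _ _
  · have h1 := range_le_comm (Subgroup.mem_sup_left (T := EG G β) (un_mem_EG (sm_self hα)))
    have h2 := range_le_comm (Subgroup.mem_sup_right (S := EG G α) (un_mem_EG (sm_self hβ)))
    rw [un_val, add_sub_cancel_left] at h1 h2
    exact (LinearMap.range_add_le _ _).trans (sup_le ((LinearMap.range_comp_le_range _ _).trans h1)
      ((LinearMap.range_comp_le_range _ _).trans h2))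

theorem MU.w_sq (h : MU α β) :
    ((1 + α) * (1 - β) * (1 + α)) * ((1 + α) * (1 - β) * (1 + α)) = 1 - 2 * gam α β := by
  have ha' : ∀ x, α * (α * x) = 0 := fun x => by rw [← mul_assoc, h.aa, zero_mul]
  have hb' : ∀ x, β * (β * x) = 0 := fun x => by rw [← mul_assoc, h.bb, zero_mul]
  have h1' : ∀ x, α * (β * (α * x)) = α * x := fun x => by rw [← mul_assoc, ← mul_assoc, h.aba]
  have h2' : ∀ x, β * (α * (β * x)) = β * x := fun x => by rw [← mul_assoc, ← mul_assoc, h.bab]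
  have h1 := h.aba
  have h2 := h.bab
  rw [mul_assoc] at h1 h2
  simp only [gam, two_mul, mul_add, add_mul, mul_sub, sub_mul, one_mul, mul_one, mul_assoc, ha',
    hb', h1', h2', h1, h2, h.aa, h.bb, mul_zero, zero_mul]
  abel

theorem fixed_EG (hα : NN G α) : fixedSubmodule (EG G α) = LinearMap.ker α := by
  ext m
  rw [mem_fixed]
  refine ⟨fun hm => ?_, fun hm g hg => hg.2.1 hm⟩
  simpa using hm _ (un_mem_EG (sm_self hα))

theorem comm_EG (hα : NN G α) : commutatorSubmodule (EG G α) = LinearMap.range α := by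
  refine le_antisymm (iSup₂_le fun g hg => hg.2.2.1) ?_
  simpa using range_le_comm (un_mem_EG (sm_self hα))

/-! ### The group generated by two scalar families -/

theorem pair_main₂ [FiniteDimensional k M] (h2 : (2 : k) ≠ 0) (h3 : Nat.card k ≠ 3) (hα : ND G α)
    (hβ : ND G β) (hne : α * β * α ≠ 0) :
    ∃ f : k[X], Irreducible f ∧ ¬ f ∣ X ∧ (∀ p, aeval (gam α β) p * α = 0 ↔ f ∣ p) ∧
      ∀ p, aeval (gam α β) p * β = 0 ↔ f ∣ p := by
  obtain ⟨f, h4, h5, h6, -⟩ := pair_main h2 h3 hα hβ.nn (by rwa [gam_mul_left hα.nn.1])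
  obtain ⟨f', h4', h5', h6', -⟩ := pair_main h2 h3 hβ hα.nn
    (by rw [gam_mul_left hβ.nn.1]; exact bab_ne h2 h3 hα hβ.nn hne)
  rw [gam_comm] at h6'
  have h7 : f' ∣ f := (h4'.prime.dvd_or_dvd ((h6' _).1
    (ev_be_of_ev_al hβ.nn.1 ((h6 f).2 dvd_rfl)))).resolve_left h5'
  have h8 : f ∣ f' := h4'.dvd_symm h4 h7
  exact ⟨f, h4, h5, h6, fun p => (h6' p).trans ⟨h8.trans, h7.trans⟩⟩

theorem iso_SL2 [FiniteDimensional k M] (h2 : (2 : k) ≠ 0) (h3 : Nat.card k ≠ 3)
    {H : Subgroup (LinearMap.GeneralLinearGroup k M)} (hα : NN H α) (hβ : NN H β) {f : k[X]}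
    [hf : Fact (Irreducible f)] (hfX : ¬ f ∣ X) (h4 : ∀ p, aeval (gam α β) p * α = 0 ↔ f ∣ p)
    (h5 : ∀ p, aeval (gam α β) p * β = 0 ↔ f ∣ p)
    (hgen : ∀ K : Subgroup (LinearMap.GeneralLinearGroup k M),
      (∀ g : LinearMap.GeneralLinearGroup k M, (∃ c : k, (g : M →ₗ[k] M) = 1 + c • α) → g ∈ K) →
      (∀ g : LinearMap.GeneralLinearGroup k M, (∃ c : k, (g : M →ₗ[k] M) = 1 + c • β) → g ∈ K) →
      H ≤ K) :
    Nonempty (H ≃* SL(2, AdjoinRoot f)) := by
  have ha := hα.1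
  have hb := hβ.1
  haveI : FiniteDimensional k (AdjoinRoot f) := (AdjoinRoot.powerBasis hf.out.ne_zero).finite
  have hl : AdjoinRoot.root f ≠ 0 := fun h => hfX (AdjoinRoot.mk_eq_zero.1 h)
  set D := Delta H hα.1 hβ.1 (AdjoinRoot.root f) with hD
  let p1 : D →* SL(2, AdjoinRoot f) := (MonoidHom.fst _ _).comp D.subtype
  let p3' : D →* LinearMap.GeneralLinearGroup k M :=
    ((MonoidHom.snd _ _).comp (MonoidHom.snd _ _)).comp D.subtype
  have m3 : ∀ x : D, p3' x ∈ H := by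
    rintro ⟨x, z, p, q, r, -, -, -, -, -, -, -, -, h, -⟩
    exact h
  let p3 : D →* H := p3'.codRestrict H m3
  have s1 : Function.Surjective p1 := by
    intro m
    obtain ⟨x, hx, e⟩ := (delta_surj h2 h3 hl (fun z => by
      obtain ⟨p, rfl⟩ := AdjoinRoot.mk_surjective z; exact ⟨p, AdjoinRoot.aeval_eq p⟩)
      hα hβ).ge (Subgroup.mem_top m)
    exact ⟨⟨x, hx⟩, e⟩
  have s3 : Function.Surjective p3 := by
    intro g
    obtain ⟨x, e⟩ := hgen p3'.range (by
      rintro g ⟨c, hc⟩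
      obtain ⟨g', e, h⟩ := delta_U hα hb (AdjoinRoot.root f) c
      exact ⟨⟨_, h⟩, Units.ext (e.trans hc.symm)⟩) (by
      rintro g ⟨c, hc⟩
      obtain ⟨g', e, h⟩ := delta_L ha hβ (AdjoinRoot.root f) c
      exact ⟨⟨_, h⟩, Units.ext (e.trans hc.symm)⟩) g.2
    exact ⟨x, Subtype.ext e⟩
  have hker : p3.ker = p1.ker := by
    ext ⟨x, hx⟩
    obtain ⟨z, p, q, r, e0, -, e1, e2, e3, e4, -, e5, -, -⟩ := id hx
    rw [AdjoinRoot.aeval_eq] at e1 e2 e3 e4
    rw [MonoidHom.mem_ker, MonoidHom.mem_ker]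
    have i1 : p3 ⟨x, hx⟩ = 1 ↔ TT α β (z - 1) p q r = 0 := by
      rw [Subtype.ext_iff, Units.ext_iff]
      change (x.2.2 : M →ₗ[k] M) = 1 ↔ _
      rw [e5, ← sub_eq_zero, ← TT_one (k := k) (α := α) (β := β), TT_sub]
      simp
    have i2 : p1 ⟨x, hx⟩ = 1 ↔ f ∣ z - 1 ∧ f ∣ p ∧ f ∣ q ∧ f ∣ r := by
      change x.1 = 1 ↔ _
      have c : ∀ u : k[X], f ∣ X * u → f ∣ u := fun u hu =>
        (hf.out.prime.dvd_or_dvd hu).resolve_left hfX
      simp only [← AdjoinRoot.mk_eq_zero] at c ⊢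
      constructor
      · intro e
        rw [e] at e1 e2 e3 e4
        replace e1 : 1 = AdjoinRoot.mk f (z + X * p) := e1
        replace e2 : 0 = AdjoinRoot.mk f q := e2
        replace e3 : 0 = AdjoinRoot.mk f (X * r) := e3
        replace e4 : 1 = AdjoinRoot.mk f z := e4
        refine ⟨by rw [map_sub, ← e4, map_one, sub_self], c _ ?_, e2.symm, c _ e3.symm⟩
        rw [map_add, ← e4] at e1
        simpa using e1
      · rintro ⟨j1, j2, j3, j4⟩
        rw [map_sub, map_one, sub_eq_zero] at j1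
        ext i j
        fin_cases i <;> fin_cases j <;> simp [e1, e2, e3, e4, j1, j2, j3, j4]
    rw [i1, i2]
    have c : ∀ u : k[X], f ∣ X * u → f ∣ u := fun u hu =>
      (hf.out.prime.dvd_or_dvd hu).resolve_left hfX
    constructor
    · intro e
      have t1 := congrArg (fun t => α * t) e
      have t2 := congrArg (fun t => β * t) e
      simp only [al_mul_TT ha hb, be_mul_TT ha hb, mul_zero] at t1 t2
      have j4 : f ∣ r := by
        have : TT α β 0 r (z - 1) 0 * TT α β (0 : k[X]) 0 1 0 = TT α β 0 0 (X * r) 0 := by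
          rw [TT_mul ha hb]; exact TT_congr (by ring) (by ring) (by ring) (by ring)
        rw [t1, zero_mul, TT_al] at this
        exact c _ ((h4 _).1 this.symm)
      have j3 : f ∣ q := by
        have : TT α β (X * q) (-q) 0 (z - 1 + X * p) * TT α β (0 : k[X]) 0 0 1 =
            TT α β 0 0 0 (X * q) := by
          rw [TT_mul ha hb]; exact TT_congr (by ring) (by ring) (by ring) (by ring)
        rw [t2, zero_mul, TT_be] at this
        exact c _ ((h5 _).1 this.symm)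
      have j1 : f ∣ z - 1 := by
        rw [TT, map_zero, zero_mul, add_zero, zero_add, ← mul_assoc,
          (h4 r).2 j4, zero_mul, zero_add] at t1
        exact (h4 _).1 t1
      have j2 : f ∣ z - 1 + X * p := by
        have : TT α β (X * q) (-q) 0 0 = 0 := TT_eq_zero hb ((h4 f).2 dvd_rfl)
          (mul_dvd_mul_left _ j3) j3.neg_right (dvd_zero _) (dvd_zero _)
        have t3 := TT_sub (α := α) (β := β) (X * q) (-q) 0 (z - 1 + X * p) (X * q) (-q) 0 0
        rw [t2, this, sub_self, sub_self, sub_self, sub_self, sub_zero, TT_be] at t3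
        exact (h5 _).1 t3.symm
      exact ⟨j1, c _ ((dvd_add_right j1).1 j2), j3, j4⟩
    · rintro ⟨j1, j2, j3, j4⟩
      have j5 : X * f ∣ z - 1 :=
        ((hf.out.coprime_iff_not_dvd).2 hfX).symm.mul_dvd (X_dvd_iff.2 (by simp [e0])) j1
      have := TT_add (α := α) (β := β) (z - 1) p q 0 0 0 0 r
      simp only [add_zero, zero_add] at this
      rw [← this, TT_eq_zero hb ((h4 f).2 dvd_rfl) j5 j2 j3 (dvd_zero _), TT_be, (h5 r).2 j4,
        add_zero]
  exact ⟨(QuotientGroup.quotientKerEquivOfSurjective p3 s3).symm.trans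
    ((QuotientGroup.quotientMulEquivOfEq hker).trans
      (QuotientGroup.quotientKerEquivOfSurjective p1 s1))⟩

end Cfsg.Agent.Root
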