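import Mathlib
import Cfsg.Agent.Root.Q6

/-! The groups `E(σ)` form a set of abstract root subgroups. -/

set_option autoImplicit false

namespace Cfsg.Agent.Root

open Polynomial Matrix Cfsg.Agent.LocalEven
open scoped MatrixGroups commutatorElement

variable {k : Type*} [Field k] {M : Type*} [AddCommGroup M] [Module k M]
variable {G : Subgroup (LinearMap.GeneralLinearGroup k M)} {α β ξ : Module.End k M}

/-- no non-trivial unipotent normal subgroup -/
def NoUnip (G : Subgroup (LinearMap.GeneralLinearGroup k M)) : Prop :=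
  ∀ U ≤ G, (∀ g ∈ G, cj g U ≤ U) → IsUnipotentOn U → U = ⊥

theorem fixed_ne_bot {U : Subgroup (LinearMap.GeneralLinearGroup k M)} (hU : IsUnipotentOn U)
    {W : Submodule k M} (hW : ∀ g ∈ U, ∀ w ∈ W, (g : M →ₗ[k] M) w ∈ W)
    (h : Disjoint W (fixedSubmodule U)) : W = ⊥ := by
  obtain ⟨n, hn⟩ := unip_iff.1 hU
  have key : ∀ n : ℕ, ∀ m ∈ W, (∀ x ∈ aug U ^ n, x m = 0) → m = 0 := by
    intro n
    induction n with
    | zero => intro m _ h; exact h 1 (by simp [Submodule.one_le.1 le_rfl])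
    | succ n ih =>
      intro m hm h1
      refine Submodule.disjoint_def.1 h m hm (mem_fixed.2 fun g hg => ih _ ?_ fun x hx => ?_)
      · exact W.sub_mem (hW g hg m hm) hm
      · exact h1 _ (by rw [pow_succ]; exact Submodule.mul_mem_mul hx (mem_aug hg))
  rw [eq_bot_iff]
  intro m hm
  exact key n m hm fun x hx => by rw [hn] at hx; rw [(Submodule.mem_bot k).1 hx]; rfl

theorem fixed_inv {U : Subgroup (LinearMap.GeneralLinearGroup k M)}
    {g : LinearMap.GeneralLinearGroup k M} (hg : cj g⁻¹ U ≤ U) {m : M} (hm : m ∈ fixedSubmodule U) :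
    (g : M →ₗ[k] M) m ∈ fixedSubmodule U := by
  rw [mem_fixed] at hm ⊢
  intro u hu
  have := hm _ (hg (conj_mem_cj hu))
  rw [conj_sub_one, inv_inv, Module.End.mul_apply, Module.End.mul_apply] at this
  have h1 := congrArg (g : M →ₗ[k] M) this
  rwa [← Module.End.mul_apply, Units.mul_inv, map_zero] at h1

theorem noUnip_of_irred (h : IsIrreducibleFor G) : NoUnip G := by
  intro U _ hn hU
  rcases h.2 (fixedSubmodule U) (fun g hg m hm => fixed_inv (hn _ (G.inv_mem hg)) hm) with e | e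
  · obtain ⟨m, hm⟩ := h.1
    have := fixed_ne_bot hU (W := ⊤) (fun _ _ _ _ => trivial) (by rw [e]; exact disjoint_bot_right)
    exact absurd ((Submodule.mem_bot k).1 (this.le (Submodule.mem_top (x := m)))) hm
  · rw [eq_bot_iff]
    intro g hg
    rw [Subgroup.mem_bot]
    ext m
    have := mem_fixed.1 (e.ge (Submodule.mem_top (x := m))) g hg
    simpa [sub_eq_zero] using this

theorem NoUnip.eq_bot [FiniteDimensional k M] (h : NoUnip G)
    {W : Set (Subgroup (LinearMap.GeneralLinearGroup k M))} (h1 : ∀ A ∈ W, A ≤ G)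
    (h2 : ∀ A ∈ W, ∀ g ∈ G, cj g A ∈ W) (h3 : ∀ A ∈ W, ∀ B ∈ W, IsUnipotentOn (A ⊔ B))
    {A : Subgroup (LinearMap.GeneralLinearGroup k M)} (hA : A ∈ W) : A = ⊥ := by
  have := h (⨆ A ∈ W, A) (iSup₂_le h1) (fun g hg => by
    rw [cj_iSup]
    refine iSup_le fun B => ?_
    rw [cj_iSup]
    exact iSup_le fun hB => le_iSup₂_of_le (f := fun A (_ : A ∈ W) => A) (cj g B) (h2 B hB g hg)
      le_rfl) (unip_iSup (fun A hA B hB a ha => h2 B hB a (h1 A hA ha)) h3)
  exact le_bot_iff.1 (this ▸ le_iSup₂_of_le (f := fun A (_ : A ∈ W) => A) A hA le_rfl)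

theorem rk_mul_add [FiniteDimensional k M] (x y : Module.End k M) :
    rk (x * y) + Module.finrank k (LinearMap.range y ⊓ LinearMap.ker x : Submodule k M) = rk y := by
  rw [rk, rk, Module.End.mul_eq_comp, LinearMap.range_comp]
  have h1 := LinearMap.finrank_range_add_finrank_ker (x.domRestrict (LinearMap.range y))
  rwa [LinearMap.range_domRestrict, LinearMap.ker_domRestrict, ← Submodule.finrank_map_subtype_eq,
    Submodule.map_comap_subtype] at h1

theorem conj_mul3 (g : LinearMap.GeneralLinearGroup k M) (x y z : Module.End k M) :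
    ((g : M →ₗ[k] M) * x * (g⁻¹ : LinearMap.GeneralLinearGroup k M)) *
      ((g : M →ₗ[k] M) * y * (g⁻¹ : LinearMap.GeneralLinearGroup k M)) *
      ((g : M →ₗ[k] M) * z * (g⁻¹ : LinearMap.GeneralLinearGroup k M)) =
      (g : M →ₗ[k] M) * (x * y * z) * (g⁻¹ : LinearMap.GeneralLinearGroup k M) := by
  simp only [mul_assoc, Units.inv_mul_cancel_left]

theorem conj_eq_zero {g : LinearMap.GeneralLinearGroup k M} {x : Module.End k M} :
    (g : M →ₗ[k] M) * x * (g⁻¹ : LinearMap.GeneralLinearGroup k M) = 0 ↔ x = 0 :=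
  ⟨fun h => by rw [← conj_conj_inv g x, h, mul_zero, zero_mul], fun h => by simp [h]⟩

theorem finrank_SM_conj' [FiniteDimensional k M] {g : LinearMap.GeneralLinearGroup k M}
    (hg : g ∈ G) : Module.finrank k (SM G ((g : M →ₗ[k] M) * α *
      (g⁻¹ : LinearMap.GeneralLinearGroup k M))) = Module.finrank k (SM G α) := by
  refine le_antisymm ?_ (finrank_SM_conj hg)
  conv_rhs => rw [← conj_conj_inv g α]
  exact finrank_SM_conj (G.inv_mem hg)

/-- the data of the commutator case -/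
structure CD (G : Subgroup (LinearMap.GeneralLinearGroup k M)) (α β : Module.End k M) : Prop where
  a : ND G α
  b : ND G β
  w : W3 G α β
  ne : α * β - β * α ≠ 0

theorem CD.symm (h : CD G α β) : CD G β α :=
  ⟨h.b, h.a, h.w.symm, fun e => h.ne (by rw [← neg_sub, e, neg_zero])⟩

theorem W3.nn_comm (h : W3 G α β) {α' β' : Module.End k M} (ha : α' ∈ SM G α) (hb : β' ∈ SM G β) :
    NN G (α' * β' - β' * α') :=
  ha.1.comm hb.1 (h.mul3 (mem_JJ_left ha) (mem_JJ_right hb) (mem_JJ_left ha))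
    (h.mul3 (mem_JJ_right hb) (mem_JJ_left ha) (mem_JJ_right hb))

theorem W3.range_le (h : W3 G α β) (hβ : NN G β) {α' x : Module.End k M} (ha : α' ∈ SM G α)
    (hx : x ∈ JJ G α β) : LinearMap.range (α' * x) ≤ LinearMap.range α ⊓ LinearMap.ker β :=
  le_inf ((LinearMap.range_comp_le_range _ _).trans ha.2.2.1) (range_le_ker_iff'.2 (by
    rw [← mul_assoc]; exact h.mul3 (mem_JJ_right (sm_self hβ)) (mem_JJ_left ha) hx))

section Fin

variable [FiniteDimensional k M]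

theorem CD.facts (h : CD G α β) : ND G (α * β - β * α) ∧
    LinearMap.range (α * β) = LinearMap.range α ⊓ LinearMap.ker β ∧
    LinearMap.range (α * β) ≤ LinearMap.range (α * β - β * α) ∧
    Disjoint (LinearMap.range (α * β)) (LinearMap.range (β * α)) := by
  have hn := h.w.nn_comm (sm_self h.a.nn) (sm_self h.b.nn)
  have h1 := h.a.min _ hn h.ne
  have l1 : LinearMap.range (α * β - β * α) ≤ LinearMap.range (α * β) ⊔ LinearMap.range (β * α) := by
    rintro _ ⟨m, rfl⟩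
    exact Submodule.sub_mem _ (Submodule.mem_sup_left ⟨m, rfl⟩) (Submodule.mem_sup_right ⟨m, rfl⟩)
  have h2 := Submodule.finrank_mono l1
  have h3 := Submodule.finrank_sup_add_finrank_inf_eq (LinearMap.range (α * β))
    (LinearMap.range (β * α))
  have h4 := rk_mul_add β α
  have l2 := h.w.range_le h.b.nn (sm_self h.a.nn) (mem_JJ_right (sm_self h.b.nn))
  have h5 := Submodule.finrank_mono l2
  simp only [rk] at h1 h4
  refine ⟨h.a.of_rk_le hn h.ne (by simp only [rk]; omega),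
    Submodule.eq_of_le_of_finrank_le l2 (by omega), ?_, ?_⟩
  · rw [Submodule.eq_of_le_of_finrank_le l1 (by omega)]; exact le_sup_left
  · rw [disjoint_iff, ← Submodule.finrank_eq_zero]; omega

theorem CD.nd (h : CD G α β) : ND G (α * β - β * α) := h.facts.1

theorem CD.le_range (h : CD G α β) :
    LinearMap.range α ⊓ LinearMap.ker β ≤ LinearMap.range (α * β - β * α) :=
  h.facts.2.1 ▸ h.facts.2.2.1

theorem CD.le_range' (h : CD G α β) :
    LinearMap.range β ⊓ LinearMap.ker α ≤ LinearMap.range (α * β - β * α) := by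
  rw [← neg_sub, LinearMap.range_neg]; exact h.symm.le_range

theorem CD.map_ker_left (h : CD G α β) {α' : Module.End k M} (ha : α' ∈ SM G α) {m : M}
    (hm : (α * β - β * α) m = 0) : α' m ∈ LinearMap.range (α * β - β * α) := by
  rw [LinearMap.sub_apply, sub_eq_zero] at hm
  have h1 : (β * α) m = 0 := Submodule.disjoint_def.1 h.facts.2.2.2 _ ⟨m, hm⟩ ⟨m, rfl⟩
  obtain ⟨u, hu⟩ := h.facts.2.1.ge (⟨⟨m, rfl⟩, h1⟩ : α m ∈ LinearMap.range α ⊓ LinearMap.ker β)
  have h2 : α' (m - β u) = 0 := ha.2.1 (by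
    rw [LinearMap.mem_ker, map_sub, ← hu, Module.End.mul_apply, sub_self])
  rw [map_sub, sub_eq_zero] at h2
  exact h.le_range (h.w.range_le h.b.nn ha (mem_JJ_right (sm_self h.b.nn)) ⟨u, h2.symm⟩)

theorem CD.map_ker_J (h : CD G α β) {x : Module.End k M} (hx : x ∈ SM G α ⊔ SM G β) {m : M}
    (hm : (α * β - β * α) m = 0) : x m ∈ LinearMap.range (α * β - β * α) := by
  obtain ⟨a, ha, b, hb, rfl⟩ := Submodule.mem_sup.1 hx
  refine Submodule.add_mem _ (h.map_ker_left ha hm) ?_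
  have := h.symm.map_ker_left hb (m := m) (by rw [← neg_sub, LinearMap.neg_apply, hm, neg_zero])
  rwa [← neg_sub, LinearMap.range_neg] at this

omit [FiniteDimensional k M] in
theorem CD.mul_del (h : CD G α β) {x : Module.End k M} (hx : x ∈ JJ G α β) :
    x * (α * β - β * α) = 0 := by
  have ha := mem_JJ_left (β := β) (sm_self h.a.nn)
  have hb := mem_JJ_right (α := α) (sm_self h.b.nn)
  rw [mul_sub, ← mul_assoc, ← mul_assoc, h.w.mul3 hx ha hb, h.w.mul3 hx hb ha, sub_self]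

omit [FiniteDimensional k M] in
theorem CD.del_mul (h : CD G α β) {x : Module.End k M} (hx : x ∈ JJ G α β) :
    (α * β - β * α) * x = 0 := by
  have ha := mem_JJ_left (β := β) (sm_self h.a.nn)
  have hb := mem_JJ_right (α := α) (sm_self h.b.nn)
  rw [sub_mul, h.w.mul3 ha hb hx, h.w.mul3 hb ha hx, sub_self]

theorem CD.mul_ker (h : CD G α β) {x y : Module.End k M} (hx : x ∈ JJ G α β)
    (hy : y ∈ SM G α ⊔ SM G β) {m : M} (hm : (α * β - β * α) m = 0) : (x * y) m = 0 := by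
  obtain ⟨u, hu⟩ := h.map_ker_J hy hm
  rw [Module.End.mul_apply, ← hu, ← Module.End.mul_apply, h.mul_del hx]; rfl

theorem CD.map_ker (h : CD G α β) {x : Module.End k M} (hx : x ∈ JJ G α β) {m : M}
    (hm : (α * β - β * α) m = 0) : x m ∈ LinearMap.range (α * β - β * α) := by
  obtain ⟨a, ha, b, hb, rfl⟩ := Submodule.mem_sup.1 hx
  refine Submodule.add_mem _ (h.map_ker_J ha hm) ?_
  refine Submodule.mul_induction_on hb (fun x hx y hy => ?_) fun x y h1 h2 =>
    Submodule.add_mem _ h1 h2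
  rw [h.mul_ker (Submodule.mem_sup_left hx) hy hm]
  exact Submodule.zero_mem _

theorem CD.comm_mem (h : CD G α β) {α' β' : Module.End k M} (ha : α' ∈ SM G α)
    (hb : β' ∈ SM G β) : α' * β' - β' * α' ∈ SM G (α * β - β * α) := by
  refine sm_mk h.nd.nn.1 (h.w.nn_comm ha hb) (fun m hm => ?_) ?_
  · rw [LinearMap.mem_ker, LinearMap.sub_apply,
      h.mul_ker (mem_JJ_left ha) (Submodule.mem_sup_right hb) hm,
      h.mul_ker (mem_JJ_right hb) (Submodule.mem_sup_left ha) hm, sub_self]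
  · rintro _ ⟨m, rfl⟩
    exact Submodule.sub_mem _ (h.le_range (h.w.range_le h.b.nn ha (mem_JJ_right hb) ⟨m, rfl⟩))
      (h.le_range' (h.w.symm.range_le h.a.nn hb (mem_JJ_right ha) ⟨m, rfl⟩))

theorem ND.mem_SM_symm (hα : ND G α) (h : ξ ∈ SM G α) (h0 : ξ ≠ 0) : α ∈ SM G ξ := by
  rw [hα.SM_eq h h0]; exact sm_self hα.nn

theorem CD.comm_ne (h : CD G α β) {α' β' : Module.End k M} (ha : α' ∈ SM G α)
    (hb : β' ∈ SM G β) (ha0 : α' ≠ 0) (hb0 : β' ≠ 0) : α' * β' - β' * α' ≠ 0 := by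
  intro e
  rw [sub_eq_zero] at e
  have h1 : α' * β' = 0 := by
    ext m
    refine Submodule.disjoint_def.1 h.facts.2.2.2 _ ?_ ?_
    · rw [h.facts.2.1]; exact h.w.range_le h.b.nn ha (mem_JJ_right hb) ⟨m, rfl⟩
    · rw [h.symm.facts.2.1, e]; exact h.w.symm.range_le h.a.nn hb (mem_JJ_right ha) ⟨m, rfl⟩
  have a1 := h.a.mem_SM_symm ha ha0
  have b1 := h.b.mem_SM_symm hb hb0
  exact h.ne (by rw [sm_left b1 (sm_right a1 h1), sm_left a1 (sm_right b1 (e ▸ h1)), sub_self])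

variable (h2 : (2 : k) ≠ 0) (h3 : Nat.card k ≠ 3)
include h2 h3

theorem op_conj {g : LinearMap.GeneralLinearGroup k M} (hg : g ∈ G) (hα : ND G α) (hβ : ND G β) :
    OP (g.1 * α * (g⁻¹ : LinearMap.GeneralLinearGroup k M).1)
      (g.1 * β * (g⁻¹ : LinearMap.GeneralLinearGroup k M).1) ↔ OP α β := by
  rw [op_iff h2 h3 (hα.conj' hg) (hβ.conj' hg), op_iff h2 h3 hα hβ, conj_mul3, Ne, conj_eq_zero]

theorem exists_op (hG : NoUnip G) (hα : ND G α) : ∃ β, ND G β ∧ OP α β := by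
  by_contra hn
  push Not at hn
  refine EG_ne_bot hα (hG.eq_bot (W := {A | ∃ g ∈ G, A = cj g (EG G α)}) ?_ ?_ ?_
    ⟨1, G.one_mem, (cj_one _).symm⟩)
  · rintro _ ⟨g, hg, rfl⟩
    exact cj_le_of_mem hg EG_le
  · rintro _ ⟨g, hg, rfl⟩ g' hg'
    exact ⟨g' * g, G.mul_mem hg' hg, cj_cj _ _ _⟩
  · rintro _ ⟨g, hg, rfl⟩ _ ⟨g', hg', rfl⟩
    rw [cj_EG hg, cj_EG hg']
    refine (w3_of_not_op h2 h3 (fun h => ?_) (hα.conj' hg) (hα.conj' hg')).unip
    have := (op_conj h2 h3 (G.inv_mem hg) (hα.conj' hg) (hα.conj' hg')).2 h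
    rw [conj_conj_inv] at this
    exact hn _ ((hα.conj' hg').conj' (G.inv_mem hg)) this

theorem OP.finrank_eq (h : OP α β) (hα : ND G α) (hβ : ND G β) :
    Module.finrank k (SM G α) = Module.finrank k (SM G β) := by
  obtain ⟨β', h4, h5, h6⟩ := h.partner h2 h3 hα hβ (sm_self hα.nn) hα.ne
  rw [← hβ.SM_eq h4 h5, ← finrank_SM_conj' (α := α) h4.1.un_mem,
    ← finrank_SM_conj' (α := β') hα.nn.un_mem, un_val, un_val, un_inv_val, un_inv_val, h6.conj_eq,
    SM_neg]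

theorem CD.exists_op (hG : NoUnip G) (h : CD G α β) : ∃ ε, ND G ε ∧ OP (α * β - β * α) ε ∧
    ∃ g ∈ EG G α, OP (g.1 * β * (g⁻¹ : LinearMap.GeneralLinearGroup k M).1) ε := by
  obtain ⟨ε, h4, h5⟩ := Root.exists_op h2 h3 hG h.nd
  refine ⟨ε, h4, h5, ?_⟩
  by_contra hn
  push Not at hn
  set δ := α * β - β * α with hδ
  have key : ∀ c : k, (β + c • δ) * ε * (β + c • δ) = 0 := by
    intro c
    have m := un_mem_EG (Submodule.smul_mem _ c (sm_self h.a.nn))
    have := hn _ m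
    rw [op_iff h2 h3 (h.b.conj' (EG_le m)) h4, not_not, un_val, un_inv_val] at this
    have e : (1 + c • α) * β * (1 - c • α) = β + c • δ := by
      have ha := mem_JJ_left (β := β) (sm_self h.a.nn)
      have := h.w.mul3 ha (mem_JJ_right (sm_self h.b.nn)) ha
      simp only [hδ, add_mul, mul_sub, one_mul, mul_one, smul_mul_assoc, mul_smul_comm, this,
        smul_zero, smul_sub, add_zero]
      abel
    rwa [e] at this
  have k0 := key 0
  have k1 := key 1
  have k2 := key (-1)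
  simp only [zero_smul, add_zero, one_smul, neg_smul] at k0 k1 k2
  have : (2 : k) • (δ * ε * δ) = (β + δ) * ε * (β + δ) + (β + -δ) * ε * (β + -δ) -
      (β * ε * β + β * ε * β) := by
    rw [two_smul]; noncomm_ring
  rw [k0, k1, k2] at this
  exact h5.ne h.ne ((smul_eq_zero.1 (by simpa using this)).resolve_left h2)

theorem CD.finrank_eq (hG : NoUnip G) (h : CD G α β) :
    Module.finrank k (SM G β) = Module.finrank k (SM G (α * β - β * α)) := by
  obtain ⟨ε, h4, h5, g, hg, h6⟩ := h.exists_op h2 h3 hG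
  rw [h5.finrank_eq h2 h3 h.nd h4, ← h6.finrank_eq h2 h3 (h.b.conj' (EG_le hg)) h4,
    finrank_SM_conj' (EG_le hg)]

theorem CD.surj (hG : NoUnip G) (h : CD G α β) {α' δ' : Module.End k M} (ha : α' ∈ SM G α)
    (ha0 : α' ≠ 0) (hd : δ' ∈ SM G (α * β - β * α)) : ∃ β' ∈ SM G β, δ' = α' * β' - β' * α' := by
  let L : SM G β →ₗ[k] SM G (α * β - β * α) :=
    { toFun := fun x => ⟨_, h.comm_mem ha x.2⟩
      map_add' := fun x y => by ext1; simp only [Submodule.coe_add, mul_add, add_mul]; abel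
      map_smul' := fun c x => by ext1; simp [smul_sub] }
  have hL : Function.Injective L := by
    rw [injective_iff_map_eq_zero]
    intro x hx
    by_contra h0
    exact h.comm_ne ha x.2 ha0 (fun e => h0 (Subtype.ext e)) (congrArg Subtype.val hx)
  obtain ⟨x, hx⟩ := (LinearMap.injective_iff_surjective_of_finrank_eq_finrank
    (h.finrank_eq h2 h3 hG)).1 hL ⟨δ', hd⟩
  exact ⟨x, x.2, (congrArg Subtype.val hx).symm⟩

omit h2 h3 in
theorem CD.comm_un (h : CD G α β) {α' β' : Module.End k M} (ha : α' ∈ SM G α)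
    (hb : β' ∈ SM G β) : ⁅un α' ha.1.1, un β' hb.1.1⁆ = un _ (h.comm_mem ha hb).1.1 := by
  ext1
  have := h.w.comm_val (g := un α' ha.1.1) (g' := un β' hb.1.1) (by simpa using mem_JJ_left ha)
    (by simpa using mem_JJ_right hb)
  rw [sub_eq_iff_eq_add] at this
  rw [this]; simp [add_comm]

omit h2 h3 in
theorem CD.comm_le (h : CD G α β) : ⁅EG G α, EG G β⁆ ≤ EG G (α * β - β * α) := by
  rw [Subgroup.commutator_le]
  intro a ha b hb
  obtain ⟨α', h4, rfl⟩ := mem_EG'.1 ha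
  obtain ⟨β', h5, rfl⟩ := mem_EG'.1 hb
  rw [h.comm_un h4 h5]
  exact un_mem_EG (h.comm_mem h4 h5)

theorem CD.surj' (hG : NoUnip G) (h : CD G α β) {a c : LinearMap.GeneralLinearGroup k M}
    (ha : a ∈ EG G α) (ha1 : a ≠ 1) (hc : c ∈ EG G (α * β - β * α)) :
    ∃ b ∈ EG G β, c = ⁅a, b⁆ := by
  obtain ⟨α', h4, rfl⟩ := mem_EG'.1 ha
  obtain ⟨δ', h5, rfl⟩ := mem_EG'.1 hc
  obtain ⟨β', h6, rfl⟩ := h.surj h2 h3 hG h4 (fun e => ha1 (Units.ext (by simp [e]))) h5
  exact ⟨_, un_mem_EG h6, (h.comm_un h4 h6).symm⟩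

theorem CD.comm_eq (hG : NoUnip G) (h : CD G α β) : ⁅EG G α, EG G β⁆ = EG G (α * β - β * α) := by
  refine le_antisymm h.comm_le fun c hc => ?_
  obtain ⟨b, hb, rfl⟩ := h.surj' h2 h3 hG (un_mem_EG (sm_self h.a.nn)) (un_ne_one h.a.ne) hc
  exact Subgroup.commutator_mem_commutator (un_mem_EG (sm_self h.a.nn)) hb

omit h2 h3 [FiniteDimensional k M] in
theorem CD.com (h : CD G α β) : Com (EG G (α * β - β * α)) (EG G α ⊔ EG G β) := by
  intro c hc x hx
  have h4 := h.w.mem hx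
  have e1 := sm_right hc (h.del_mul h4)
  have e2 := sm_left hc (h.mul_del h4)
  ext1
  rw [← sub_left_inj (a := 1), mul_sub_one', mul_sub_one', e1, e2, add_comm (c.1 - 1)]

theorem CD.cc (hG : NoUnip G) (h : CD G α β) : CC (EG G α) (EG G β) := by
  have e := h.comm_eq h2 h3 hG
  refine ⟨e ▸ h.com.mono le_rfl le_sup_left, e ▸ h.com.mono le_rfl le_sup_right,
    fun a ha ha1 c hc => h.surj' h2 h3 hG ha ha1 (e ▸ hc), fun b hb hb1 c hc => ?_⟩
  rw [Subgroup.commutator_comm, h.symm.comm_eq h2 h3 hG] at hc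
  obtain ⟨a, ha, e'⟩ := h.symm.surj' h2 h3 hG hb hb1 (inv_mem hc)
  exact ⟨a, ha, by rw [← commutatorElement_inv, ← e', inv_inv]⟩

omit h2 h3 in
theorem CD.core (h : CD G α β) : ((EG G α ⊔ EG G β : Subgroup _) : Set _) ⊆
    quadraticUnipotentCore G (EG G (α * β - β * α)) := by
  intro g hg
  have h4 := h.w.mem hg
  refine ⟨(sup_le EG_le EG_le : EG G α ⊔ EG G β ≤ G) hg, cj_eq_self_iff.1 (h.com.symm.cj_eq hg),
    ?_, ?_, ?_⟩
  · intro m
    rw [fixed_EG h.nd.nn]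
    exact LinearMap.congr_fun (h.del_mul h4) m
  · intro m hm
    rw [fixed_EG h.nd.nn] at hm
    rw [comm_EG h.nd.nn]
    exact h.map_ker h4 hm
  · intro m hm
    rw [comm_EG h.nd.nn] at hm
    obtain ⟨u, rfl⟩ := hm
    exact sub_eq_zero.1 (LinearMap.congr_fun (h.mul_del h4) u)

theorem exists_cd (hα : ND G α) (hβ : ND G β) (h : ¬ OP α β) (hc : ¬ Com (EG G α) (EG G β)) :
    ∃ α' β', CD G α' β' ∧ EG G α = EG G α' ∧ EG G β = EG G β' := by
  rw [Com] at hc
  push Not at hc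
  obtain ⟨a, ha, b, hb, hne⟩ := hc
  obtain ⟨α', h4, rfl⟩ := mem_EG'.1 ha
  obtain ⟨β', h5, rfl⟩ := mem_EG'.1 hb
  have h0 : α' * β' - β' * α' ≠ 0 := fun e => hne (Units.ext (by
    rw [sub_eq_zero] at e
    simp only [Units.val_mul, un_val, add_mul, mul_add, one_mul, mul_one, e]; abel))
  have ha0 : α' ≠ 0 := fun e => h0 (by simp [e])
  have hb0 : β' ≠ 0 := fun e => h0 (by simp [e])
  refine ⟨α', β', ⟨(hα.sm h4 ha0).1, (hβ.sm h5 hb0).1, ?_, h0⟩, (EG_congr (hα.SM_eq h4 ha0)).symm,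
    (EG_congr (hβ.SM_eq h5 hb0)).symm⟩
  have := w3_of_not_op h2 h3 h hα hβ
  rwa [W3, ← hα.SM_eq h4 ha0, ← hβ.SM_eq h5 hb0] at this

omit h2 h3 in
theorem qrs_cj {A : Subgroup (LinearMap.GeneralLinearGroup k M)} (hA : A ∈ quadraticRootSubgroups G)
    {g : LinearMap.GeneralLinearGroup k M} (hg : g ∈ G) : cj g A ∈ quadraticRootSubgroups G := by
  obtain ⟨α, hα, rfl⟩ := mem_qrs.1 hA
  exact mem_qrs.2 ⟨_, hα.conj' hg, cj_EG hg⟩

omit h2 h3 in
theorem qrs_le {A : Subgroup (LinearMap.GeneralLinearGroup k M)}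
    (hA : A ∈ quadraticRootSubgroups G) : A ≤ G := by
  obtain ⟨α, hα, rfl⟩ := mem_qrs.1 hA
  exact EG_le

theorem qrs_rs (hG : NoUnip G) : RS (quadraticRootSubgroups G) where
  com := fun A hA => by obtain ⟨α, hα, rfl⟩ := mem_qrs.1 hA; exact EG_com
  ne_bot := fun A hA => by obtain ⟨α, hα, rfl⟩ := mem_qrs.1 hA; exact EG_ne_bot hα
  cj_mem := fun A hA B hB g hg => qrs_cj hA (qrs_le hB hg)
  tri := fun A hA B hB => by
    obtain ⟨α, hα, rfl⟩ := mem_qrs.1 hA
    obtain ⟨β, hβ, rfl⟩ := mem_qrs.1 hB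
    by_cases h : OP α β
    · exact Or.inr (Or.inl (h.r1 h2 h3 hα hβ))
    by_cases hc : Com (EG G α) (EG G β)
    · exact Or.inl hc
    obtain ⟨α', β', h4, e1, e2⟩ := exists_cd h2 h3 hα hβ h hc
    rw [e1, e2]
    exact Or.inr (Or.inr ⟨mem_qrs.2 ⟨_, h4.nd, h4.comm_eq h2 h3 hG⟩, h4.cc h2 h3 hG⟩)

theorem qrs_ni (hG : NoUnip G) {A : Subgroup (LinearMap.GeneralLinearGroup k M)}
    (hA : A ∈ quadraticRootSubgroups G) : NI (quadraticRootSubgroups G) A := by
  obtain ⟨α, hα, rfl⟩ := mem_qrs.1 hA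
  obtain ⟨β, hβ, h⟩ := exists_op h2 h3 hG hα
  exact ⟨_, mem_qrs.2 ⟨β, hβ, rfl⟩, h.r1 h2 h3 hα hβ⟩

theorem op_of_r1 (hG : NoUnip G) (hα : ND G α) (hβ : ND G β)
    (h : IsRankOnePair (EG G α) (EG G β)) : OP α β := by
  by_contra hn
  obtain ⟨α', β', h4, e1, e2⟩ := exists_cd h2 h3 hα hβ hn (r1_not_com h)
  rw [e1, e2] at h
  exact (h4.cc h2 h3 hG).not_r1 EG_com EG_com h

theorem qrs_unip (hG : NoUnip G) {A B : Subgroup (LinearMap.GeneralLinearGroup k M)}
    (hA : A ∈ quadraticRootSubgroups G) (hB : B ∈ quadraticRootSubgroups G)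
    (h : ¬ IsRankOnePair A B) (hc : ¬ Com A B) :
    ⁅A, B⁆ ∈ quadraticRootSubgroups G ∧ CC A B ∧
      ((A ⊔ B : Subgroup _) : Set _) ⊆ quadraticUnipotentCore G ⁅A, B⁆ := by
  obtain ⟨α, hα, rfl⟩ := mem_qrs.1 hA
  obtain ⟨β, hβ, rfl⟩ := mem_qrs.1 hB
  obtain ⟨α', β', h4, e1, e2⟩ := exists_cd h2 h3 hα hβ (fun h' => h (h'.r1 h2 h3 hα hβ)) hc
  rw [e1, e2]
  refine ⟨mem_qrs.2 ⟨_, h4.nd, h4.comm_eq h2 h3 hG⟩, h4.cc h2 h3 hG, ?_⟩
  rw [h4.comm_eq h2 h3 hG]
  exact h4.core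

end Fin

end Cfsg.Agent.Root
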