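import Mathlib
import Cfsg.Agent.Root.Q7
import Cfsg.Agent.Root.Cmp

/-! The components of the set of root subgroups of a quadratic pair. -/

set_option autoImplicit false

namespace Cfsg.Agent.Root

open Polynomial Matrix Cfsg.Agent.LocalEven
open scoped MatrixGroups commutatorElement

variable {k : Type*} [Field k] {M : Type*} [AddCommGroup M] [Module k M]
variable {G : Subgroup (LinearMap.GeneralLinearGroup k M)} {α β ξ : Module.End k M}

/-- the representation of `SL₂(k)` attached to matrix units -/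
def MU.hom0 (h : MU α β) : SL(2, k) →* Module.End k M where
  toFun m := 1 + (m.1 0 0 - 1) • (α * β) + m.1 0 1 • α + m.1 1 0 • β + (m.1 1 1 - 1) • (β * α)
  map_one' := by simp
  map_mul' m m' := by
    have ha' : ∀ x, α * (α * x) = 0 := fun x => by rw [← mul_assoc, h.aa, zero_mul]
    have hb' : ∀ x, β * (β * x) = 0 := fun x => by rw [← mul_assoc, h.bb, zero_mul]
    have h1' : ∀ x, α * (β * (α * x)) = α * x := fun x => by rw [← mul_assoc, ← mul_assoc, h.aba]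
    have h2' : ∀ x, β * (α * (β * x)) = β * x := fun x => by rw [← mul_assoc, ← mul_assoc, h.bab]
    have h1 := h.aba
    have h2 := h.bab
    rw [mul_assoc] at h1 h2
    have e : ∀ i j, (m * m').1 i j = m.1 i 0 * m'.1 0 j + m.1 i 1 * m'.1 1 j := fun i j => by
      simp [Matrix.mul_apply, Fin.sum_univ_two]
    simp only [e, mul_add, add_mul,
      one_mul, mul_one, smul_mul_assoc, mul_smul_comm, mul_assoc, ha', hb', h1', h2', h1, h2, h.aa,
      h.bb, mul_zero, zero_mul, smul_zero, add_zero, zero_add]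
    module

theorem three_lt_card (h2 : (2 : k) ≠ 0) (h3 : Nat.card k ≠ 3) : 3 < ENat.card k := by
  obtain ⟨t, ht, ht2⟩ := exists_sq_ne_one h2 h3
  have h4 : t ≠ 1 := fun e => ht2 (by rw [e, one_pow])
  have h5 : t ≠ -1 := fun e => ht2 (by rw [e, neg_one_sq])
  have h6 : (1 : k) ≠ -1 := fun e => h2 (by linear_combination e)
  let f : Fin 4 → k := ![0, 1, -1, t]
  have hf : Function.Injective f := by
    intro i j e
    fin_cases i <;> fin_cases j <;> simp_all [f, eq_comm]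
  have := ENat.card_le_card_of_injective hf
  rw [ENat.card_eq_coe_fintype_card, Fintype.card_fin] at this
  exact lt_of_lt_of_le (by norm_num) this

theorem MU.psl2 (h : MU α β) (h0 : α ≠ 0) (hα : NN G α) (hβ : NN G β) :
    ∃ A₀ B₀ : Subgroup (LinearMap.GeneralLinearGroup k M), A₀ ≤ EG G α ∧ B₀ ≤ EG G β ∧
      IsPSL2PairOver k A₀ B₀ := by
  let φ := h.hom0.toHomUnits
  have e1 : ∀ t : k, (φ (mU t) : M →ₗ[k] M) = 1 + t • α := fun t => by
    simp [φ, MU.hom0]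
  have e2 : ∀ t : k, (φ (mL t) : M →ₗ[k] M) = 1 + t • β := fun t => by
    simp [φ, MU.hom0]
  refine ⟨(upperUnipotentSL2 k).map φ, (lowerUnipotentSL2 k).map φ, ?_, ?_, φ, ?_, ?_, rfl, rfl⟩
  · rintro _ ⟨g, hg, rfl⟩
    obtain ⟨t, rfl⟩ := mem_upper.1 hg
    rw [mem_EG, e1, add_sub_cancel_left]
    exact Submodule.smul_mem _ _ (sm_self hα)
  · rintro _ ⟨g, hg, rfl⟩
    obtain ⟨t, rfl⟩ := mem_lower.1 hg
    rw [mem_EG, e2, add_sub_cancel_left]
    exact Submodule.smul_mem _ _ (sm_self hβ)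
  · rw [← Subgroup.map_sup, upper_sup_lower, MonoidHom.range_eq_map]
  · refine sl2_ker_le_center φ ⟨1, 1, fun e => h0 ?_⟩
    have := congrArg Units.val e
    rw [Units.val_mul, Units.val_mul, e1, e2, one_smul, one_smul] at this
    have e3 : α * β = β * α := by
      have e4 : α * β - β * α = (1 + α) * (1 + β) - (1 + β) * (1 + α) := by noncomm_ring
      rw [this, sub_self, sub_eq_zero] at e4
      exact e4
    rw [← h.aba, e3, mul_assoc, h.aa, mul_zero]

theorem three_lt_card_EG (h2 : (2 : k) ≠ 0) (h3 : Nat.card k ≠ 3) (hα : ND G α) :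
    3 < ENat.card (EG G α) := by
  refine lt_of_lt_of_le (three_lt_card h2 h3) (ENat.card_le_card_of_injective
    (f := fun c : k => (⟨_, un_mem_EG (Submodule.smul_mem _ c (sm_self hα.nn))⟩ : EG G α)) ?_)
  intro c d e
  have := congrArg (fun x : EG G α => ((x : LinearMap.GeneralLinearGroup k M) : M →ₗ[k] M)) e
  simp only [un_val, add_right_inj] at this
  exact smul_left_injective k hα.ne this

theorem unip_cj {U : Subgroup (LinearMap.GeneralLinearGroup k M)} (h : IsUnipotentOn U)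
    (g : LinearMap.GeneralLinearGroup k M) : IsUnipotentOn (cj g U) := by
  obtain ⟨n, hn⟩ := unip_iff.1 h
  have key : ∀ n : ℕ, ∀ x ∈ aug (cj g U) ^ n, ((g⁻¹ : LinearMap.GeneralLinearGroup k M) : M →ₗ[k] M)
      * x * (g⁻¹⁻¹ : LinearMap.GeneralLinearGroup k M) ∈ aug U ^ n := by
    intro n
    induction n with
    | zero =>
      intro x hx
      rw [pow_zero] at hx ⊢
      obtain ⟨c, rfl⟩ := Submodule.mem_one.1 hx
      rw [← Algebra.commutes, mul_assoc, Units.mul_inv, mul_one]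
      exact Submodule.algebraMap_mem c
    | succ n ih =>
      intro x hx
      rw [pow_succ] at hx ⊢
      refine Submodule.mul_induction_on hx (fun a ha b hb => ?_) fun x y h1 h2 => ?_
      · have := Submodule.mul_mem_mul (ih a ha) (conj_mem_aug (cj_inv_cj g U).le hb)
        simpa [mul_assoc] using this
      · rw [mul_add, add_mul]; exact Submodule.add_mem _ h1 h2
  refine unip_iff.2 ⟨n, le_bot_iff.1 fun x hx => ?_⟩
  have := key n x hx
  rw [hn] at this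
  exact conj_eq_zero.1 this

section Fin

variable [FiniteDimensional k M]

theorem NoUnip.sub (hG : NoUnip G) {X : Subgroup (LinearMap.GeneralLinearGroup k M)} (hX : X ≤ G)
    (h : ∀ g ∈ G, cj g X ≤ X ∨ Com (cj g X) X) : NoUnip X := by
  intro U hU hn hu
  refine hG.eq_bot (W := {A | ∃ g ∈ G, A = cj g U}) ?_ ?_ ?_ ⟨1, G.one_mem, (cj_one _).symm⟩
  · rintro _ ⟨g, hg, rfl⟩
    exact cj_le_of_mem hg (hU.trans hX)
  · rintro _ ⟨g, hg, rfl⟩ g' hg'
    exact ⟨g' * g, G.mul_mem hg' hg, cj_cj _ _ _⟩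
  · rintro _ ⟨g, hg, rfl⟩ _ ⟨g', hg', rfl⟩
    have e : cj g U ⊔ cj g' U = cj g (U ⊔ cj (g⁻¹ * g') U) := by
      rw [cj_sup, cj_cj, mul_inv_cancel_left]
    rw [e]
    refine unip_cj (unip_sup_of_norm hu (unip_cj hu _) fun b hb => ?_) g
    rcases h _ (G.mul_mem (G.inv_mem hg) hg') with h1 | h1
    · exact hn b (h1 (cj_mono _ hU hb))
    · exact ((h1.mono (cj_mono _ hU) hU).cj_eq hb).le

theorem com_of_cm {T : Set (Subgroup (LinearMap.GeneralLinearGroup k M))} (hT : RS T)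
    (hX : NoUnip (⨆ E ∈ T, E)) (hu : ∀ A ∈ T, IsUnipotentOn A)
    (N : Subgroup (LinearMap.GeneralLinearGroup k M)) (hle : N ≤ ⨆ E ∈ T, E)
    (hN : ∀ g ∈ ⨆ E ∈ T, E, cj g N ≤ N)
    (h : ∀ B ∈ T, ∀ n ∈ N, ∀ E ∈ T, Com E B → Com E (cj n B)) : Com N (⨆ E ∈ T, E) := by
  let W : Subgroup (LinearMap.GeneralLinearGroup k M) →
      Set (Subgroup (LinearMap.GeneralLinearGroup k M)) :=
    fun A => {C | C ∈ T ∧ ∀ E ∈ T, Com E A ↔ Com E C}
  have hcj := fun g (hg : g ∈ ⨆ E ∈ T, E) => hT.cj_mem_iSup subset_rfl hg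
  have w1 : ∀ A, ∀ g ∈ ⨆ E ∈ T, E, ∀ C ∈ W A, cj g C ∈ W (cj g A) := by
    intro A g hg C hC
    refine ⟨hcj g hg C hC.1, fun E hE => ?_⟩
    rw [← cj_cj_inv g E, com_cj_iff, com_cj_iff]
    exact hC.2 _ (hcj _ (inv_mem hg) E hE)
  have w2 : ∀ A, ∀ n ∈ N, ∀ C ∈ W A, cj n C ∈ W A := by
    intro A n hn C hC
    have h1 := hcj n (hle hn) C hC.1
    refine ⟨h1, fun E hE => (hC.2 E hE).trans ⟨h C hC.1 n hn E hE, fun h' => ?_⟩⟩
    have := h _ h1 _ (inv_mem hn) E hE h'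
    rwa [cj_inv_cj] at this
  have w3 : ∀ A, IsUnipotentOn (⨆ C ∈ W A, C) := by
    intro A
    have hc : ∀ C ∈ W A, ∀ D ∈ W A, Com C D := fun C hC D hD =>
      (hD.2 C hC.1).1 ((hC.2 C hC.1).2 (hT.com C hC.1))
    exact unip_iSup (fun C hC D hD c hc' => ((hc C hC D hD).cj_eq hc').symm ▸ hD)
      fun C hC D hD => unip_sup_of_com (hu C hC.1) (hu D hD.1) (hc C hC D hD)
  have key : ∀ A ∈ T, (⨆ C ∈ W A, C) ⊓ N = ⊥ := by
    intro A hA
    refine hX.eq_bot (W := {U | ∃ A ∈ T, U ≤ (⨆ C ∈ W A, C) ⊓ N}) ?_ ?_ ?_ ⟨A, hA, le_rfl⟩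
    · rintro U ⟨A, -, h1⟩
      exact h1.trans (inf_le_right.trans hle)
    · rintro U ⟨A, hA, h1⟩ g hg
      refine ⟨cj g A, hcj g hg A hA, (cj_mono g h1).trans ?_⟩
      rw [cj_inf]
      exact inf_le_inf (cj_iSup_le (w1 A g hg)) (hN g hg)
    · rintro U ⟨A, -, h1⟩ U' ⟨A', -, h1'⟩
      exact unip_mono (unip_sup_of_norm (w3 A) (unip_mono (w3 A') (h1'.trans inf_le_left))
        fun b hb => cj_iSup_le (w2 A b (h1' hb).2)) (sup_le_sup_right (h1.trans inf_le_left) _)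
  refine (com_iSup fun A hA a ha n hn => ?_).symm
  have hA' : A ∈ W A := ⟨hA, fun _ _ => Iff.rfl⟩
  have : ⁅n, a⁆ ∈ (⨆ C ∈ W A, C) ⊓ N := by
    refine Subgroup.mem_inf.2 ⟨Subgroup.mul_mem _ (le_iSup_mem (w2 A n hn A hA') (conj_mem_cj ha))
      (Subgroup.inv_mem _ (le_iSup_mem hA' ha)), ?_⟩
    have : ⁅n, a⁆ = n * (a * n⁻¹ * a⁻¹) := by simp only [commutatorElement_def]; group
    rw [this]
    exact mul_mem hn (hN a (le_iSup_mem hA ha) (conj_mem_cj (inv_mem hn)))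
  rw [key A hA, Subgroup.mem_bot, commutatorElement_eq_one_iff_mul_comm] at this
  exact this.symm

variable (h2 : (2 : k) ≠ 0) (h3 : Nat.card k ≠ 3) (hG : NoUnip G)
include h2 h3 hG

theorem qrs_psl2 {A B : Subgroup (LinearMap.GeneralLinearGroup k M)}
    (hA : A ∈ quadraticRootSubgroups G) (hB : B ∈ quadraticRootSubgroups G)
    (h : IsRankOnePair A B) : ∃ A₀ B₀ : Subgroup (LinearMap.GeneralLinearGroup k M), A₀ ≤ A ∧
      B₀ ≤ B ∧ IsPSL2PairOver k A₀ B₀ := by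
  obtain ⟨α, hα, rfl⟩ := mem_qrs.1 hA
  obtain ⟨β, hβ, rfl⟩ := mem_qrs.1 hB
  obtain ⟨β', h4, h5, h6⟩ :=
    (op_of_r1 h2 h3 hG hα hβ h).partner h2 h3 hα hβ (sm_self hα.nn) hα.ne
  rw [← EG_congr (hβ.SM_eq h4 h5)]
  exact h6.psl2 hα.ne hα.nn h4.1

theorem qrs_perfect {A B : Subgroup (LinearMap.GeneralLinearGroup k M)}
    (hA : A ∈ quadraticRootSubgroups G) (hB : B ∈ quadraticRootSubgroups G)
    (h : IsRankOnePair A B) : ⁅A ⊔ B, A ⊔ B⁆ = A ⊔ B := by
  obtain ⟨α, hα, rfl⟩ := mem_qrs.1 hA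
  obtain ⟨β, hβ, rfl⟩ := mem_qrs.1 hB
  exact sp_perfect h ((op_of_r1 h2 h3 hG hα hβ h).sp h2 h3 hα hβ) EG_com
    (three_lt_card_EG h2 h3 hα)

theorem noUnip_cmp (A : Subgroup (LinearMap.GeneralLinearGroup k M)) :
    NoUnip (⨆ E ∈ Cmp (quadraticRootSubgroups G) A, E) := by
  refine hG.sub (iSup₂_le fun E hE => qrs_le hE.1) fun g hg => ?_
  have h4 := cj_iSup_le fun B (hB : B ∈ Cmp (quadraticRootSubgroups G) A) =>
    cj_cmp (fun A hA => qrs_cj hA hg) hB
  by_cases e : Cmp (quadraticRootSubgroups G) (cj g A) = Cmp (quadraticRootSubgroups G) A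
  · exact Or.inl (e ▸ h4)
  · exact Or.inr (((qrs_rs h2 h3 hG).com_cmp (fun A hA => qrs_ni h2 h3 hG hA) e).mono h4 le_rfl)

theorem qrs_quasisimple {A : Subgroup (LinearMap.GeneralLinearGroup k M)}
    (hA : A ∈ quadraticRootSubgroups G) :
    IsQuasisimple ↥(⨆ E ∈ Cmp (quadraticRootSubgroups G) A, E) :=
  (qrs_rs h2 h3 hG).quasisimple (fun A hA => qrs_ni h2 h3 hG hA) hA
    (fun A hA B hB h => qrs_perfect h2 h3 hG hA hB h)
    (com_of_cm ((qrs_rs h2 h3 hG).cmp (fun A hA => qrs_ni h2 h3 hG hA) A) (noUnip_cmp h2 h3 hG A)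
      fun B hB => by obtain ⟨β, -, rfl⟩ := mem_qrs.1 hB.1; exact unip_EG)

theorem finite_cmp :
    Finite {T | ∃ A ∈ quadraticRootSubgroups G, T = Cmp (quadraticRootSubgroups G) A} := by
  have hR := qrs_rs h2 h3 hG
  have hni : ∀ A ∈ quadraticRootSubgroups G, NI _ A := fun A hA => qrs_ni h2 h3 hG hA
  have key : ∀ T : {T | ∃ A ∈ quadraticRootSubgroups G, T = Cmp (quadraticRootSubgroups G) A},
      ∃ α β : Module.End k M, ∃ (ha : α * α = 0) (hb : β * β = 0), un α ha ∈ ⨆ E ∈ T.1, E ∧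
        un β hb ∈ ⨆ E ∈ T.1, E ∧ α * β - β * α ≠ 0 := by
    rintro ⟨_, A, hA, rfl⟩
    obtain ⟨α, hα, rfl⟩ := mem_qrs.1 hA
    obtain ⟨β, hβ, h⟩ := exists_op h2 h3 hG hα
    refine ⟨α, β, hα.nn.1, hβ.nn.1, le_iSup_mem (self_mem_cmp hA) (un_mem_EG (sm_self hα.nn)),
      le_iSup_mem (T := Cmp (quadraticRootSubgroups G) (EG G α)) (A := EG G β)
        ⟨mem_qrs.2 ⟨β, hβ, rfl⟩, Relation.ReflTransGen.single
        ⟨hA, mem_qrs.2 ⟨β, hβ, rfl⟩, h.r1 h2 h3 hα hβ⟩⟩ (un_mem_EG (sm_self hβ.nn)), fun e => ?_⟩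
    rw [sub_eq_zero] at e
    exact h.ne hα.ne (by rw [e, mul_assoc, hα.nn.1, mul_zero])
  choose a b ha hb h4 h5 h6 using key
  have hc : ∀ T T', T ≠ T' → a T * b T' - b T' * a T = 0 := by
    rintro ⟨T, A, hA, rfl⟩ ⟨T', B, hB, rfl⟩ hne
    have := congrArg Units.val (hR.com_cmp hni (fun e => hne (Subtype.ext e)) _ (h4 ⟨_, A, hA, rfl⟩)
      _ (h5 ⟨_, B, hB, rfl⟩))
    rw [Units.val_mul, Units.val_mul, un_val, un_val] at this
    have e4 : ∀ x y : Module.End k M, x * y - y * x = (1 + x) * (1 + y) - (1 + y) * (1 + x) :=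
      fun x y => by noncomm_ring
    rw [e4, this, sub_self]
  have hli : LinearIndependent k a := by
    classical
    rw [linearIndependent_iff']
    intro s g hs j hj
    have h7 : (∑ i ∈ s, g i • a i) * b j - b j * (∑ i ∈ s, g i • a i) = 0 := by simp [hs]
    rw [Finset.sum_mul, Finset.mul_sum, ← Finset.sum_sub_distrib, Finset.sum_eq_single j] at h7
    · rw [smul_mul_assoc, mul_smul_comm, ← smul_sub] at h7
      exact (smul_eq_zero.1 h7).resolve_right (h6 j)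
    · intro i _ hi
      rw [smul_mul_assoc, mul_smul_comm, ← smul_sub, hc i j hi, smul_zero]
    · intro h; exact absurd hj h
  exact hli.finite

end Fin

end Cfsg.Agent.Root
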