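import Mathlib
import Cfsg.Agent.Root.Q8

/-! The decomposition of a quadratic pair into quasisimple factors. -/

set_option autoImplicit false

namespace Cfsg.Agent.Root

open Polynomial Matrix Cfsg.Agent.LocalEven
open scoped MatrixGroups commutatorElement

variable {k : Type*} [Field k] {M : Type*} [AddCommGroup M] [Module k M]
variable {G : Subgroup (LinearMap.GeneralLinearGroup k M)} {α β ξ : Module.End k M}

/-- the square zero maps of `G` which are not opposite to any minimal one -/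
def NR (G : Subgroup (LinearMap.GeneralLinearGroup k M)) (ξ : Module.End k M) : Prop :=
  NN G ξ ∧ ∀ α, ND G α → α * ξ * α = 0

/-- the subgroup generated by the `1 + ξ`, `ξ ∈ NR G` -/
def DG (G : Subgroup (LinearMap.GeneralLinearGroup k M)) :
    Subgroup (LinearMap.GeneralLinearGroup k M) :=
  Subgroup.closure {g | NR G ((g : M →ₗ[k] M) - 1)}

theorem NR.smul (h : NR G ξ) (c : k) : NR G (c • ξ) :=
  ⟨h.1.smul c, fun α hα => by rw [mul_smul_comm, smul_mul_assoc, h.2 α hα, smul_zero]⟩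

theorem NR.un_mem (h : NR G ξ) : un ξ h.1.1 ∈ DG G :=
  Subgroup.subset_closure (by simpa using h)

theorem NR.nn (h : NR G ξ) : NN (DG G) ξ := ⟨h.1.1, fun c => ⟨_, (h.smul c).un_mem, rfl⟩⟩

theorem DG_le : DG G ≤ G := by
  rw [DG, Subgroup.closure_le]
  intro g hg
  exact InG.mem (by simpa using hg.1.inG)

theorem NN.mono {H : Subgroup (LinearMap.GeneralLinearGroup k M)} (h : NN H ξ) (hle : H ≤ G) :
    NN G ξ := ⟨h.1, fun c => by obtain ⟨g, hg, e⟩ := h.2 c; exact ⟨g, hle hg, e⟩⟩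

theorem un_mul_un {η : Module.End k M} (h1 : ξ * ξ = 0) (h2 : η * η = 0) (h3 : ξ * η = 0)
    (h4 : (ξ + η) * (ξ + η) = 0) : un ξ h1 * un η h2 = un (ξ + η) h4 := by
  ext1
  simp only [Units.val_mul, un_val, add_mul, mul_add, one_mul, mul_one, h3]; abel

theorem comm_of_un {η : Module.End k M} {h1 : ξ * ξ = 0} {h2 : η * η = 0}
    (h : un ξ h1 * un η h2 = un η h2 * un ξ h1) : ξ * η = η * ξ := by
  have := congrArg Units.val h
  rw [Units.val_mul, Units.val_mul, un_val, un_val] at this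
  have e4 : ξ * η - η * ξ = (1 + ξ) * (1 + η) - (1 + η) * (1 + ξ) := by noncomm_ring
  rwa [this, sub_self, sub_eq_zero] at e4

section Fin

variable [FiniteDimensional k M]

theorem com_of_rel (hG : NoUnip G) {T : Set (Subgroup (LinearMap.GeneralLinearGroup k M))}
    (hcj : ∀ A ∈ T, ∀ g ∈ G, cj g A ∈ T) (hT : ∀ A ∈ T, A ≤ G) (hu : ∀ A ∈ T, IsUnipotentOn A)
    (R : Subgroup (LinearMap.GeneralLinearGroup k M) →
      Subgroup (LinearMap.GeneralLinearGroup k M) → Prop)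
    (hrefl : ∀ A, R A A) (htrans : ∀ A B C, R A B → R B C → R A C)
    (hRcj : ∀ g ∈ G, ∀ A C, R A C → R (cj g A) (cj g C))
    (hRc : ∀ A, ∀ C ∈ T, ∀ D ∈ T, R A C → R A D → Com C D)
    (N : Subgroup (LinearMap.GeneralLinearGroup k M)) (hle : N ≤ G) (hN : ∀ g ∈ G, cj g N ≤ N)
    (h : ∀ n ∈ N, ∀ C ∈ T, R C (cj n C)) : Com N (⨆ E ∈ T, E) := by
  let W : Subgroup (LinearMap.GeneralLinearGroup k M) →
      Set (Subgroup (LinearMap.GeneralLinearGroup k M)) := fun A => {C | C ∈ T ∧ R A C}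
  have w1 : ∀ A, ∀ g ∈ G, ∀ C ∈ W A, cj g C ∈ W (cj g A) := fun A g hg C hC =>
    ⟨hcj C hC.1 g hg, hRcj g hg A C hC.2⟩
  have w2 : ∀ A, ∀ n ∈ N, ∀ C ∈ W A, cj n C ∈ W A := fun A n hn C hC =>
    ⟨hcj C hC.1 n (hle hn), htrans _ _ _ hC.2 (h n hn C hC.1)⟩
  have w3 : ∀ A, IsUnipotentOn (⨆ C ∈ W A, C) := by
    intro A
    have hc : ∀ C ∈ W A, ∀ D ∈ W A, Com C D := fun C hC D hD => hRc A C hC.1 D hD.1 hC.2 hD.2
    exact unip_iSup (fun C hC D hD c hc' => ((hc C hC D hD).cj_eq hc').symm ▸ hD)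
      fun C hC D hD => unip_sup_of_com (hu C hC.1) (hu D hD.1) (hc C hC D hD)
  have key : ∀ A ∈ T, (⨆ C ∈ W A, C) ⊓ N = ⊥ := by
    intro A hA
    refine hG.eq_bot (W := {U | ∃ A ∈ T, U ≤ (⨆ C ∈ W A, C) ⊓ N}) ?_ ?_ ?_ ⟨A, hA, le_rfl⟩
    · rintro U ⟨A, -, h1⟩
      exact h1.trans (inf_le_right.trans hle)
    · rintro U ⟨A, hA, h1⟩ g hg
      refine ⟨cj g A, hcj A hA g hg, (cj_mono g h1).trans ?_⟩
      rw [cj_inf]
      exact inf_le_inf (cj_iSup_le (w1 A g hg)) (hN g hg)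
    · rintro U ⟨A, -, h1⟩ U' ⟨A', -, h1'⟩
      exact unip_mono (unip_sup_of_norm (w3 A) (unip_mono (w3 A') (h1'.trans inf_le_left))
        fun b hb => cj_iSup_le (w2 A b (h1' hb).2)) (sup_le_sup_right (h1.trans inf_le_left) _)
  refine (com_iSup fun A hA a ha n hn => ?_).symm
  have hA' : A ∈ W A := ⟨hA, hrefl A⟩
  have : ⁅n, a⁆ ∈ (⨆ C ∈ W A, C) ⊓ N := by
    refine Subgroup.mem_inf.2 ⟨Subgroup.mul_mem _ (le_iSup_mem (w2 A n hn A hA') (conj_mem_cj ha))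
      (Subgroup.inv_mem _ (le_iSup_mem hA' ha)), ?_⟩
    have : ⁅n, a⁆ = n * (a * n⁻¹ * a⁻¹) := by simp only [commutatorElement_def]; group
    rw [this]
    exact mul_mem hn (hN a (hT A hA ha) (conj_mem_cj (inv_mem hn)))
  rw [key A hA, Subgroup.mem_bot, commutatorElement_eq_one_iff_mul_comm] at this
  exact this.symm

theorem rad_conj {x : Module.End k M} (hx : ∀ β, ND G β → β * x * β = 0)
    {g : LinearMap.GeneralLinearGroup k M} (hg : g ∈ G) (hβ : ND G β) :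
    β * ((g : M →ₗ[k] M) * x * (g⁻¹ : LinearMap.GeneralLinearGroup k M)) * β = 0 := by
  rw [← conj_eq_zero (g := g⁻¹), ← conj_mul3, conj_conj_inv]
  exact hx _ (hβ.conj' (G.inv_mem hg))

theorem NR.conj (h : NR G ξ) {g : LinearMap.GeneralLinearGroup k M} (hg : g ∈ G) :
    NR G ((g : M →ₗ[k] M) * ξ * (g⁻¹ : LinearMap.GeneralLinearGroup k M)) :=
  ⟨h.1.conj ⟨g, hg, rfl⟩ g.mul_inv, fun _ hα => rad_conj h.2 hg hα⟩

theorem cj_DG {g : LinearMap.GeneralLinearGroup k M} (hg : g ∈ G) : cj g (DG G) ≤ DG G := by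
  rw [DG, cj_closure, Subgroup.closure_le]
  rintro _ ⟨x, hx, rfl⟩
  refine Subgroup.subset_closure ?_
  change NR G _
  rw [conj_sub_one]
  exact NR.conj hx hg

theorem NR.conj_eq (h2 : (2 : k) ≠ 0) (h : NR G ξ) (hα : ND G α) (hβ : ND G β) :
    β * ((1 + ξ) * α * (1 - ξ)) * β = β * α * β := by
  have ha := hα.nn.1
  have hx := h.1.1
  have e0 := h.2 α hα
  have r1 : ∀ β, ND G β → β * (α * ξ - ξ * α) * β = 0 := by
    intro β hβ
    have := rad_conj h.2 hα.nn.un_mem hβ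
    rw [un_val, un_inv_val, show (1 + α) * ξ * (1 - α) = ξ + (α * ξ - ξ * α) - α * ξ * α by
      noncomm_ring, e0, sub_zero, mul_add, add_mul, h.2 β hβ, zero_add] at this
    exact this
  have r2 : β * (ξ * α * ξ) * β = 0 := by
    have := rad_conj r1 h.1.un_mem hβ
    have e : (1 + ξ) * (α * ξ - ξ * α) * (1 - ξ) = (α * ξ - ξ * α) + (ξ * α * ξ + ξ * α * ξ)
        - (ξ * ξ * α + α * (ξ * ξ) + ξ * α * (ξ * ξ) - ξ * ξ * α * ξ) := by noncomm_ring
    rw [un_val, un_inv_val, e, hx] at this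
    simp only [zero_mul, mul_zero, add_zero, sub_zero] at this
    rw [mul_add, add_mul, r1 β hβ, zero_add, ← two_smul k, mul_smul_comm, smul_mul_assoc] at this
    exact (smul_eq_zero.1 this).resolve_left h2
  have e : β * ((1 + ξ) * α * (1 - ξ)) * β =
      β * α * β - β * (α * ξ - ξ * α) * β - β * (ξ * α * ξ) * β := by noncomm_ring
  rw [e, r1 β hβ, r2, sub_zero, sub_zero]

variable (h2 : (2 : k) ≠ 0) (h3 : Nat.card k ≠ 3)
include h2 h3

theorem split_off (hξ : NN G ξ) (h : ¬ NR G ξ) :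
    ∃ ξ₁ ξ₀, ND G ξ₁ ∧ NN G ξ₀ ∧ ξ = ξ₀ + ξ₁ ∧ ξ₀ * ξ₁ = 0 ∧ rk ξ₀ < rk ξ := by
  obtain ⟨α, hα, hne⟩ : ∃ α, ND G α ∧ α * ξ * α ≠ 0 := by
    by_contra hh; push Not at hh; exact h ⟨hξ, hh⟩
  have hx := hξ.1
  obtain ⟨s, h4, h5⟩ := exists_unit h2 h3 hα hξ hne
  obtain ⟨a, ha⟩ : ∃ a, a = aeval (gam α ξ) s * α := ⟨_, rfl⟩
  have e0 : α * ξ * a = α := by
    rw [ha, ← mul_assoc, mul_assoc α, mul_ev_right hx, ← mul_assoc α, mul_ev_left hα.nn.1]
    simpa only [mul_assoc] using h4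
  have e1 : a * ξ * a = a := by
    conv_lhs => enter [1, 1]; rw [ha]
    rw [mul_assoc, mul_assoc, ← mul_assoc α, e0, ha]
  have a0 : a ≠ 0 := fun e => hα.ne (by rw [← e0, e, mul_zero])
  have n1 : ND G a := hα.of_rk_le (ha ▸ h5 s) a0 (ha ▸ rk_mul_le_right _ _)
  have haa := n1.nn.1
  have n2 := (n1.conj hξ.inG (one_add_mul_one_sub hx)).conj n1.nn.inG'
    (n1.nn.inG.mul_comm' (one_add_mul_one_sub haa))
  have e2 : (1 - a) * ((1 + ξ) * a * (1 - ξ)) * (1 + a) = -(ξ * a * ξ) := by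
    have e3 : ∀ x, a * (ξ * (a * x)) = a * x := fun x => by rw [← mul_assoc, ← mul_assoc, e1]
    have e4 : ∀ x, a * (a * x) = 0 := fun x => by rw [← mul_assoc, haa, zero_mul]
    rw [mul_assoc] at e1
    simp only [mul_add, add_mul, mul_sub, sub_mul, one_mul, mul_one, mul_assoc, e1, e3, e4, haa,
      mul_zero, zero_mul]
    abel
  rw [e2] at n2
  have n3 : ND G (ξ * a * ξ) := by simpa using n2.neg
  have z1 : ξ * (ξ * a * ξ) = 0 := by rw [← mul_assoc, ← mul_assoc, hx, zero_mul, zero_mul]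
  have z2 : ξ * a * ξ * ξ = 0 := by rw [mul_assoc, hx, mul_zero]
  refine ⟨_, ξ - ξ * a * ξ, n3, hξ.sub n3.nn z1 z2, by abel, by rw [sub_mul, z1, n3.nn.1, sub_self],
    ?_⟩
  obtain ⟨u, hu⟩ : ∃ u, a u ≠ 0 := by
    by_contra hh; push Not at hh; exact a0 (LinearMap.ext hh)
  rw [show ξ - ξ * a * ξ = (1 - ξ * a) * ξ by noncomm_ring]
  refine rk_mul_lt (v := ξ (a u)) ⟨_, rfl⟩ (fun e => hu ?_) ?_
  · rw [← e1, Module.End.mul_apply, Module.End.mul_apply, e, map_zero]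
  · change ((1 - ξ * a) * (ξ * a)) u = 0
    rw [sub_mul, one_mul, mul_assoc, ← mul_assoc a, e1, sub_self]; rfl

theorem un_mem_sup (n : ℕ) : ∀ (ξ : Module.End k M) (hξ : NN G ξ), rk ξ = n →
    un ξ hξ.1 ∈ (⨆ E ∈ quadraticRootSubgroups G, E) ⊔ DG G := by
  induction n using Nat.strong_induction_on with
  | _ n ih =>
  intro ξ hξ hn
  by_cases h : NR G ξ
  · exact Subgroup.mem_sup_right h.un_mem
  obtain ⟨ξ₁, ξ₀, h4, h5, rfl, h6, h7⟩ := split_off h2 h3 hξ h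
  rw [← un_mul_un h5.1 h4.nn.1 h6]
  exact Subgroup.mul_mem _ (ih _ (hn ▸ h7) ξ₀ h5 rfl) (Subgroup.mem_sup_left
    (le_iSup_mem (mem_qrs.2 ⟨ξ₁, h4, rfl⟩) (un_mem_EG (sm_self h4.nn))))

theorem sup_DG (hgen : Subgroup.closure (quadraticElements G) = G) :
    (⨆ E ∈ quadraticRootSubgroups G, E) ⊔ DG G = G := by
  refine le_antisymm (sup_le (iSup₂_le fun E hE => qrs_le hE) DG_le) ?_
  conv_lhs => rw [← hgen]
  rw [Subgroup.closure_le]
  intro g hg
  have := un_mem_sup h2 h3 _ _ (mem_quad_iff.1 hg).1 rfl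
  rwa [show un _ (mem_quad_iff.1 hg).1.1 = g from Units.ext (by simp)] at this

theorem com_DG (hG : NoUnip G) : Com (DG G) (⨆ E ∈ quadraticRootSubgroups G, E) := by
  have hR := qrs_rs h2 h3 hG
  have hni : ∀ A ∈ quadraticRootSubgroups G, NI _ A := fun A hA => qrs_ni h2 h3 hG hA
  refine com_of_rel hG (fun A hA g hg => qrs_cj hA hg) (fun A hA => qrs_le hA)
    (fun B hB => by obtain ⟨β, -, rfl⟩ := mem_qrs.1 hB; exact unip_EG)
    (fun A C => ∀ E ∈ quadraticRootSubgroups G, IsRankOnePair A E ↔ IsRankOnePair C E)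
    (fun _ _ _ => Iff.rfl) (fun A B C h4 h5 E hE => (h4 E hE).trans (h5 E hE))
    (fun g hg A C h E hE => by
      rw [← cj_cj_inv g E, r1_cj_iff, r1_cj_iff]; exact h _ (qrs_cj hE (G.inv_mem hg)))
    (fun A C hC D hD h4 h5 => hR.com_of_om hC hD hni fun E hE h => (h5 E hE).1 ((h4 E hE).2 h))
    _ DG_le (fun g hg => cj_DG hg) fun n hn => ?_
  induction hn using Subgroup.closure_induction with
  | mem x hx =>
    intro C hC E hE
    obtain ⟨α, hα, rfl⟩ := mem_qrs.1 hC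
    obtain ⟨β, hβ, rfl⟩ := mem_qrs.1 hE
    have hx' : x ∈ G := DG_le (Subgroup.subset_closure hx)
    have key : ∀ α, ND G α → (IsRankOnePair (EG G α) (EG G β) ↔ β * α * β ≠ 0) := fun α hα =>
      ⟨fun h => (op_of_r1 h2 h3 hG hα hβ h).symm.ne hβ.ne,
        fun h => ((op_iff h2 h3 hβ hα).2 h).symm.r1 h2 h3 hα hβ⟩
    have := NR.conj_eq h2 hx hα hβ
    rw [add_sub_cancel, ← inv_val_of_sq hx.1.1] at this
    rw [cj_EG hx', key α hα, key _ (hα.conj' hx'), this]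
  | one => intro C _ E _; rw [cj_one]
  | mul x y hx hy h4 h5 =>
    intro C hC E hE
    rw [cj_mul]
    exact (h5 C hC E hE).trans (h4 _ (qrs_cj hC (DG_le hy)) E hE)
  | inv x hx h4 =>
    intro C hC E hE
    have := h4 _ (qrs_cj hC (G.inv_mem (DG_le hx))) E hE
    rw [cj_cj_inv] at this
    exact this.symm

/-- the decomposition into quasisimple factors -/
theorem decomp (n : ℕ) : ∀ G : Subgroup (LinearMap.GeneralLinearGroup k M), NoUnip G →
    Subgroup.closure (quadraticElements G) = G →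
    (∀ ξ, NN G ξ → ξ ≠ 0 → Module.finrank k M < rk ξ + n) →
    ∃ F : Set (Subgroup (LinearMap.GeneralLinearGroup k M)), F.Finite ∧
      (∀ X ∈ F, X ≤ G ∧ (∀ g ∈ G, cj g X ≤ X) ∧ IsQuasisimple X ∧
        X ≤ Subgroup.closure (quadraticElements G ∩ X)) ∧
      (∀ X ∈ F, ∀ Y ∈ F, X ≠ Y → Com X Y) ∧ G ≤ (⨆ X ∈ F, X) ∧
      ((∀ X ∈ F, ∀ Y ∈ F, X ≠ Y → ∀ x ∈ X, ∀ y ∈ Y,
        ((y : M →ₗ[k] M) - 1) * ((x : M →ₗ[k] M) - 1) = 0 → x = 1 ∨ y = 1) →
        ∀ ξ, ∀ hξ : NN G ξ, ξ ≠ 0 → ∃ X ∈ F, un ξ hξ.1 ∈ X) := by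
  have base : ∀ G : Subgroup (LinearMap.GeneralLinearGroup k M),
      Subgroup.closure (quadraticElements G) = G → (∀ ξ, NN G ξ → ξ = 0) → G ≤ ⊥ := by
    intro G hgen h
    rw [← hgen, Subgroup.closure_le]
    intro g hg
    exact absurd (h _ (mem_quad_iff.1 hg).1) (mem_quad_iff.1 hg).2
  induction n with
  | zero =>
    intro G _ hgen h
    have h0 : ∀ ξ, NN G ξ → ξ = 0 := fun ξ hξ => by
      by_contra h0
      exact absurd (h ξ hξ h0) (not_lt.2 (Submodule.finrank_le _))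
    exact ⟨∅, Set.finite_empty, by simp, by simp, (base G hgen h0).trans bot_le,
      fun _ ξ hξ h4 => absurd (h0 ξ hξ) h4⟩
  | succ n ih =>
    intro G hG hgen h
    by_cases h0 : ∀ ξ, NN G ξ → ξ = 0
    · exact ⟨∅, Set.finite_empty, by simp, by simp, (base G hgen h0).trans bot_le,
        fun _ ξ hξ h4 => absurd (h0 ξ hξ) h4⟩
    have hR := qrs_rs h2 h3 hG
    have hni : ∀ A ∈ quadraticRootSubgroups G, NI _ A := fun A hA => qrs_ni h2 h3 hG hA
    have hc := com_DG h2 h3 hG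
    have hs := sup_DG h2 h3 hgen
    obtain ⟨α, hα⟩ : ∃ α, ND G α := by
      push Not at h0
      obtain ⟨α, ⟨h4, h5⟩, h6⟩ := (measure rk).wf.has_min {ξ | NN G ξ ∧ ξ ≠ 0} h0
      exact ⟨α, h4, h5, fun β h7 h8 => not_lt.1 (h6 β ⟨h7, h8⟩)⟩
    have hnr : ∀ ξ, NN (DG G) ξ → NR G ξ := fun ξ hξ => ⟨hξ.mono DG_le, fun β hβ => by
      rw [← comm_of_un (hc _ hξ.un_mem _ (le_iSup_mem (mem_qrs.2 ⟨β, hβ, rfl⟩)
        (un_mem_EG (sm_self hβ.nn)))), mul_assoc, hβ.nn.1, mul_zero]⟩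
    obtain ⟨F, f1, f2, f3, f4, f5⟩ := ih (DG G) (hG.sub DG_le fun g hg => Or.inl (cj_DG hg)) (by
      refine le_antisymm ((Subgroup.closure_le _).2 fun g hg => hg.1) ?_
      conv_lhs => rw [DG]
      rw [Subgroup.closure_le]
      intro g hg
      by_cases h1 : g = 1
      · rw [h1]; exact Subgroup.one_mem _
      · exact Subgroup.subset_closure (mem_quad_iff.2 ⟨NR.nn hg,
          fun e => h1 (Units.ext (sub_eq_zero.1 e))⟩)) (by
      intro ξ hξ h4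
      have h5 := h α hα.nn hα.ne
      have h6 : rk α < rk ξ := by
        by_contra h7
        have h8 := hα.of_rk_le (hξ.mono DG_le) h4 (not_lt.1 h7)
        obtain ⟨β, hβ, h9⟩ := exists_op h2 h3 hG h8
        exact h9.symm.ne hβ.ne ((hnr ξ hξ).2 β hβ)
      omega)
    set S := quadraticRootSubgroups G with hS
    have l0 : ∀ A, (⨆ E ∈ Cmp S A, E) ≤ ⨆ E ∈ S, E := fun A =>
      iSup₂_le fun E hE => le_iSup_mem hE.1
    have hnorm : ∀ X : Subgroup (LinearMap.GeneralLinearGroup k M),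
        (∀ g ∈ (⨆ E ∈ S, E), cj g X ≤ X) → (∀ g ∈ DG G, cj g X ≤ X) → ∀ g ∈ G, cj g X ≤ X :=
      fun X h4 h5 g hg => (cj_eq_self_iff.2 ((hs.ge.trans (sup_le (le_normalizer_of_cj_le h4)
        (le_normalizer_of_cj_le h5))) hg)).le
    refine ⟨{X | ∃ A ∈ S, X = ⨆ E ∈ Cmp S A, E} ∪ F, Set.Finite.union ?_ f1, ?_, ?_, ?_, ?_⟩
    · refine ((Set.finite_coe_iff.1 (finite_cmp h2 h3 hG)).image
        fun T => ⨆ E ∈ T, E).subset ?_
      rintro _ ⟨A, hA, rfl⟩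
      exact ⟨_, ⟨A, hA, rfl⟩, rfl⟩
    · rintro X (⟨A, hA, rfl⟩ | hX)
      · refine ⟨iSup₂_le fun E hE => qrs_le hE.1, hnorm _ (fun g hg => cj_iSup_le fun B hB =>
          ⟨hR.cj_mem_iSup subset_rfl hg B hB.1,
            hB.2.trans (hR.reach_cj subset_rfl hg hB.1 (hni B hB.1))⟩)
          (fun g hg => ((hc.mono le_rfl (l0 A)).cj_eq hg).le), qrs_quasisimple h2 h3 hG hA,
          iSup₂_le fun E hE g hg => ?_⟩
        by_cases h1 : g = 1
        · rw [h1]; exact Subgroup.one_mem _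
        · obtain ⟨β, hβ, rfl⟩ := mem_qrs.1 hE.1
          exact Subgroup.subset_closure ⟨mem_quad_iff.2 ⟨hg.1,
            fun e => h1 (Units.ext (sub_eq_zero.1 e))⟩, le_iSup_mem hE hg⟩
      · obtain ⟨h4, h5, h6, h7⟩ := f2 X hX
        refine ⟨h4.trans DG_le, hnorm _ (fun g hg => ((hc.mono h4 le_rfl).symm.cj_eq hg).le) h5,
          h6, h7.trans (Subgroup.closure_mono ?_)⟩
        rintro g ⟨h8, h9⟩
        exact ⟨mem_quad_iff.2 ⟨(mem_quad_iff.1 h8).1.mono DG_le, (mem_quad_iff.1 h8).2⟩, h9⟩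
    · rintro X (⟨A, hA, rfl⟩ | hX) Y (⟨B, hB, rfl⟩ | hY) hne
      · exact hR.com_cmp hni fun e => hne (by rw [e])
      · exact (hc.mono (f2 Y hY).1 (l0 A)).symm
      · exact hc.mono (f2 X hX).1 (l0 B)
      · exact f3 X hX Y hY hne
    · refine hs.ge.trans (sup_le (iSup₂_le fun E hE => ?_)
        (f4.trans (iSup₂_le fun X hX => le_iSup_mem (Or.inr hX))))
      exact (le_iSup_mem (self_mem_cmp hE)).trans (le_iSup_mem (Or.inl ⟨E, hE, rfl⟩))
    · intro hirr ξ hξ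
      generalize hm : rk ξ = m
      induction m using Nat.strong_induction_on generalizing ξ with
      | _ m ihm =>
      intro h4
      by_cases h : NR G ξ
      · obtain ⟨X, hX, h5⟩ := f5 (fun X hX Y hY => hirr X (Or.inr hX) Y (Or.inr hY)) ξ h.nn h4
        exact ⟨X, Or.inr hX, h5⟩
      obtain ⟨ξ₁, ξ₀, h5, h6, rfl, h7, h8⟩ := split_off h2 h3 hξ h
      have m1 := mem_qrs.2 ⟨ξ₁, h5, rfl⟩
      have m2 : un ξ₁ h5.nn.1 ∈ ⨆ E ∈ Cmp S (EG G ξ₁), E :=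
        le_iSup_mem (self_mem_cmp m1) (un_mem_EG (sm_self h5.nn))
      refine ⟨_, Or.inl ⟨_, m1, rfl⟩, ?_⟩
      rw [← un_mul_un h6.1 h5.nn.1 h7]
      refine Subgroup.mul_mem _ ?_ m2
      by_cases h9 : ξ₀ = 0
      · rw [show un ξ₀ h6.1 = 1 from Units.ext (by simp [h9])]; exact Subgroup.one_mem _
      obtain ⟨Y, hY, m3⟩ := ihm _ (hm ▸ h8) ξ₀ h6 rfl h9
      by_contra h10
      rcases hirr _ (Or.inl ⟨_, m1, rfl⟩) Y hY (fun e => h10 (e ▸ m3)) _ m2 _ m3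
        (by simpa using h7) with e | e
      · exact un_ne_one h5.ne e
      · exact un_ne_one h9 e

end Fin

theorem irred_prod (hG : IsIrreducibleFor G) {F : Set (Subgroup (LinearMap.GeneralLinearGroup k M))}
    (h1 : ∀ X ∈ F, ∀ Y ∈ F, X ≠ Y → Com X Y) (h2 : G ≤ ⨆ X ∈ F, X)
    {X Y : Subgroup (LinearMap.GeneralLinearGroup k M)} (hX : X ∈ F) (hY : Y ∈ F) (hne : X ≠ Y)
    {x y : LinearMap.GeneralLinearGroup k M} (hx : x ∈ X) (hy : y ∈ Y)
    (h : ((y : M →ₗ[k] M) - 1) * ((x : M →ₗ[k] M) - 1) = 0) : x = 1 ∨ y = 1 := by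
  let V : Submodule k M := ⨆ g ∈ X, LinearMap.range
    (((g * x * g⁻¹ : LinearMap.GeneralLinearGroup k M) : M →ₗ[k] M) - 1)
  have hV : ∀ g ∈ X, LinearMap.range
      (((g * x * g⁻¹ : LinearMap.GeneralLinearGroup k M) : M →ₗ[k] M) - 1) ≤ V := fun g hg =>
    le_iSup₂_of_le (f := fun (g : LinearMap.GeneralLinearGroup k M) (_ : g ∈ X) => LinearMap.range
      (((g * x * g⁻¹ : LinearMap.GeneralLinearGroup k M) : M →ₗ[k] M) - 1)) g hg le_rfl
  let K : Subgroup (LinearMap.GeneralLinearGroup k M) :=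
    { carrier := {g | (∀ v ∈ V, (g : M →ₗ[k] M) v ∈ V) ∧
        ∀ v ∈ V, ((g⁻¹ : LinearMap.GeneralLinearGroup k M) : M →ₗ[k] M) v ∈ V}
      one_mem' := by simp
      mul_mem' := fun {a b} ha hb => ⟨fun v hv => ha.1 _ (hb.1 v hv), fun v hv => by
        rw [_root_.mul_inv_rev]; exact hb.2 _ (ha.2 v hv)⟩
      inv_mem' := fun {a} ha => ⟨ha.2, by rw [inv_inv]; exact ha.1⟩ }
  have key : ∀ Z ∈ F, ∀ z ∈ Z, ∀ v ∈ V, (z : M →ₗ[k] M) v ∈ V := by
    intro Z hZ z hz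
    have : V ≤ V.comap (z : M →ₗ[k] M) := by
      refine iSup₂_le fun g hg => ?_
      rintro _ ⟨m, rfl⟩
      have e : (z : M →ₗ[k] M) ((((g * x * g⁻¹ : LinearMap.GeneralLinearGroup k M) : M →ₗ[k] M)
          - 1) m) = (((z * (g * x * g⁻¹) * z⁻¹ : LinearMap.GeneralLinearGroup k M) : M →ₗ[k] M)
          - 1) ((z : M →ₗ[k] M) m) := by
        rw [conj_sub_one z, ← Module.End.mul_apply, ← Module.End.mul_apply, mul_assoc _ _ z.1,
          Units.inv_mul, mul_one]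
      rw [Submodule.mem_comap, e]
      by_cases hZX : Z = X
      · have e2 : z * (g * x * g⁻¹) * z⁻¹ = (z * g) * x * (z * g)⁻¹ := by group
        rw [e2]
        exact hV _ (X.mul_mem (hZX ▸ hz) hg) ⟨_, rfl⟩
      · rw [h1 Z hZ X hX hZX z hz _ (X.mul_mem (X.mul_mem hg hx) (X.inv_mem hg)),
          mul_inv_cancel_right]
        exact hV g hg ⟨_, rfl⟩
    exact fun v hv => this hv
  have hK : G ≤ K := h2.trans (iSup₂_le fun Z hZ z hz => ⟨key Z hZ z hz, key Z hZ _ (Z.inv_mem hz)⟩)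
  rcases hG.2 V (fun g hg => (hK hg).1) with e | e
  · left
    have := hV 1 X.one_mem
    rw [e, le_bot_iff, LinearMap.range_eq_bot, sub_eq_zero] at this
    exact Units.ext (by simpa using this)
  · right
    have : V ≤ LinearMap.ker ((y : M →ₗ[k] M) - 1) := by
      refine iSup₂_le fun g hg => range_le_ker_iff'.2 ?_
      have e2 : y = g * y * g⁻¹ := by rw [h1 X hX Y hY hne g hg y hy, mul_inv_cancel_right]
      rw [e2, conj_sub_one, conj_sub_one]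
      simp only [mul_assoc, Units.inv_mul_cancel_left]
      rw [← mul_assoc (y.1 - 1), h, zero_mul, mul_zero]
    rw [e, top_le_iff, LinearMap.ker_eq_top, sub_eq_zero] at this
    exact Units.ext this

end Cfsg.Agent.Root
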