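import Mathlib
import Cfsg.Agent.Root.RI1

/-! Root involutions: Baer–Suzuki consequences and the abelian normal closure lemma. -/

namespace Cfsg.Agent.Root

open Subgroup Cfsg.Agent.LocalEven
open scoped commutatorElement

variable {G : Type*} [Group G]

theorem comm_closure {S : Set G} (h : ∀ x ∈ S, ∀ y ∈ S, x * y = y * x) :
    ∀ x ∈ closure S, ∀ y ∈ closure S, x * y = y * x := by
  intro x hx y hy
  induction hx, hy using closure_induction₂ with
  | mem x y hx hy => exact h x hx y hy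
  | one_left => simp
  | one_right => simp
  | mul_left x y z _ _ _ h1 h2 => exact (Commute.mul_left h1 h2 : Commute (x * y) z)
  | mul_right y z x _ _ _ h1 h2 => exact (Commute.mul_right h1 h2 : Commute x (y * z))
  | inv_left x y _ _ h1 => exact (Commute.inv_left h1 : Commute x⁻¹ y)
  | inv_right x y _ _ h1 => exact (Commute.inv_right h1 : Commute x y⁻¹)

theorem sq_closure {S : Set G} (h : ∀ x ∈ S, ∀ y ∈ S, x * y = y * x) (h2 : ∀ x ∈ S, x * x = 1) :
    ∀ x ∈ closure S, x * x = 1 := by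
  intro x hx
  induction hx using closure_induction with
  | mem x hx => exact h2 x hx
  | one => simp
  | mul x y hx hy h1 h3 => exact sq_mul_of_comm h1 h3 (comm_closure h x hx y hy)
  | inv x _ h1 => rw [inv_of_sq h1]; exact h1

theorem isPGroup_of_sq {H : Subgroup G} (h : ∀ x ∈ H, x * x = 1) : IsPGroup 2 H := by
  rintro ⟨x, hx⟩
  exact ⟨1, Subtype.ext (by simpa [pow_two] using h x hx)⟩

theorem conj_mem_closure {S : Set G} {g : G} (h : ∀ s ∈ S, g * s * g⁻¹ ∈ closure S) :
    ∀ x ∈ closure S, g * x * g⁻¹ ∈ closure S := by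
  intro x hx
  induction hx using closure_induction with
  | mem x hx => exact h x hx
  | one => simp
  | mul x y _ _ h1 h2 =>
    have := mul_mem h1 h2
    convert this using 1; group
  | inv x _ h1 =>
    have := inv_mem h1
    convert this using 1; group

theorem eq_one_of_isPGroup_two_of_odd {H : Subgroup G} (hH : IsPGroup 2 H) {x : G} (hx : x ∈ H)
    (ho : Odd (orderOf x)) : x = 1 := by
  obtain ⟨k, hk⟩ := hH ⟨x, hx⟩
  exact eq_one_of_odd_of_pow_two_pow ho (k := k) (by simpa using congrArg Subtype.val hk)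

theorem mem_of_odd_of_sq_mem {N : Subgroup G} {x : G} (ho : Odd (orderOf x)) (h : x * x ∈ N) :
    x ∈ N := by
  obtain ⟨k, hk⟩ := exists_sq_pow_of_odd ho
  rw [← hk]; exact pow_mem h k

/-- the running norm -/
theorem pow_mul_succ (x r : G) (k : ℕ) :
    (x * r) ^ (k + 1) * (r ^ (k + 1))⁻¹ = (x * r) ^ k * (r ^ k)⁻¹ * (r ^ k * x * (r ^ k)⁻¹) := by
  rw [pow_succ, pow_succ]; group

theorem norm_mem {N : Subgroup G} {r : G} (hr : ∀ x ∈ N, r * x * r⁻¹ ∈ N) :
    (∀ k : ℕ, ∀ x ∈ N, r ^ k * x * (r ^ k)⁻¹ ∈ N) ∧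
      ∀ k : ℕ, ∀ x ∈ N, (x * r) ^ k * (r ^ k)⁻¹ ∈ N := by
  have h1 : ∀ k : ℕ, ∀ x ∈ N, r ^ k * x * (r ^ k)⁻¹ ∈ N := by
    intro k
    induction k with
    | zero => intro x hx; simpa using hx
    | succ k ih =>
      intro x hx
      have := hr _ (ih x hx)
      convert this using 1; rw [pow_succ']; group
  refine ⟨h1, fun k => ?_⟩
  induction k with
  | zero => intro x _; simp
  | succ k ih => intro x hx; rw [pow_mul_succ]; exact mul_mem (ih x hx) (h1 k x hx)

theorem norm_mul {N : Subgroup G} {r : G} (hr : ∀ x ∈ N, r * x * r⁻¹ ∈ N)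
    (hc : ∀ x ∈ N, ∀ y ∈ N, x * y = y * x) {x y : G} (hx : x ∈ N) (hy : y ∈ N) (k : ℕ) :
    (x * y * r) ^ k * (r ^ k)⁻¹ = (x * r) ^ k * (r ^ k)⁻¹ * ((y * r) ^ k * (r ^ k)⁻¹) := by
  obtain ⟨h1, h2⟩ := norm_mem hr
  induction k with
  | zero => simp
  | succ k ih =>
    rw [pow_mul_succ, pow_mul_succ, pow_mul_succ, ih]
    have e := hc _ (h2 k y hy) _ (h1 k x hx)
    calc (x * r) ^ k * (r ^ k)⁻¹ * ((y * r) ^ k * (r ^ k)⁻¹) * (r ^ k * (x * y) * (r ^ k)⁻¹)
        = (x * r) ^ k * (r ^ k)⁻¹ * (((y * r) ^ k * (r ^ k)⁻¹) * (r ^ k * x * (r ^ k)⁻¹)) *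
          (r ^ k * y * (r ^ k)⁻¹) := by group
      _ = _ := by rw [e]; group

namespace RI

variable {D : Set G}

theorem mem_pCoreOf [Finite G] (h : RI D) {H : Subgroup G} {t : G} (ht : t ∈ H)
    (hD : ∀ g ∈ H, g * t * g⁻¹ ∈ D) (hno : ∀ g ∈ H, ¬ OP2 t (g * t * g⁻¹)) :
    t ∈ pCoreOf 2 H := by
  have htD : t ∈ D := by simpa using hD 1 (one_mem H)
  have : (⟨t, ht⟩ : H) ∈ pCore 2 H := by
    apply H2.baer_suzuki_elem
    rintro ⟨g, hg⟩
    apply isPGroup_closure_pair
    · exact Subtype.ext (h.sq htD)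
    · exact Subtype.ext (h.sq (hD g hg))
    · exact Subtype.ext (h.four_of_not_OP2 htD (hD g hg) (hno g hg))
  exact (LocalEven.mem_pCoreOf (x := ⟨t, ht⟩)).mpr this

/-- an invariant subset without odd pairs generates a 2-group -/
theorem isPGroup_closure [Finite G] (h : RI D) {T : Set G} (hT : T ⊆ D)
    (hc : ∀ s ∈ T, ∀ t ∈ T, s * t * s ∈ T) (hno : ∀ s ∈ T, ∀ t ∈ T, ¬ OP2 s t) :
    IsPGroup 2 (closure T) := by
  have hRI : ∀ g ∈ closure T, ∀ t ∈ T, g * t * g⁻¹ ∈ T := by
    have key : ∀ g ∈ closure T, (∀ d ∈ T, g * d * g⁻¹ ∈ T) ∧ (∀ d ∈ T, g⁻¹ * d * g ∈ T) := by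
      intro g hg
      induction hg using closure_induction with
      | mem e he =>
        refine ⟨fun d hd => ?_, fun d hd => ?_⟩ <;> rw [h.inv (hT he)] <;> exact hc e he d hd
      | one => exact ⟨fun d hd => by simpa using hd, fun d hd => by simpa using hd⟩
      | mul x y _ _ hx hy =>
        refine ⟨fun d hd => ?_, fun d hd => ?_⟩
        · have := hx.1 _ (hy.1 d hd)
          convert this using 1; group
        · have := hy.2 _ (hx.2 d hd)
          convert this using 1; group
      | inv x _ hx =>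
        exact ⟨fun d hd => by simpa using hx.2 d hd, fun d hd => by simpa using hx.1 d hd⟩
    exact fun g hg => (key g hg).1
  apply isPGroup_of_le_pCoreOf (H := closure T)
  rw [closure_le]
  intro t ht
  exact h.mem_pCoreOf (subset_closure ht) (fun g hg => hT (hRI g hg t ht))
    (fun g hg => hno t ht _ (hRI g hg t ht))

section L2

variable (h : RI D) {a y b : G} (ha : a ∈ D) (hy : y ∈ D) (hb : b ∈ D)
include h ha hy

theorem zconj_mem {d : G} (hd : d ∈ D) (k : ℤ) : (a * y) ^ k * d * ((a * y) ^ k)⁻¹ ∈ D :=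
  h.conj_mem (zpow_mem (mul_mem (subset_closure ha) (subset_closure hy)) k) hd

theorem a_zpow (k : ℤ) : a * (a * y) ^ k = ((a * y) ^ k)⁻¹ * a :=
  Inv.mul_eq_of_inverts (Inv.conj_zpow_of_inverts (Inv.inverts_mul_left (h.sq ha) (h.sq hy)) k)

theorem zrefl_mem (k : ℤ) : (a * y) ^ k * a ∈ D := by
  rcases Int.even_or_odd' k with ⟨j, rfl | rfl⟩
  · have := h.zconj_mem ha hy ha j
    have e := h.a_zpow ha hy (-j)
    rw [zpow_neg, inv_inv] at e
    rwa [mul_assoc, e, ← mul_assoc, ← zpow_add, ← two_mul] at this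
  · have h1 : a * y * a ∈ D := h.conjD y hy a ha
    have := h.zconj_mem ha hy h1 j
    have e := h.a_zpow ha hy (-j)
    rw [zpow_neg, inv_inv] at e
    have e2 : (a * y) ^ j * (a * y * a) * ((a * y) ^ j)⁻¹ = (a * y) ^ (2 * j + 1) * a := by
      rw [mul_assoc, mul_assoc (a * y), e, show 2 * j + 1 = j + 1 + j by ring, zpow_add, zpow_add,
        zpow_one]
      simp only [mul_assoc]
    rwa [e2] at this

include hb

/-- the conjugates of `b` under the dihedral group `⟨a, y⟩` commute -/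
theorem zconj_comm (hab : a * b = b * a) (hby : ¬ OP2 b y) (i j : ℤ) :
    (a * y) ^ i * b * ((a * y) ^ i)⁻¹ * ((a * y) ^ j * b * ((a * y) ^ j)⁻¹) =
      (a * y) ^ j * b * ((a * y) ^ j)⁻¹ * ((a * y) ^ i * b * ((a * y) ^ i)⁻¹) := by
  set r := a * y with hr
  let B : ℤ → G := fun i => r ^ i * b * (r ^ i)⁻¹
  have BD : ∀ i, B i ∈ D := fun i => h.zconj_mem ha hy hb i
  have B0 : B 0 = b := by simp [B]
  have shift : ∀ i k, r ^ k * B i * (r ^ k)⁻¹ = B (k + i) := by
    intro i k; simp only [B]; rw [zpow_add]; group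
  have ha2 := h.sq ha
  have aB : ∀ i, a * B i * a = B (-i) := by
    intro i
    have e1 := h.a_zpow ha hy i
    have e2 := h.a_zpow ha hy (-i)
    simp only [B, zpow_neg, inv_inv] at e2 ⊢
    rw [← hr] at e1 e2
    calc a * (r ^ i * b * (r ^ i)⁻¹) * a = (a * r ^ i) * b * ((r ^ i)⁻¹ * a) := by group
      _ = (r ^ i)⁻¹ * (a * b) * (a * r ^ i) := by rw [← e1]; nth_rewrite 1 [e1]; group
      _ = (r ^ i)⁻¹ * b * (a * a) * r ^ i := by rw [hab]; group
      _ = _ := by rw [ha2, mul_one]
  have rB : ∀ i k, r ^ k * a * B i * (r ^ k * a) = B (k - i) := by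
    intro i k
    have e2 := h.a_zpow ha hy (-k)
    simp only [zpow_neg, inv_inv] at e2
    rw [← hr] at e2
    calc r ^ k * a * B i * (r ^ k * a) = r ^ k * (a * B i * a) * (r ^ k)⁻¹ := by
          rw [← e2]; nth_rewrite 1 [e2]; group
      _ = B (k - i) := by rw [aB, shift, sub_eq_add_neg]
  -- the set of differences
  let S : ℤ → Prop := fun k => b * B k = B k * b
  have Sshift : ∀ i j, S (j - i) → B i * B j = B j * B i := by
    intro i j hs
    have e1 : B i = r ^ i * b * (r ^ i)⁻¹ := rfl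
    have e2 : B j = r ^ i * B (j - i) * (r ^ i)⁻¹ := by rw [shift]; congr 1; ring
    rw [e1, e2]
    calc r ^ i * b * (r ^ i)⁻¹ * (r ^ i * B (j - i) * (r ^ i)⁻¹)
        = r ^ i * (b * B (j - i)) * (r ^ i)⁻¹ := by group
      _ = _ := by rw [hs]; group
  have Sneg : ∀ k, S k → S (-k) := by
    intro k hk
    have := Sshift (-k) 0 (by simpa using hk)
    rw [B0] at this
    exact this.symm
  have Srefl : ∀ k, ¬ OP2 b (r ^ k * a) → S k := by
    intro k hk
    have := h.comm_conj hb (h.zrefl_mem ha hy k) hk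
    have e := rB 0 k
    rw [B0, sub_zero] at e
    rw [← hr, e] at this
    exact this
  have S1 : S (-1) := by
    apply Srefl
    have : r ^ (-1 : ℤ) * a = y := by
      rw [zpow_neg, zpow_one, hr, mul_inv_rev, h.inv ha, h.inv hy, mul_assoc, ha2, mul_one]
    rw [this]; exact hby
  have Sdouble : ∀ k, S k → S (k + k) := by
    intro k hk
    by_cases e : B k = b
    · have : B (k + k) = b := by rw [← shift, e]; exact e
      simp only [S]; rw [this]
    · have hρ := h.zrefl_mem ha hy k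
      rw [← hr] at hρ
      have e0 := rB 0 k
      rw [B0, sub_zero] at e0
      have hno : ¬ OP2 b (r ^ k * a) := by
        intro ho
        apply ho.not_comm_conj (h.sq hb) (h.sq hρ)
        rw [e0]; exact hk
      have hnc : b * (r ^ k * a) ≠ r ^ k * a * b := by
        intro e1
        apply e
        rw [← e0, ← e1, mul_assoc, h.sq hρ, mul_one]
      have hc := (h.four_of hb hρ hno hnc).2
      have ec : b * (r ^ k * a) * b * (r ^ k * a) = b * B k := by rw [← e0]; group
      rw [ec] at hc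
      have hbc : b * (b * B k) ∈ D := by rw [h.mm hb]; exact BD k
      have hno2 := h.not_OP2_line ha hb hc hbc (h.comm_of_mul_mem hb hc hbc) hab
      have hcc := h.comm_conj hc ha (fun o => hno2 o.symm)
      have e3 : a * (b * B k) * a = b * B (-k) := by
        rw [← aB, ← mul_assoc a b, hab]; group
      rw [e3] at hcc
      have hk' : b * B (-k) = B (-k) * b := Sneg k hk
      have c1 : Commute b (B k) := hk
      have c2 : Commute b (B (-k)) := hk'
      have c3 : Commute (b * B k) (b * B (-k)) := hcc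
      have c4 : Commute (B k) (B (-k)) := by
        have c5 : Commute (b * (b * B k)) (b * B (-k)) :=
          Commute.mul_left ((Commute.refl b).mul_right c2) c3
        rw [h.mm hb] at c5
        have c6 : Commute (B k) (b * (b * B (-k))) := c1.symm.mul_right c5
        rwa [h.mm hb] at c6
      have e4 : r ^ k * B (-k) * (r ^ k)⁻¹ = b := by rw [shift, add_neg_cancel, B0]
      simp only [S]
      rw [← shift]
      calc b * (r ^ k * B k * (r ^ k)⁻¹)
          = r ^ k * B (-k) * (r ^ k)⁻¹ * (r ^ k * B k * (r ^ k)⁻¹) := by rw [e4]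
        _ = r ^ k * (B (-k) * B k) * (r ^ k)⁻¹ := by group
        _ = r ^ k * B k * (r ^ k)⁻¹ * (r ^ k * B (-k) * (r ^ k)⁻¹) := by rw [← c4.eq]; group
        _ = _ := by rw [e4]
  have Sadd : ∀ k l, S k → S l → S (k + l) := by
    intro k l hk hl
    by_cases ho : OP2 b (r ^ (k + l) * a)
    · have hρ := h.zrefl_mem ha hy (k + l)
      rw [← hr] at hρ
      have e0 := rB 0 (k + l)
      rw [B0, sub_zero] at e0
      have c1 : B k * b = b * B k := hk.symm
      have c2 : B k * B (k + l) = B (k + l) * B k := Sshift k (k + l) (by simpa using hl)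
      have c3 := comm_of_odd (z := B k) (h.sq hb) ho.2 c1 (by rw [e0]; exact c2)
      have e1 := rB k (k + l)
      rw [← c3, mul_assoc, h.sq hρ, mul_one, add_sub_cancel_left] at e1
      have e2 : B (k + l) = B (k + k) := by rw [← shift, ← e1, shift]
      simp only [S]; rw [e2]; exact Sdouble k hk
    · exact Srefl _ ho
  have Sall : ∀ k, S k := by
    intro k
    induction k using Int.induction_on with
    | zero => simp only [S]; rw [B0]
    | succ n ih => exact Sadd _ _ ih (by simpa using Sneg _ S1)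
    | pred n ih => rw [sub_eq_add_neg]; exact Sadd _ _ ih S1
  exact Sshift i j (Sall _)

/-- a point collinear with `a` that is not an odd partner of `y ∈ A_a` is a commutator with `a` -/
theorem exists_com [Finite G] (hab : a * b ∈ D) (hay : OP2 a y) (hby : ¬ OP2 b y) :
    ∃ v ∈ D, a * v * a * v = b := by
  have hc := h.comm_of_mul_mem ha hb hab
  set r := a * y with hr
  let N : Subgroup G := closure (Set.range fun i : ℤ => r ^ i * b * (r ^ i)⁻¹)
  have Nc : ∀ x ∈ N, ∀ z ∈ N, x * z = z * x := by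
    apply comm_closure
    rintro _ ⟨i, rfl⟩ _ ⟨j, rfl⟩
    exact h.zconj_comm ha hy hb hc hby i j
  have N2 : ∀ x ∈ N, x * x = 1 := by
    apply sq_closure
    · rintro _ ⟨i, rfl⟩ _ ⟨j, rfl⟩
      exact h.zconj_comm ha hy hb hc hby i j
    · rintro _ ⟨i, rfl⟩
      exact h.sq (h.zconj_mem ha hy hb i)
  have Nr : ∀ k : ℤ, ∀ x ∈ N, r ^ k * x * (r ^ k)⁻¹ ∈ N := by
    intro k
    apply conj_mem_closure
    rintro _ ⟨i, rfl⟩
    refine subset_closure ⟨k + i, ?_⟩
    simp only [zpow_add]; group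
  have Nr1 : ∀ x ∈ N, r * x * r⁻¹ ∈ N := fun x hx => by simpa using Nr 1 x hx
  have Nr2 : ∀ x ∈ N, r⁻¹ * x * r ∈ N := fun x hx => by simpa using Nr (-1) x hx
  have bN : b ∈ N := subset_closure ⟨0, by simp⟩
  have hn : r ^ orderOf r = 1 := pow_orderOf_eq_one r
  have hodd : Odd (orderOf r) := hay.2
  -- the norm vanishes
  have hbr : Odd (orderOf (b * r)) := by
    have hba : b * a ∈ D := hc ▸ hab
    rcases h.line_odd hb ha hba hy hay.symm with o | o
    · exact absurd o.symm hby
    · have := o.symm.2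
      rwa [mul_assoc] at this
  have hnb : (b * r) ^ orderOf r = 1 := by
    have m := (norm_mem Nr1).2 (orderOf r) b bN
    rw [hn, inv_one, mul_one] at m
    apply eq_one_of_odd_of_sq _ (N2 _ m)
    exact Odd.of_dvd_nat hbr (orderOf_pow_dvd _)
  have hnorm : ∀ x ∈ N, (x * r) ^ orderOf r = 1 := by
    intro x hx
    induction hx using closure_induction with
    | mem x hx =>
      obtain ⟨i, rfl⟩ := hx
      have : r ^ i * b * (r ^ i)⁻¹ * r = r ^ i * (b * r) * (r ^ i)⁻¹ := by group
      show (r ^ i * b * (r ^ i)⁻¹ * r) ^ _ = 1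
      rw [this, conj_pow, hnb]; simp
    | one => rw [one_mul, hn]
    | mul x z hx hz h1 h2 =>
      have := norm_mul Nr1 Nc hx hz (orderOf r)
      rwa [h1, h2, hn, inv_one, mul_one, mul_one, mul_one] at this
    | inv x hx h1 => rw [inv_of_sq (N2 x hx)]; exact h1
  have fpf : ∀ x ∈ N, r⁻¹ * x * r * (r * x * r⁻¹) = 1 → x = 1 := by
    intro x hx e
    have x2 := N2 x hx
    have c1 : Commute x (r * r) := by
      have e1 : r⁻¹ * x * r = r * x * r⁻¹ := by
        have := eq_inv_of_mul_eq_one_left e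
        rw [this]
        simp only [mul_inv_rev, inv_inv, inv_of_sq x2, mul_assoc]
      calc x * (r * r) = r * (r⁻¹ * x * r) * r := by group
        _ = r * r * x := by rw [e1]; group
    obtain ⟨k, hk⟩ := exists_sq_pow_of_odd hodd
    have c2 : Commute x r := by rw [← hk]; exact c1.pow_right k
    have := hnorm x hx
    rw [c2.mul_pow, hn, mul_one] at this
    exact eq_one_of_odd_of_sq (odd_orderOf_of_pow hodd this) x2
  have ar : a * r = r⁻¹ * a := by
    have := h.a_zpow ha hy 1
    rwa [zpow_one] at this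
  have ha2 := h.sq ha
  have ephi : ∀ s, a * s = s * a →
      a * (r * s * r⁻¹) * a * (r * s * r⁻¹) = r⁻¹ * s * r * (r * s * r⁻¹) := by
    intro s hs
    congr 1
    calc a * (r * s * r⁻¹) * a = (a * r) * s * (r⁻¹ * a) := by group
      _ = (r⁻¹ * a) * s * (a * r) := by rw [ar]
      _ = r⁻¹ * (a * s) * a * r := by simp only [mul_assoc]
      _ = r⁻¹ * s * (a * a) * r := by rw [hs]; group
      _ = _ := by rw [ha2, mul_one]
  let X : Set G := {s | s ∈ N ∧ s ∈ D ∧ a * s = s * a}
  let φ : G → G := fun s => r⁻¹ * s * r * (r * s * r⁻¹)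
  have rD : ∀ s ∈ D, r * s * r⁻¹ ∈ D := fun s hs => by
    have := h.zconj_mem ha hy hs 1
    rwa [zpow_one] at this
  have maps : Set.MapsTo φ X X := by
    rintro s ⟨sN, sD, sa⟩
    have m : φ s ∈ N := mul_mem (Nr2 s sN) (Nr1 s sN)
    have e := ephi s sa
    have hv := rD s sD
    have hne : φ s ≠ 1 := fun e1 => h.ne_one sD (fpf s sN e1)
    have hno : ¬ OP2 a (r * s * r⁻¹) := by
      intro o
      apply o.not_four (h.sq hv)
      have := N2 _ m
      simp only [φ] at this
      rw [← e] at this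
      rw [← this]; simp only [pow_succ, pow_zero]; group
    have hnc : a * (r * s * r⁻¹) ≠ r * s * r⁻¹ * a := by
      intro e1
      apply hne
      simp only [φ]
      rw [← e, mul_assoc _ a]
      exact sq_mul_of_comm ha2 (h.sq hv) e1
    have hD := (h.four_of ha hv hno hnc).2
    refine ⟨m, by simp only [φ]; rw [← e]; exact hD, ?_⟩
    simp only [φ]; rw [← e]
    have := h.comm_conj ha hv hno
    calc a * (a * (r * s * r⁻¹) * a * (r * s * r⁻¹))
        = a * (a * (r * s * r⁻¹ * a * (r * s * r⁻¹))) := by group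
      _ = a * (r * s * r⁻¹ * a * (r * s * r⁻¹) * a) := by rw [this]
      _ = _ := by group
  have inj : Set.InjOn φ X := by
    rintro s ⟨sN, sD, -⟩ t ⟨tN, tD, -⟩ e
    have h1 : s * t = 1 := by
      apply fpf _ (mul_mem sN tN)
      have c := Nc _ (Nr2 t tN) _ (Nr1 s sN)
      have m : φ t ∈ N := mul_mem (Nr2 t tN) (Nr1 t tN)
      have := N2 _ m
      nth_rewrite 1 [← e] at this
      simp only [φ] at this
      rw [← this]
      calc r⁻¹ * (s * t) * r * (r * (s * t) * r⁻¹)
          = r⁻¹ * s * r * ((r⁻¹ * t * r) * (r * s * r⁻¹)) * (r * t * r⁻¹) := by group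
        _ = _ := by rw [c]; group
    calc s = s * t * t := by rw [mul_assoc, h.sq tD, mul_one]
      _ = t := by rw [h1, one_mul]
  have surj := ((Set.toFinite X).injOn_iff_bijOn_of_mapsTo maps).mp inj
  obtain ⟨s, ⟨sN, sD, sa⟩, es⟩ := surj.surjOn (show b ∈ X from ⟨bN, hb, hc⟩)
  exact ⟨r * s * r⁻¹, rD s sD, by rw [ephi s sa]; exact es⟩

end L2

end RI

end Cfsg.Agent.Root
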