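import Mathlib
import Cfsg.Agent.Root.RI2

/-! Root involutions: sets of odd partners in a class. -/

namespace Cfsg.Agent.Root

open Subgroup Cfsg.Agent.LocalEven
open scoped commutatorElement

variable {G : Type*} [Group G]

/-- the odd partners -/
def AS (D : Set G) (a : G) : Set G := {y | y ∈ D ∧ OP2 a y}

/-- one class under the generated group -/
def OneCl (D : Set G) : Prop := ∀ a ∈ D, ∀ b ∈ D, ∃ g ∈ closure D, b = g * a * g⁻¹

theorem mem_oddPartners {D : Set G} {a y : G} : y ∈ oddPartners D a ↔ y ∈ D ∧ OP2 a y :=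
  ⟨fun h => ⟨h.1, h.2.1.symm, h.2.2⟩, fun h => ⟨h.1, h.2.1.symm, h.2.2⟩⟩

theorem oddAdj_iff {D : Set G} {a y : G} : OddAdj D a y ↔ a ∈ D ∧ y ∈ D ∧ OP2 a y := Iff.rfl

theorem OP2_conj_iff {a b g : G} : OP2 (g * a * g⁻¹) (g * b * g⁻¹) ↔ OP2 a b := by
  refine ⟨fun h => ?_, fun h => h.conj g⟩
  have := h.conj g⁻¹
  simpa [mul_assoc] using this

theorem AS_conj' {D : Set G} {g : G} (h1 : ∀ d ∈ D, g * d * g⁻¹ ∈ D) (h2 : ∀ d ∈ D, g⁻¹ * d * g ∈ D)
    (a : G) : AS D (g * a * g⁻¹) = (fun x => g * x * g⁻¹) '' AS D a := by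
  ext y
  constructor
  · rintro ⟨hy, ho⟩
    refine ⟨g⁻¹ * y * g, ⟨h2 y hy, ?_⟩, by simp [mul_assoc]⟩
    rw [← OP2_conj_iff (g := g)]
    simpa [mul_assoc] using ho
  · rintro ⟨x, ⟨hx, ho⟩, rfl⟩
    exact ⟨h1 x hx, ho.conj g⟩

namespace RI

variable {D : Set G}

theorem conj_mem' (h : RI D) {g : G} (hg : g ∈ closure D) {d : G} (hd : d ∈ D) :
    g⁻¹ * d * g ∈ D := by simpa using h.conj_mem (inv_mem hg) hd

theorem AS_conj (h : RI D) {g : G} (hg : g ∈ closure D) (a : G) :
    AS D (g * a * g⁻¹) = (fun x => g * x * g⁻¹) '' AS D a :=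
  AS_conj' (fun _ hd => h.conj_mem hg hd) (fun _ hd => h.conj_mem' hg hd) a

theorem AS_conj_eq (h : RI D) {g : G} (hg : g ∈ closure D) {a b : G} (e : AS D a = AS D b) :
    AS D (g * a * g⁻¹) = AS D (g * b * g⁻¹) := by
  rw [h.AS_conj hg, h.AS_conj hg, e]

theorem AS_conjD (h : RI D) {g : G} (hg : g ∈ D) {a b : G} (e : AS D a = AS D b) :
    AS D (g * a * g) = AS D (g * b * g) := by
  have := h.AS_conj_eq (subset_closure hg) e
  rwa [h.inv hg] at this

theorem oneCl_of_conn (h : RI D) (hc : IsConnectedSet (OddAdj D) D) : OneCl D := by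
  intro a ha b hb
  have := hc a ha b hb
  clear hb
  induction this with
  | refl => exact ⟨1, one_mem _, by simp⟩
  | tail _ hbc ih =>
    obtain ⟨g, hg, e⟩ := ih
    obtain ⟨m, hm, -, e2⟩ := h.midpoint hbc.1 hbc.2.1 hbc.2.2.2
    refine ⟨m * g, mul_mem (subset_closure hm) hg, ?_⟩
    rw [← e2, e, mul_inv_rev, h.inv hm]; group

theorem AS_eq_of_subset [Finite G] (h : RI D) (hcl : OneCl D) {a b : G} (ha : a ∈ D) (hb : b ∈ D)
    (hs : AS D a ⊆ AS D b) : AS D a = AS D b := by
  obtain ⟨g, hg, rfl⟩ := hcl a ha b hb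
  apply Set.eq_of_subset_of_ncard_le hs _ (Set.toFinite _)
  rw [h.AS_conj hg, Set.ncard_image_of_injective]
  intro x y e
  simpa using e

theorem exists_AS_diff [Finite G] (h : RI D) (hcl : OneCl D) {a b : G} (ha : a ∈ D) (hb : b ∈ D)
    (hne : AS D a ≠ AS D b) : ∃ y ∈ D, OP2 a y ∧ ¬ OP2 b y := by
  by_contra hn
  push Not at hn
  exact hne (h.AS_eq_of_subset hcl ha hb fun y hy => ⟨hy.1, hn y hy.1 hy.2⟩)

theorem AS_eq_of_comm_eq (h : RI D) {d e : G} (hd : d ∈ D) (he : e ∈ D)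
    (hC : ∀ x ∈ D, x * d = d * x → x * e = e * x) (hC' : ∀ x ∈ D, x * e = e * x → x * d = d * x) :
    AS D e ⊆ AS D d := by
  rintro x ⟨hx, ho⟩
  refine ⟨hx, ?_⟩
  by_contra hn
  have h1 := h.comm_conj hd hx hn
  have h2 := hC _ (h.conjD d hd x hx) h1.symm
  have h3 : x * e * x * d = d * (x * e * x) := by
    calc x * e * x * d = x * (e * (x * d * x)) * x := by simp only [mul_assoc, h.sq hx, mul_one]
      _ = x * (x * d * x * e) * x := by rw [h2]
      _ = _ := by simp only [mul_assoc, h.mm hx]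
  have h4 := hC _ (h.conjD e he x hx) h3
  exact ho.not_comm_conj (h.sq he) (h.sq hx) h4.symm

/-- members with the same odd partners have the same commuting members -/
theorem comm_of_AS_eq [Finite G] (h : RI D) (hcl : OneCl D) {d e : G} (hd : d ∈ D) (he : e ∈ D)
    (hA : AS D d = AS D e) {x : G} (hx : x ∈ D) (hxd : x * d = d * x) : x * e = e * x := by
  by_contra hxe
  have hno : ¬ OP2 x e := by
    intro o
    have : x ∈ AS D d := by rw [hA]; exact ⟨hx, o.symm⟩
    exact this.2.not_comm (h.sq hd) (h.sq hx) hxd.symm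
  obtain ⟨h4, hc⟩ := h.four_of hx he hno hxe
  set c := x * e * x * e with hcdef
  have hx2 := h.sq hx
  have he2 := h.sq he
  have cx : x * e * x = c * e := by simp only [hcdef, mul_assoc, he2, mul_one]
  have xc : e * x * e = x * c := by simp only [hcdef, mul_assoc, h.mm hx]
  have hce : c * e ∈ D := cx ▸ h.conjD e he x hx
  have hxc : x * c ∈ D := xc ▸ h.conjD x hx e he
  have cce := h.comm_of_mul_mem hc he hce
  have cxc := h.comm_of_mul_mem hx hc hxc
  have A1 : AS D (c * e) = AS D e := by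
    have := h.AS_conjD hx hA
    rw [hxd, mul_assoc, hx2, mul_one, cx] at this
    rw [← this, hA]
  have A2 : AS D c = AS D e := by
    apply h.AS_eq_of_subset hcl hc he
    rintro y ⟨hy, o⟩
    rcases h.line_odd he hc (cce ▸ hce) hy o.symm with o2 | o2
    · exact ⟨hy, o2.symm⟩
    · rw [← A1, cce]; exact ⟨hy, o2.symm⟩
  by_cases hxA : AS D c = AS D x
  · let T : Set G := {t | t ∈ D ∧ AS D t = AS D c}
    have Tno : ∀ s ∈ T, ∀ t ∈ T, ¬ OP2 s t := by
      rintro s ⟨hs, es⟩ t ⟨ht, et⟩ o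
      have : t ∈ AS D t := by rw [et, ← es]; exact ⟨ht, o⟩
      exact OP2.irrefl t this.2
    have Tc : ∀ s ∈ T, ∀ t ∈ T, s * t * s ∈ T := by
      rintro s ⟨hs, es⟩ t ⟨ht, et⟩
      refine ⟨h.conjD t ht s hs, ?_⟩
      have := h.AS_conjD hs (et.trans es.symm)
      rw [this, mul_assoc, h.sq hs, mul_one, es]
    have hP := h.isPGroup_closure (T := T) (fun t ht => ht.1) Tc Tno
    have xT : x ∈ T := ⟨hx, hxA.symm⟩
    have eT : e ∈ T := ⟨he, A2.symm⟩
    have hperf : ⁅closure T, closure T⁆ = closure T := by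
      apply le_antisymm (commutator_le_self _)
      rw [closure_le]
      rintro t ⟨ht, et⟩
      obtain ⟨g, hg, rfl⟩ := hcl c hc t ht
      have gT : ∀ s ∈ T, g * s * g⁻¹ ∈ T := by
        rintro s ⟨hs, es⟩
        exact ⟨h.conj_mem hg hs, (h.AS_conj_eq hg es).trans et⟩
      have : g * c * g⁻¹ = ⁅g * x * g⁻¹, g * e * g⁻¹⁆ := by
        rw [commutatorElement_def, h.inv (gT x xT).1, h.inv (gT e eT).1, hcdef]; group
      show g * c * g⁻¹ ∈ ⁅closure T, closure T⁆
      rw [this]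
      exact commutator_mem_commutator (subset_closure (gT x xT)) (subset_closure (gT e eT))
    haveI : Group.IsNilpotent (closure T) := hP.isNilpotent
    have hb : closure T ≠ ⊥ := by
      intro e0
      have : x ∈ closure T := subset_closure xT
      rw [e0] at this
      exact h.ne_one hx this
    haveI : Nontrivial (closure T) := (nontrivial_iff_ne_bot _).mpr hb
    have hlt := Group.IsSolvable.commutator_lt_top_of_nontrivial (closure T)
    have hm : (commutator (closure T)).map (closure T).subtype = closure T := by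
      rw [commutator_def, map_commutator, ← MonoidHom.range_eq_map, range_subtype, hperf]
    apply hlt.ne
    apply map_injective (closure T).subtype_injective
    rw [hm, ← MonoidHom.range_eq_map, range_subtype]
  · obtain ⟨y, hy, o1, o2⟩ := h.exists_AS_diff hcl hc hx hxA
    obtain ⟨v, hv, ev⟩ := h.exists_com hc hy hx (cxc ▸ hxc) o1 o2
    have hc2 := h.sq hc
    have hvno : ¬ OP2 c v := by
      intro o
      apply o.not_four (h.sq hv)
      rw [← hx2, ← ev]; simp only [pow_succ, pow_zero]; group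
    have hvno' : ¬ OP2 e v := by
      intro o
      have : v ∈ AS D c := by rw [A2]; exact ⟨hv, o⟩
      exact hvno this.2
    have c1 := h.comm_conj he hv hvno'
    have e1 : v * c * v = c * x := by rw [← ev]; simp only [mul_assoc, h.mm hc]
    have A3 : AS D (c * x) = AS D (v * e * v) := by rw [← e1]; exact h.AS_conjD hv A2
    have A4 := h.AS_conjD he A3
    have e2 : e * (c * x) * e = x := by
      rw [← mul_assoc, ← cce, mul_assoc, mul_assoc, ← mul_assoc e x e, xc, cxc, h.mm hc]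
    have e3 : e * (v * e * v) * e = v * e * v := by rw [c1, mul_assoc, he2, mul_one]
    rw [e2, e3, ← A3] at A4
    rcases h.line_odd hx hc hxc hy o1.symm with o3 | o3
    · exact o2 o3.symm
    · have : y ∈ AS D x := by rw [A4, ← cxc]; exact ⟨hy, o3.symm⟩
      exact o2 this.2

theorem AS_eq_iff [Finite G] (h : RI D) (hcl : OneCl D) {d e : G} (hd : d ∈ D) (he : e ∈ D) :
    AS D d = AS D e ↔ commutingMembers D d = commutingMembers D e := by
  constructor
  · intro hA
    ext x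
    exact ⟨fun hx => ⟨hx.1, h.comm_of_AS_eq hcl hd he hA hx.1 hx.2⟩,
      fun hx => ⟨hx.1, h.comm_of_AS_eq hcl he hd hA.symm hx.1 hx.2⟩⟩
  · intro hC
    have h1 : ∀ x ∈ D, x * d = d * x → x * e = e * x := fun x hx hxd =>
      (show x ∈ commutingMembers D e from hC ▸ ⟨hx, hxd⟩).2
    have h2 : ∀ x ∈ D, x * e = e * x → x * d = d * x := fun x hx hxd =>
      (show x ∈ commutingMembers D d from hC ▸ ⟨hx, hxd⟩).2
    exact Set.Subset.antisymm (h.AS_eq_of_comm_eq he hd h2 h1) (h.AS_eq_of_comm_eq hd he h1 h2)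

theorem union_eq (h : RI D) {d : G} (hd : d ∈ D) :
    commutingMembers D d ∪ fourPartners D d = D \ AS D d := by
  ext x
  constructor
  · rintro (hx | hx)
    · exact ⟨hx.1, fun o => o.2.not_comm (h.sq hd) (h.sq hx.1) hx.2.symm⟩
    · exact ⟨hx.1, fun o => not_OP2_of_four hx.2 o.2⟩
  · rintro ⟨hx, hn⟩
    rcases h.tri hd hx with h1 | h1 | h1
    · exact Or.inl ⟨hx, h1.symm⟩
    · exact absurd ⟨hx, h1⟩ hn
    · exact Or.inr ⟨hx, h1.1⟩

/-- a collinear point with different commuting members is a commutator -/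
theorem exists_com_of_ne [Finite G] (h : RI D) (hcl : OneCl D) {a b : G} (ha : a ∈ D) (hb : b ∈ D)
    (hab : a * b ∈ D) (hne : AS D a ≠ AS D b) : ∃ v ∈ D, a * v * a * v = b := by
  obtain ⟨y, hy, o1, o2⟩ := h.exists_AS_diff hcl ha hb hne
  exact h.exists_com ha hy hb hab o1 o2

theorem exists_three [Finite G] (h : RI D) (hcl : OneCl D) {a b : G} (ha : a ∈ D) (hb : b ∈ D)
    (hab : a * b ∈ D) (hne : AS D a ≠ AS D b) :
    ∃ x ∈ D, orderOf (b * x) = 4 ∧ orderOf (a * x) = 3 := by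
  obtain ⟨v, hv, ev⟩ := h.exists_com_of_ne hcl ha hb hab hne
  have ha2 := h.sq ha
  have hb2 := h.sq hb
  have hv2 := h.sq hv
  have cab := h.comm_of_mul_mem ha hb hab
  have e1 : a * v * a = b * v := by rw [← ev]; simp only [mul_assoc, hv2, mul_one]
  have hbv : b * v ∈ D := e1 ▸ h.conjD v hv a ha
  have cbv := h.comm_of_mul_mem hb hv hbv
  have hne2 : AS D b ≠ AS D v := by
    intro e
    have := h.comm_of_AS_eq hcl hb hv e ha cab
    apply h.ne_one hb
    rw [← ev, mul_assoc _ a]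
    exact sq_mul_of_comm ha2 hv2 this
  obtain ⟨x, hx, ex⟩ := h.exists_com_of_ne hcl hb hv hbv hne2
  have hx2 := h.sq hx
  have e2 : x * b * x = b * v := by rw [← ex]; simp only [mul_assoc, h.mm hb]
  have e3 : x * v * x = v := by
    have : b * x * b ∈ D := h.conjD x hx b hb
    have e4 : b * x * b = v * x := by rw [← ex]; simp only [mul_assoc, hx2, mul_one]
    have c := h.comm_of_mul_mem hv hx (e4 ▸ this)
    rw [← c, mul_assoc, hx2, mul_one]
  have e5 : a * b * a = b := by rw [cab, mul_assoc, ha2, mul_one]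
  set w := a * x with hw
  have wi : w⁻¹ = x * a := by rw [hw, mul_inv_rev, h.inv ha, h.inv hx]
  have w1 : w * b * w⁻¹ = v := by
    rw [wi, hw]
    calc a * x * b * (x * a) = a * (x * b * x) * a := by group
      _ = (a * b * a) * (a * v * a) := by rw [e2]; simp only [mul_assoc, h.mm ha]
      _ = v := by rw [e5, e1, h.mm hb]
  have w2 : w * v * w⁻¹ = b * v := by
    rw [wi, hw]
    calc a * x * v * (x * a) = a * (x * v * x) * a := by group
      _ = b * v := by rw [e3, e1]
  have w3 : w * (b * v) * w⁻¹ = b := by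
    calc w * (b * v) * w⁻¹ = (w * b * w⁻¹) * (w * v * w⁻¹) := by group
      _ = b := by rw [w1, w2, cbv, h.mm hv]
  have orb : ∀ k : ℕ, w ^ (3 * k) * b * (w ^ (3 * k))⁻¹ = b ∧
      w ^ (3 * k + 1) * b * (w ^ (3 * k + 1))⁻¹ = v ∧
      w ^ (3 * k + 2) * b * (w ^ (3 * k + 2))⁻¹ = b * v := by
    have step : ∀ (n : ℕ) (s : G), w ^ (n + 1) * s * (w ^ (n + 1))⁻¹ =
        w * (w ^ n * s * (w ^ n)⁻¹) * w⁻¹ := by intro n s; rw [pow_succ']; group
    intro k
    induction k with
    | zero =>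
      refine ⟨by simp, by simpa using w1, ?_⟩
      rw [show 3 * 0 + 2 = 0 + 1 + 1 by ring, step, step]; simp [w1, w2]
    | succ k ih =>
      have i0 : w ^ (3 * (k + 1)) * b * (w ^ (3 * (k + 1)))⁻¹ = b := by
        rw [show 3 * (k + 1) = 3 * k + 2 + 1 by ring, step, ih.2.2, w3]
      have i1 : w ^ (3 * (k + 1) + 1) * b * (w ^ (3 * (k + 1) + 1))⁻¹ = v := by
        rw [step, i0, w1]
      refine ⟨i0, i1, ?_⟩
      rw [show 3 * (k + 1) + 2 = 3 * (k + 1) + 1 + 1 by ring, step, i1, w2]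
  have hbv' : b ≠ v := by
    intro e; apply h.ne_one hbv; rw [← e, hb2]
  have h3 : 3 ∣ orderOf w := by
    have hn := pow_orderOf_eq_one w
    obtain ⟨k, hk | hk | hk⟩ : ∃ k, orderOf w = 3 * k ∨ orderOf w = 3 * k + 1 ∨
        orderOf w = 3 * k + 2 := ⟨orderOf w / 3, by omega⟩
    · exact ⟨k, hk⟩
    · have := (orb k).2.1
      rw [← hk, hn] at this
      exact absurd (by simpa using this) hbv'
    · have := (orb k).2.2
      rw [← hk, hn] at this
      exact absurd (by simpa using this) (h.ne_one hv)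
  have hpos : orderOf w ≠ 0 := (orderOf_pos w).ne'
  have o3 : orderOf (w ^ (orderOf w / 3)) = 3 := orderOf_pow_orderOf_div hpos h3
  set m := orderOf w / 3
  have hx' : a * w ^ m ∈ D := h.refl_mem ha hx m
  have o3' : orderOf (a * (a * w ^ m)) = 3 := by rw [h.mm ha]; exact o3
  refine ⟨a * w ^ m, hx', ?_, o3'⟩
  have oax : OP2 (a * w ^ m) a := by
    refine OP2.symm ⟨fun e => ?_, by rw [o3']; decide⟩
    rw [← e, ha2] at o3'
    simp at o3'
  have hnc : b * (a * w ^ m) ≠ a * w ^ m * b := fun e =>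
    h.not_OP2_line hx' hb ha (cab ▸ hab) cab.symm e.symm oax
  have hno : ¬ OP2 b (a * w ^ m) := by
    intro o
    apply o.not_comm_conj hb2 (h.sq hx')
    have e6 : a * w ^ m * b * (a * w ^ m) = a * (w ^ m * b * (w ^ m)⁻¹) * a := by
      nth_rewrite 2 [← h.inv hx']
      rw [mul_inv_rev, h.inv ha]; group
    rw [e6]
    obtain ⟨k, hk | hk | hk⟩ : ∃ k, m = 3 * k ∨ m = 3 * k + 1 ∨ m = 3 * k + 2 :=
      ⟨m / 3, by omega⟩
    · rw [hk, (orb k).1, e5]
    · rw [hk, (orb k).2.1, e1, mul_assoc, ← cbv]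
    · have : a * (b * v) * a = v := by
        calc a * (b * v) * a = (a * b * a) * (a * v * a) := by simp only [mul_assoc, h.mm ha]
          _ = v := by rw [e5, e1, h.mm hb]
      rw [hk, (orb k).2.2, this, cbv]
  exact (h.four_of hb hx' hno hnc).1

end RI

end Cfsg.Agent.Root
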