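import Mathlib
import Cfsg.Agent.Root.RI3

/-! Root involutions with disconnected commuting graph: elementary part. -/

namespace Cfsg.Agent.Root

open Subgroup Cfsg.Agent.LocalEven

variable {G : Type*} [Group G] {D : Set G}

/-- same component of the commuting graph -/
abbrev Cn (D : Set G) (a b : G) : Prop := Relation.ReflTransGen (CommAdj D) a b

theorem Cn.symm {a b : G} (h : Cn D a b) : Cn D b a := by
  induction h with
  | refl => exact .refl
  | tail _ h ih => exact .head ⟨h.2.1, h.1, h.2.2.1.symm, h.2.2.2.symm⟩ ih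

theorem Cn.mem {a b : G} (h : Cn D a b) (ha : a ∈ D) : b ∈ D := by
  induction h with
  | refl => exact ha
  | tail _ h _ => exact h.2.1

theorem cn_of_comm {a b : G} (ha : a ∈ D) (hb : b ∈ D) (h : a * b = b * a) : Cn D a b := by
  by_cases e : a = b
  · rw [e]
  · exact .single ⟨ha, hb, e, h⟩

theorem Cn.conj (hD : ∀ d ∈ D, ∀ g : G, g * d * g⁻¹ ∈ D) {a b : G} (h : Cn D a b) (g : G) :
    Cn D (g * a * g⁻¹) (g * b * g⁻¹) := by
  induction h with
  | refl => exact .refl
  | @tail b c _ h ih =>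
    refine ih.trans (cn_of_comm (hD _ h.1 g) (hD _ h.2.1 g) ?_)
    calc g * b * g⁻¹ * (g * c * g⁻¹) = g * (b * c) * g⁻¹ := by group
      _ = _ := by rw [h.2.2.2]; group

theorem RI.cn_of_not_OP2 (h : RI D) {a b : G} (ha : a ∈ D) (hb : b ∈ D) (hn : ¬ OP2 a b) :
    Cn D a b := by
  rcases h.tri ha hb with c | c | ⟨-, c⟩
  · exact cn_of_comm ha hb c
  · exact absurd c hn
  · have c1 := h.comm_conj ha hb hn
    have c2 := h.comm_conj hb ha fun o => hn o.symm
    refine (cn_of_comm ha c ?_).trans (cn_of_comm c hb ?_)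
    · calc a * (a * b * a * b) = a * (a * (b * a * b)) := by group
        _ = _ := by rw [c1]; group
    · nth_rewrite 1 [← c2]
      group

theorem RI.op2_of_not_cn (h : RI D) {a b : G} (ha : a ∈ D) (hb : b ∈ D) (hn : ¬ Cn D a b) :
    OP2 a b := by
  by_contra o; exact hn (h.cn_of_not_OP2 ha hb o)

/-- stabiliser of the component of `x` -/
def St (hD : IsRootInvolutionSet D) (x : G) : Subgroup G where
  carrier := {g | Cn D x (g * x * g⁻¹)}
  one_mem' := by simpa using Relation.ReflTransGen.refl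
  mul_mem' := fun {a b} ha hb => by
    have := Relation.ReflTransGen.trans ha (Cn.conj hD.conj_mem hb a)
    simpa [mul_assoc] using this
  inv_mem' := fun {a} ha => by
    have := (Cn.conj hD.conj_mem ha a⁻¹).symm
    simpa [mul_assoc] using this

/-- product of two different commuting members of the component of `m` -/
def TP (D : Set G) (m t : G) : Prop :=
  ∃ a ∈ D, ∃ b ∈ D, Cn D m a ∧ a * b = b * a ∧ a ≠ b ∧ t = a * b

theorem sq_root_unique {u v : G} (hu : Odd (orderOf u)) (hv : Odd (orderOf v)) (h : u * u = v * v) :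
    u = v := by
  obtain ⟨k, hk⟩ := hu.mul hv
  have h1 : u ^ (2 * k + 1) = 1 := by rw [← hk, pow_mul, pow_orderOf_eq_one, one_pow]
  have h2 : v ^ (2 * k + 1) = 1 := by rw [← hk, mul_comm, pow_mul, pow_orderOf_eq_one, one_pow]
  calc u = u ^ (2 * k + 1) * u := by rw [h1, one_mul]
    _ = (u * u) ^ (k + 1) := by rw [← sq, ← pow_mul, ← pow_succ]; ring_nf
    _ = v ^ (2 * k + 1) * v := by rw [h, ← sq, ← pow_mul, ← pow_succ]; ring_nf
    _ = v := by rw [h2, one_mul]

section

variable (hD : IsRootInvolutionSet D)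
include hD

theorem mem_St {x g : G} : g ∈ St hD x ↔ Cn D x (g * x * g⁻¹) := Iff.rfl

theorem St_le {x y : G} (h : Cn D x y) : St hD x ≤ St hD y := fun g hg =>
  (h.symm.trans hg).trans (h.conj hD.conj_mem g)

theorem St_congr {x y : G} (h : Cn D x y) : St hD x = St hD y :=
  le_antisymm (St_le hD h) (St_le hD h.symm)

theorem mem_St_of_cn {x y : G} (h : Cn D x y) : y ∈ St hD x := by
  rw [St_congr hD h, mem_St]; simpa using Relation.ReflTransGen.refl

theorem cn_of_mem_St {x y : G} (hx : x ∈ D) (hy : y ∈ D) (h : y ∈ St hD x) : Cn D x y := by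
  have hR := RI.of_set hD
  by_contra hn
  obtain ⟨k, hk⟩ := exists_sq_pow_of_odd (hR.op2_of_not_cn hx hy hn).2
  have h1 : x * y * (x * y) ∈ St hD x := by
    have := mul_mem (mem_St_of_cn hD (.refl : Cn D x x)) (mem_St_of_cn hD h)
    rw [hR.inv hy] at this
    simpa [mul_assoc] using this
  obtain ⟨m, hm, mc, e⟩ := hR.midpoint hx hy (hR.op2_of_not_cn hx hy hn).2
  have : closure ({x, y} : Set G) ≤ St hD x := by
    rw [closure_le]
    rintro z (rfl | rfl)
    · exact mem_St_of_cn hD .refl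
    · exact h
  have := (mem_St hD).1 (this mc)
  rw [hR.inv hm, e] at this
  exact hn this

theorem TP.sq {m t : G} (h : TP D m t) : t * t = 1 := by
  obtain ⟨a, ha, b, hb, -, c, -, rfl⟩ := h
  exact sq_mul_of_comm ((RI.of_set hD).sq ha) ((RI.of_set hD).sq hb) c

theorem TP.ne_one {m t : G} (h : TP D m t) : t ≠ 1 := by
  obtain ⟨a, ha, b, hb, -, c, n, rfl⟩ := h
  intro e
  exact n (by rw [eq_inv_of_mul_eq_one_left e, (RI.of_set hD).inv hb])

theorem TP.conj {m t : G} (h : TP D m t) (g : G) : TP D (g * m * g⁻¹) (g * t * g⁻¹) := by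
  obtain ⟨a, ha, b, hb, k, c, n, rfl⟩ := h
  refine ⟨_, hD.conj_mem a ha g, _, hD.conj_mem b hb g, k.conj hD.conj_mem g, ?_,
    by simpa using n, by group⟩
  calc g * a * g⁻¹ * (g * b * g⁻¹) = g * (a * b) * g⁻¹ := by group
    _ = _ := by rw [c]; group

omit hD in
theorem TP.congr {m m' t : G} (h : TP D m t) (k : Cn D m m') : TP D m' t := by
  obtain ⟨a, ha, b, hb, k', c, n, rfl⟩ := h
  exact ⟨a, ha, b, hb, k.symm.trans k', c, n, rfl⟩

theorem TP.mem_St {m t g : G} (h : TP D m t) (hg : g * t = t * g) : g ∈ St hD m := by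
  have hR := RI.of_set hD
  have t2 := h.sq hD
  have t1 := h.ne_one hD
  obtain ⟨a, ha, b, hb, k, c, n, rfl⟩ := h
  rw [St_congr hD k, Root.mem_St]
  by_contra hn
  have ha' := hD.conj_mem a ha g
  have o := hR.op2_of_not_cn ha ha' hn
  have e : g * a * g⁻¹ * (g * b * g⁻¹) = a * b := by
    calc _ = g * (a * b) * g⁻¹ := by group
      _ = _ := by rw [hg]; group
  have c1 : Commute (a * b) a := by
    show a * b * a = a * (a * b)
    rw [mul_assoc, ← c]
  have c2 : Commute (a * b) (g * a * g⁻¹) := by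
    have p : Commute (a * b) g := hg.symm
    exact (p.mul_right c1).mul_right p.inv_right
  refine hR.two_m ha (hD.conj_mem b hb g) t2 t1 (c1.mul_right c2) o.2
    (o.mul_ne_one (hR.sq ha')) ?_
  rw [(c1.mul_right c2).eq, ← e, mul_assoc a, hR.mm ha']

theorem TP.cn {m t x : G} (h : TP D m t) (hm : m ∈ D) (hx : x ∈ D) (hg : x * t = t * x) :
    Cn D m x := cn_of_mem_St hD hm hx (h.mem_St hD hg)

theorem exists_mid_comm {y t : G} (hy : y ∈ D) (ht : t * t = 1)
    (ho : Odd (orderOf (y * (t * y * t⁻¹)))) :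
    ∃ n ∈ D, n ∈ closure ({y, t * y * t⁻¹} : Set G) ∧ n * t = t * n ∧ n * t * y = y * (n * t) := by
  have hR := RI.of_set hD
  obtain ⟨k, hk⟩ := ho
  have ti := inv_of_sq ht
  have e0 : y * (t * y * t⁻¹) = (y * t) ^ 2 := by rw [ti, sq]; group
  have h1 : (y * t) ^ (2 * (2 * k + 1)) = 1 := by rw [pow_mul, ← e0, ← hk]; exact pow_orderOf_eq_one _
  have y2 := hR.sq hy
  have e1 : y * (y * (t * y * t⁻¹)) ^ (k + 1) * t = y * (y * t) ^ (2 * k + 1) * y := by
    rw [e0, ← pow_mul, show 2 * (k + 1) = 2 * k + 1 + 1 by ring, pow_succ (y * t) (2 * k + 1)]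
    simp only [mul_assoc, ht, mul_one]
  have iy : y * (y * t) ^ (2 * k + 1) * y⁻¹ = ((y * t) ^ (2 * k + 1))⁻¹ := by
    rw [← conj_pow, ← inv_pow, mul_inv_rev, ti, hR.inv hy, hR.mm hy]
  have i2 : ((y * t) ^ (2 * k + 1))⁻¹ = (y * t) ^ (2 * k + 1) := by
    apply inv_of_sq; rw [← pow_add, ← two_mul, h1]
  rw [hR.inv hy, i2] at iy
  rw [iy] at e1
  have cy : Commute ((y * t) ^ (2 * k + 1)) y := by
    show _ * y = y * _
    nth_rewrite 1 [← iy]
    simp only [mul_assoc, y2, mul_one]
  have ct : Commute ((y * t) ^ (2 * k + 1)) t := by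
    have := cy.mul_right ((Commute.refl (y * t)).pow_left (2 * k + 1))
    rwa [hR.mm hy] at this
  refine ⟨_, hR.refl_mem hy (hD.conj_mem y hy t) (k + 1), ?_, ?_, ?_⟩
  · have m1 : y ∈ closure ({y, t * y * t⁻¹} : Set G) := subset_closure (by simp)
    have m2 : t * y * t⁻¹ ∈ closure ({y, t * y * t⁻¹} : Set G) := subset_closure (by simp)
    exact mul_mem m1 (pow_mem (mul_mem m1 m2) _)
  · have : y * (y * (t * y * t⁻¹)) ^ (k + 1) = (y * t) ^ (2 * k + 1) * t := by
      rw [← e1, mul_assoc _ t, ht, mul_one]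
    rw [e1, this, ← mul_assoc, ← ct.eq, mul_assoc, ht, mul_one]
  · rw [e1]; exact cy.eq

theorem TP.step {m t x : G} (h : TP D m t) (hm : m ∈ D) (hx : x ∈ D) (hn : ¬ Cn D m x)
    (ht : t ∈ St hD x) : TP D x (x * t * x * t) ∧ x * (t * x * t) = t * x * t * x := by
  have hR := RI.of_set hD
  have t2 := h.sq hD
  have ti := inv_of_sq t2
  have hx' := hD.conj_mem x hx t
  have k : Cn D x (t * x * t⁻¹) := ht
  have c : x * (t * x * t⁻¹) = t * x * t⁻¹ * x := by
    rcases hR.tri hx hx' with c | c | ⟨o, c⟩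
    · exact c
    · exfalso
      obtain ⟨n, hn', mc, c1, -⟩ := exists_mid_comm hD hx t2 c.2
      have : closure ({x, t * x * t⁻¹} : Set G) ≤ St hD x := by
        rw [closure_le]
        rintro z (rfl | rfl)
        · exact mem_St_of_cn hD .refl
        · exact mem_St_of_cn hD k
      exact hn ((h.cn hD hm hn' c1).trans (cn_of_mem_St hD hx hn' (this mc)).symm)
    · exfalso
      have no := not_OP2_of_four o
      have c1 := hR.comm_conj hx hx' no
      have c2 := hR.comm_conj hx' hx fun o => no o.symm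
      have k1 : Cn D x _ := cn_of_comm hx c (by
        calc x * (x * (t * x * t⁻¹) * x * (t * x * t⁻¹)) =
            x * (x * ((t * x * t⁻¹) * x * (t * x * t⁻¹))) := by group
          _ = _ := by rw [c1]; group)
      refine hn ((h.cn hD hm c ?_).trans k1.symm)
      nth_rewrite 1 [← c2]
      simp only [ti, mul_assoc, mul_mul_of_sq t2, t2, mul_one]
  rw [ti] at c hx'
  refine ⟨⟨x, hx, _, hx', .refl, c, fun e => hn (h.cn hD hm hx ?_), by group⟩, c⟩
  nth_rewrite 1 [e]
  rw [mul_assoc, t2, mul_one]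

end

end Cfsg.Agent.Root
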