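import Mathlib
import Cfsg.Agent.Root.RD1

/-! Root involutions with disconnected commuting graph: two-centrality. -/

namespace Cfsg.Agent.Root

open Subgroup Cfsg.Agent.LocalEven

variable {G : Type*} [Group G] {D : Set G}

theorem norm_split {A : Subgroup G} (Ac : ∀ x ∈ A, ∀ y ∈ A, x * y = y * x) (A2 : ∀ x ∈ A, x * x = 1)
    {n x t : G} (n2 : n * n = 1) (x2 : x * x = 1) (ho : Odd (orderOf (n * x)))
    (An : ∀ a ∈ A, n * a * n⁻¹ ∈ A) (Ax : ∀ a ∈ A, x * a * x⁻¹ ∈ A) (ht : t ∈ A) (hc : Commute n t) :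
    ∃ t₀ ∈ A, Commute t₀ n ∧ Commute t₀ x ∧ Odd (orderOf (n * t * t₀ * x)) := by
  have Ar : ∀ a ∈ A, n * x * a * (n * x)⁻¹ ∈ A := fun a ha => by
    have := An _ (Ax a ha); simpa [mul_assoc] using this
  have m := (norm_mem Ar).2 (orderOf (n * x)) t ht
  rw [pow_orderOf_eq_one, inv_one, mul_one] at m
  set t₀ := (t * (n * x)) ^ orderOf (n * x) with e0
  have c1 : Commute t₀ t := Ac _ m _ ht
  have c2 : Commute t₀ (n * x) := by
    have := c1.mul_right ((Commute.refl (t * (n * x))).pow_left (orderOf (n * x)))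
    rwa [mul_mul_of_sq (A2 t ht)] at this
  have c3 : Commute t₀ n := by
    have e1 : n * t₀ * n⁻¹ = (t * t₀ * t⁻¹)⁻¹ := by
      rw [e0, ← conj_pow, ← conj_pow, ← inv_pow]
      congr 1
      simp only [mul_inv_rev, inv_of_sq n2, inv_of_sq x2, inv_of_sq (A2 t ht), mul_assoc,
        mul_mul_of_sq (A2 t ht), A2 t ht, mul_one]
      rw [← mul_assoc n t, hc.eq]
      simp only [mul_assoc, mul_mul_of_sq n2]
    rw [← c1.eq, mul_inv_cancel_right, inv_of_sq (A2 _ m)] at e1
    show t₀ * n = n * t₀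
    rw [← e1, inv_mul_cancel_right, e1]
  have c4 : Commute t₀ x := by
    have := c3.mul_right c2
    rwa [mul_mul_of_sq n2] at this
  refine ⟨t₀, m, c3, c4, odd_orderOf_of_pow ho ?_⟩
  have e : n * t * t₀ * x = t₀ * (t * (n * x)) := by
    rw [hc.eq, mul_assoc t n, ← c3.eq, ← mul_assoc t, ← c1.eq]; group
  rw [e, (c1.mul_right c2).mul_pow, ← e0, ← pow_succ]
  obtain ⟨k, hk⟩ := ho
  rw [hk, show 2 * k + 1 + 1 = 2 * (k + 1) by ring, pow_mul, sq, A2 _ m, one_pow]

theorem RI.mem_of_odd (h : RI D) {u x : G} (hu : u * u = 1) (hx : x ∈ D) (ho : Odd (orderOf (u * x)))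
    (hD : ∀ d ∈ D, ∀ g : G, g * d * g⁻¹ ∈ D) : u ∈ D := by
  obtain ⟨k, hk⟩ := ho
  have h1 : (u * x) ^ (2 * k + 1) = 1 := by rw [← hk]; exact pow_orderOf_eq_one _
  have := Fischer.dihedral_midpoint hu (h.sq hx) h1
  have h2 := hD x hx (u * (u * x) ^ (k + 1))⁻¹
  have h3 : (u * (u * x) ^ (k + 1)) * (u * (u * x) ^ (k + 1)) = 1 := by
    have : u * (u * x) ^ (k + 1) * u⁻¹ = ((u * x) ^ (k + 1))⁻¹ := by
      rw [← conj_pow, ← inv_pow, mul_inv_rev, inv_of_sq hu, h.inv hx, mul_mul_of_sq hu]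
    rw [inv_of_sq hu] at this
    rw [← mul_assoc, this, inv_mul_cancel]
  generalize u * (u * x) ^ (k + 1) = w at this h2 h3
  rw [inv_inv, ← this, inv_of_sq h3] at h2
  simpa only [mul_assoc, mul_mul_of_sq h3, h3, mul_one] using h2

theorem ncard_modEq_conj [Finite G] {p : ℕ} [Fact p.Prime] {P : Subgroup G} (hP : IsPGroup p P)
    {X : Set G} (hX : ∀ s ∈ P, ∀ x ∈ X, s * x * s⁻¹ ∈ X) :
    X.ncard ≡ {x | x ∈ X ∧ ∀ s ∈ P, Commute s x}.ncard [MOD p] := by
  letI : MulAction P X :=
    { smul := fun s x => ⟨s * x * (s : G)⁻¹, hX s s.2 x x.2⟩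
      one_smul := fun x => Subtype.ext (by
        show ((1 : P) : G) * x * ((1 : P) : G)⁻¹ = x
        simp)
      mul_smul := fun a b x => Subtype.ext (by
        show ((a * b : P) : G) * x * ((a * b : P) : G)⁻¹ = a * (b * x * (b : G)⁻¹) * (a : G)⁻¹
        simp [mul_assoc]) }
  have := hP.card_modEq_card_fixedPoints X
  rw [Nat.card_coe_set_eq, Nat.card_coe_set_eq,
    ← Set.ncard_image_of_injective _ Subtype.val_injective] at this
  convert this using 2
  ext x
  constructor
  · rintro ⟨hx, h⟩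
    refine ⟨⟨x, hx⟩, fun s => Subtype.ext ?_, rfl⟩
    show (s : G) * x * (s : G)⁻¹ = x
    rw [(h s s.2).eq, mul_inv_cancel_right]
  · rintro ⟨y, hy, rfl⟩
    refine ⟨y.2, fun s hs => ?_⟩
    have : s * y * s⁻¹ = y := congrArg Subtype.val (hy ⟨s, hs⟩)
    exact mul_inv_eq_iff_eq_mul.1 this

variable (hD : IsRootInvolutionSet D)
include hD

theorem TP.exists_norm {n t x : G} (h : TP D n t) (hn : n ∈ D) (hx : x ∈ D) (hc : Commute n t)
    (hnx : ¬ Cn D n x) (ht : t ∈ St hD x) :
    ∃ t₀, t₀ * t₀ = 1 ∧ Commute t₀ n ∧ Commute t₀ x ∧ Commute t₀ t ∧ n * t * t₀ ∈ D := by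
  have hR := RI.of_set hD
  let g : ℕ → G := fun i => if Even i then x else n
  let f : ℕ → G := fun i => Nat.rec t (fun i u => g i * u * g i * u) i
  have fs : ∀ i, f (i + 1) = g i * f i * g i * f i := fun i => rfl
  have g2 : ∀ i, g (i + 1 + 1) = g i := fun i => by simp [g, Nat.even_add_one]
  have gD : ∀ i, g i ∈ D := fun i => by simp only [g]; split_ifs <;> assumption
  have gn : ∀ i, ¬ Cn D (g (i + 1)) (g i) := fun i => by
    simp only [g, Nat.even_add_one]
    split_ifs with a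
    · exact hnx
    · exact fun k => hnx k.symm
  have gg : ∀ i j, g j = g i ∨ g j = g (i + 1) := fun i j => by
    simp only [g, Nat.even_add_one]
    split_ifs <;> simp
  have nxt : ∀ i, TP D (g (i + 1)) (f i) → f i ∈ St hD (g i) →
      TP D (g i) (f (i + 1)) ∧ Commute (g i) (f (i + 1)) ∧ Commute (f i) (f (i + 1)) := by
    intro i a b
    obtain ⟨p, q⟩ := a.step hD (gD _) (gD _) (gn i) b
    refine ⟨p, ?_, ?_⟩
    · show g i * f (i + 1) = f (i + 1) * g i
      rw [fs]
      calc g i * (g i * f i * g i * f i) = g i * (g i * (f i * g i * f i)) := by group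
        _ = _ := by rw [q]; group
    · show f i * f (i + 1) = f (i + 1) * f i
      rw [fs]
      calc f i * (g i * f i * g i * f i) = (f i * g i * f i * g i) * f i := by group
        _ = _ := by rw [← q]; group
  have inv : ∀ i, TP D (g (i + 1)) (f i) ∧ Commute (g (i + 1)) (f i) ∧ f i ∈ St hD (g i) := by
    intro i
    induction i with
    | zero =>
      rw [show f 0 = t from rfl]
      exact ⟨by simpa [g] using h, by simpa [g] using hc, by simpa [g] using ht⟩
    | succ i ih =>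
      obtain ⟨p, q, r⟩ := nxt i ih.1 ih.2.2
      rw [g2]
      exact ⟨p, q, ih.1.mem_St hD r.symm.eq⟩
  have f2 : ∀ i, f i * f i = 1 := fun i => (inv i).1.sq hD
  have com : ∀ i, ∀ j ≤ i, Commute (f j) (f i) := by
    intro i
    induction i with
    | zero => intro j hj; rw [Nat.le_zero.1 hj]
    | succ i ih =>
      intro j hj
      rcases hj.eq_or_lt with rfl | hj
      · exact Commute.refl _
      rcases (Nat.lt_succ_iff.1 hj).eq_or_lt with rfl | hj
      · exact (nxt j (inv j).1 (inv j).2.2).2.2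
      have c0 := ih j hj.le
      rcases gg j i with e | e
      · have c1 := ih (j + 1) hj
        have c2 := (inv (j + 1)).2.1
        rw [g2, ← e] at c2
        have e1 : f j * g i * f j = g i * f (j + 1) := by
          rw [fs, ← e]; simp only [mul_assoc, hR.mm (gD i)]
        show f j * f (i + 1) = f (i + 1) * f j
        have : f j * f (i + 1) * f j = f (i + 1) := by
          calc f j * f (i + 1) * f j = (f j * g i * f j) * (f j * f i * f j) * (f j * g i * f j) *
                (f j * f i * f j) := by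
                rw [fs]; simp only [mul_assoc, mul_mul_of_sq (f2 j)]
            _ = g i * (f (j + 1) * f i) * (g i * f (j + 1)) * f i := by
                rw [e1, c0.eq, mul_assoc (f i), f2, mul_one]; group
            _ = f (i + 1) := by
                rw [c1.eq, c2.eq, fs i]; simp only [mul_assoc, mul_mul_of_sq (f2 _)]
        nth_rewrite 2 [← this]
        rw [mul_assoc _ (f j), f2, mul_one]
      · have c1 := (inv j).2.1
        rw [← e] at c1
        rw [fs]
        exact ((c1.symm.mul_right c0).mul_right c1.symm).mul_right c0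
  have com' : ∀ a ∈ Set.range f, ∀ b ∈ Set.range f, a * b = b * a := by
    rintro _ ⟨i, rfl⟩ _ ⟨j, rfl⟩
    rcases le_total i j with k | k
    · exact com j i k
    · exact (com i j k).symm
  have nrm : ∀ j, ∀ a ∈ closure (Set.range f), g j * a * (g j)⁻¹ ∈ closure (Set.range f) := by
    intro j
    apply conj_mem_closure
    rintro _ ⟨i, rfl⟩
    rcases gg i j with e | e
    · have := mul_mem (subset_closure ⟨i + 1, rfl⟩ : f (i + 1) ∈ closure (Set.range f))
        (subset_closure ⟨i, rfl⟩ : f i ∈ closure (Set.range f))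
      rw [fs, mul_assoc _ (f i), f2, mul_one] at this
      rwa [e, hR.inv (gD i)]
    · rw [e, (inv i).2.1.eq, mul_inv_cancel_right]
      exact subset_closure ⟨i, rfl⟩
  have tA : t ∈ closure (Set.range f) := subset_closure ⟨0, rfl⟩
  have Ac := comm_closure com'
  have A2 := sq_closure com' (by rintro _ ⟨i, rfl⟩; exact f2 i)
  obtain ⟨t₀, m, c1, c2, o⟩ := norm_split Ac A2 (hR.sq hn) (hR.sq hx)
    (hR.op2_of_not_cn hn hx hnx).2 (by simpa [g] using nrm 1) (by simpa [g] using nrm 0) tA hc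
  have c3 : Commute t₀ t := Ac _ m _ tA
  refine ⟨t₀, A2 _ m, c1, c2, c3, hR.mem_of_odd ?_ hx o hD.conj_mem⟩
  exact sq_mul_of_comm (sq_mul_of_comm (hR.sq hn) (A2 _ tA) hc) (A2 _ m) (c1.mul_right c3).symm.eq

theorem TP.mem_St_all {m t x y : G} (h : TP D m t) (hm : m ∈ D) (hx : x ∈ D) (hn : ¬ Cn D m x)
    (ht : t ∈ St hD x) (hy : y ∈ D) : t ∈ St hD y := by
  have hR := RI.of_set hD
  by_contra hty
  have t2 := h.sq hD
  have hy' := hD.conj_mem y hy t
  obtain ⟨n, nD, -, c1, c2⟩ := exists_mid_comm hD hy t2 (hR.op2_of_not_cn hy hy' hty).2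
  have k1 := h.cn hD hm nD c1
  have h' := h.congr k1
  have hnx : ¬ Cn D n x := fun k => hn (k1.trans k)
  obtain ⟨t₀, s0, p1, p2, p3, n1D⟩ := h'.exists_norm hD nD hx c1 hnx ht
  have c1' : Commute n t := c1
  have q1 : Commute n (n * t * t₀) := ((Commute.refl n).mul_right c1').mul_right p1.symm
  have k2 : Cn D n (n * t * t₀) := cn_of_comm nD n1D q1
  have ny : ¬ Cn D n y := fun k => hty (St_le hD k (h'.mem_St hD rfl))
  obtain ⟨u, uD, uc, eu⟩ := hR.midpoint nD hy (hR.op2_of_not_cn nD hy ny).2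
  obtain ⟨v, vD, vc, ev⟩ := hR.midpoint hy n1D
    (hR.op2_of_not_cn hy n1D fun k => ny (k2.trans k.symm)).2
  have z1 : n ∈ centralizer {n * t} :=
    mem_centralizer_singleton_iff.2 ((Commute.refl n).mul_right c1').eq
  have z2 : y ∈ centralizer {n * t} := mem_centralizer_singleton_iff.2 c2.symm
  have z3 : n * t * t₀ ∈ centralizer {n * t} :=
    mem_centralizer_singleton_iff.2 ((Commute.refl _).mul_left (p1.mul_right p3)).eq
  have u1 : u ∈ centralizer {n * t} :=
    (closure_le _).2 (by rintro z (rfl | rfl) <;> assumption) uc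
  have v1 : v ∈ centralizer {n * t} :=
    (closure_le _).2 (by rintro z (rfl | rfl) <;> assumption) vc
  have w := mem_centralizer_singleton_iff.1 (mul_mem v1 u1)
  have e1 : v * u * n * (v * u)⁻¹ = n * t * t₀ := by
    rw [← ev, ← eu, mul_inv_rev, hR.inv uD, hR.inv vD]; group
  have e2 : v * u * t * (v * u)⁻¹ = t₀ := by
    calc v * u * t * (v * u)⁻¹ = (v * u * n * (v * u)⁻¹) * (v * u * (n * t) * (v * u)⁻¹) := by
          simp only [mul_assoc, inv_mul_cancel_left, hR.mm nD, mul_inv_rev]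
      _ = t₀ := by
          rw [e1, w, mul_inv_cancel_right, mul_assoc, (p1.mul_right p3).eq, ← mul_assoc,
            sq_mul_of_comm (hR.sq nD) t2 c1, one_mul]
  have := h'.conj hD (v * u)
  rw [e1, e2] at this
  exact hnx (k2.trans (this.cn hD n1D hx p2.symm.eq))

theorem not_TP [IsSimpleGroup G] {m t x : G} (h : TP D m t) (hm : m ∈ D) (hx : x ∈ D)
    (hn : ¬ Cn D m x) : t ∉ St hD x := by
  intro ht
  let K : Subgroup G := ⨅ y ∈ D, St hD y
  have hK : K.Normal := ⟨fun k hk g => by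
    simp only [K, mem_iInf] at hk ⊢
    intro y hy
    have := Cn.conj hD.conj_mem (hk _ (hD.conj_mem y hy g⁻¹)) g
    rw [mem_St]
    simpa [mul_assoc] using this⟩
  have tK : t ∈ K := by
    simp only [K, mem_iInf]
    exact fun y hy => h.mem_St_all hD hm hx hn ht hy
  rcases hK.eq_bot_or_eq_top with e | e
  · rw [e] at tK; exact h.ne_one hD tK
  · have : m ∈ K := e ▸ mem_top m
    simp only [K, mem_iInf] at this
    exact hn (cn_of_mem_St hD hx hm (this x hx)).symm

theorem mid_unique {x m m' : G} (hx : x ∈ D) (hm : m ∈ D) (hm' : m' ∈ D)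
    (e : m * x * m = m' * x * m') (o : OP2 x (m * x * m)) : m = m' := by
  have hR := RI.of_set hD
  have key : ∀ m ∈ D, OP2 x (m * x * m) → Odd (orderOf (x * m)) := by
    intro m hm o
    by_contra hn
    have := hR.comm_conj hx hm fun k => hn k.2
    refine o.not_comm (hR.sq hx) (hR.sq (hR.conjD x hx m hm)) this
  have := sq_root_unique (key m hm o) (key m' hm' (e ▸ o)) (by
    calc x * m * (x * m) = x * (m * x * m) := by group
      _ = _ := by rw [e]; group)
  exact mul_left_cancel this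

theorem exists_two_central [Finite G] [IsSimpleGroup G] {d x : G} (hd : d ∈ D) (hx : x ∈ D)
    (hn : ¬ Cn D d x) : ∃ z ∈ D, Cn D d z ∧ ∃ S : Sylow 2 G, z ∈ S ∧ ∀ s ∈ S, Commute s z := by
  have hR := RI.of_set hD
  obtain ⟨m₀, hm₀, -, e₀⟩ := hR.midpoint hx hd (hR.op2_of_not_cn hx hd fun k => hn k.symm).2
  let M : Set G := {m | m ∈ D ∧ Cn D d (m * x * m)}
  let Δ : Set G := {y | y ∈ D ∧ Cn D d y}
  have sw : ∀ m ∈ M, Cn D x (m * d * m) := fun m hm => by
    have := (hm.2.conj hD.conj_mem m).symm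
    simpa only [hR.inv hm.1, mul_assoc, hR.mm hm.1, hR.sq hm.1, mul_one] using this
  have m0M : m₀ ∈ M := ⟨hm₀, by rw [e₀]⟩
  have c1 : M.ncard = Δ.ncard := by
    refine Set.ncard_congr (fun m _ => m * x * m) (fun m hm => ⟨hR.conjD x hx m hm.1, hm.2⟩)
      (fun a b ha hb e => mid_unique hD hx ha.1 hb.1 e
        (hR.op2_of_not_cn hx (hR.conjD x hx a ha.1) fun k => hn (ha.2.trans k.symm))) ?_
    intro y hy
    obtain ⟨m, hm, -, e⟩ := hR.midpoint hx hy.1
      (hR.op2_of_not_cn hx hy.1 fun k => hn (hy.2.trans k.symm)).2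
    exact ⟨m, ⟨hm, e ▸ hy.2⟩, e⟩
  have mz : ∀ s ∈ zpowers m₀, s = 1 ∨ s = m₀ := by
    rintro _ ⟨k, rfl⟩
    rcases Int.even_or_odd' k with ⟨j, rfl | rfl⟩
    · left; simp only [zpow_mul, zpow_two, hR.sq hm₀, one_zpow]
    · right; simp only [zpow_add, zpow_mul, zpow_two, hR.sq hm₀, one_zpow, one_mul, zpow_one]
  have c2 := ncard_modEq_conj (p := 2) (P := zpowers m₀) (X := M)
    (isPGroup_of_sq fun s hs => by rcases mz s hs with rfl | rfl <;> simp [hR.sq hm₀]) (by
      intro s hs m hm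
      rcases mz s hs with rfl | rfl
      · simpa using hm
      refine ⟨hD.conj_mem m hm.1 s, ?_⟩
      have := (sw m hm).conj hD.conj_mem s
      rw [hR.inv hm₀, e₀, ← e₀] at this
      rw [← e₀]
      simpa only [hR.inv hm₀, mul_assoc, hR.mm hm₀] using this)
  have e1 : {m | m ∈ M ∧ ∀ s ∈ zpowers m₀, Commute s m} = {m₀} := by
    ext m
    constructor
    · rintro ⟨hm, c⟩
      by_contra ne
      have c := c m₀ (mem_zpowers m₀)
      have tt : TP D m₀ (m₀ * m) := ⟨m₀, hm₀, m, hm.1, .refl, c, fun e => ne e.symm, rfl⟩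
      have s1 : m₀ * m ∈ St hD x := by
        have := (hm.2.conj hD.conj_mem m₀)
        rw [mem_St, mul_inv_rev, hR.inv hm.1]
        rw [← e₀] at this
        simpa only [hR.inv hm₀, mul_assoc, hR.mm hm₀, hR.sq hm₀, mul_one] using this
      have s2 : m₀ * m ∈ St hD d := by
        have := (sw m hm).conj hD.conj_mem m₀
        rw [mem_St, mul_inv_rev, hR.inv hm.1]
        rw [hR.inv hm₀, e₀] at this
        simpa only [hR.inv hm₀, mul_assoc] using this
      by_cases k : Cn D m₀ x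
      · exact not_TP hD tt hm₀ hd (fun k' => hn (k'.symm.trans k)) s2
      · exact not_TP hD tt hm₀ hx k s1
    · rintro rfl
      refine ⟨m0M, fun s hs => ?_⟩
      rcases mz s hs with rfl | rfl
      · exact Commute.one_left _
      · exact Commute.refl _
  rw [e1, Set.ncard_singleton, c1] at c2
  obtain ⟨S, hS⟩ := (isPGroup_of_sq (H := closure {d}) (sq_closure (by simp)
    (by simpa using hR.sq hd))).exists_le_sylow
  have dS : d ∈ S := hS (subset_closure rfl)
  have c3 := ncard_modEq_conj (X := Δ) S.isPGroup' (by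
    intro s hs y hy
    refine ⟨hD.conj_mem y hy.1 s, Relation.ReflTransGen.trans ?_ (hy.2.conj hD.conj_mem s)⟩
    refine hR.cn_of_not_OP2 hd (hD.conj_mem d hd s) fun o => o.mul_ne_one
      (hR.sq (hD.conj_mem d hd s)) (eq_one_of_isPGroup_two_of_odd S.isPGroup' ?_ o.2)
    exact mul_mem dS (mul_mem (mul_mem hs dS) (inv_mem hs)))
  obtain ⟨z, hz, c⟩ : {y | y ∈ Δ ∧ ∀ s ∈ (S : Subgroup G), Commute s y}.Nonempty := by
    rw [Set.nonempty_iff_ne_empty]
    intro e
    rw [e, Set.ncard_empty] at c3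
    exact absurd (c2.symm.trans c3) (by decide)
  refine ⟨z, hz.1, hz.2, S, ?_, c⟩
  have h2 : IsPGroup 2 (closure {z} : Subgroup G) :=
    isPGroup_of_sq (sq_closure (by simp) (by simpa using hR.sq hz.1))
  have h3 : closure {z} ≤ normalizer ((S : Subgroup G) : Set G) := by
    rw [closure_le, Set.singleton_subset_iff]
    exact centralizer_le_normalizer _ fun s hs => c s hs
  have := S.is_maximal' (S.isPGroup'.to_sup_of_normal_left' h2 h3) le_sup_left
  have m : z ∈ (S : Subgroup G) ⊔ closure {z} := mem_sup_right (subset_closure rfl)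
  rwa [this] at m

end Cfsg.Agent.Root
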