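import Mathlib
import Cfsg.Agent.Root.Cmp
import Cfsg.Agent.Root.Q1

/-! Degenerate classes of abstract root subgroups: rank one pairs are special. -/

namespace Cfsg.Agent.Root

open Subgroup Cfsg.Agent.LocalEven
open scoped commutatorElement

variable {G : Type*} [Group G]

theorem cube_add {M : Type*} [AddCommGroup M] (P Q : AddSubgroup M) (α ε : M →+ M)
    (h1 : ∀ x, α x - x ∈ P) (h2 : ∀ x, ε x - x ∈ Q) (h3 : ∀ x ∈ P, x ∈ Q → x = 0)
    (h4 : ∀ v ∈ P, α (ε (ε (α v))) ∈ Q) (h5 : ∀ v ∈ P, α (α (ε (α (α v)))) ∈ Q)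
    (h6 : ∀ w ∈ Q, α (α (ε (α (α w)))) ∈ P) :
    ∀ v ∈ P, α (α (α (α (α (α v))))) = α (α (α v)) := by
  have aP : ∀ v ∈ P, α v ∈ P := fun v hv => by simpa using add_mem (h1 v) hv
  have aP' : ∀ v, α v ∈ P → v ∈ P := fun v hv => by simpa using sub_mem hv (h1 v)
  have eQ : ∀ v ∈ Q, ε v ∈ Q := fun v hv => by simpa using add_mem (h2 v) hv
  have R1 : ∀ v ∈ P, α (ε (ε (α v))) - ε (ε (α v)) + α v = 0 := by
    intro v hv
    apply h3 _ (add_mem (h1 _) (aP v hv))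
    have := sub_mem (h4 v hv) (add_mem (h2 (ε (α v))) (h2 (α v)))
    convert this using 1; abel
  have R2 : ∀ v ∈ P, α (α (ε (α (α v)))) - ε (α (α v)) + α (α v) = 0 := by
    intro v hv
    apply h3
    · have := add_mem (add_mem (h1 (α (ε (α (α v))))) (h1 (ε (α (α v))))) (aP _ (aP v hv))
      convert this using 1; abel
    · have := sub_mem (h5 v hv) (h2 (α (α v)))
      convert this using 1; abel
  have R3 : ∀ w ∈ Q, ε (α (α w)) - α (α w) + w = 0 := by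
    intro w hw
    apply h3
    · have := sub_mem (aP' _ (aP' _ (h6 w hw))) (add_mem (h1 (α w)) (h1 w))
      convert this using 1; abel
    · exact add_mem (h2 _) hw
  intro v hv
  obtain ⟨u, hu⟩ : ∃ u, u = α (α v) := ⟨_, rfl⟩
  have r2 := R2 v hv
  have r2' := R2 _ (aP _ (aP v hv))
  have r1 := R1 _ (aP v hv)
  have r3 := R3 _ (h2 u)
  rw [← hu] at r2 r2' r1 ⊢
  have e1 : α (α (ε u)) = ε u - u := by rw [← sub_eq_zero, ← r2]; abel
  simp only [AddMonoidHom.map_sub, e1] at r3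
  have e2 : ε (ε u) = ε u + ε (α (α u)) - α (α u) := by rw [← sub_eq_zero, ← r3]; abel
  rw [e2] at r1
  simp only [AddMonoidHom.map_sub, AddMonoidHom.map_add] at r1
  have r4 := congrArg α r1
  simp only [AddMonoidHom.map_sub, AddMonoidHom.map_add, AddMonoidHom.map_zero, e1] at r4
  have e3 : α (α (ε (α (α u)))) = ε (α (α u)) - α (α u) := by rw [← sub_eq_zero, ← r2']; abel
  rw [e3] at r4
  rw [← sub_eq_zero, ← neg_eq_zero]
  have := congrArg₂ (· + ·) r1 r4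
  simp only [add_zero] at this
  rw [← this]; abel

theorem cube_comm {H : Type*} [Group H] (P Q V : Subgroup H) (hP : P ≤ V) (hQ : Q ≤ V)
    (hc : Com V V) (hi : ∀ x ∈ P, x ∈ Q → x = 1) (a e : H)
    (h1 : ∀ x ∈ V, a * x * a⁻¹ * x⁻¹ ∈ P) (h2 : ∀ x ∈ V, e * x * e⁻¹ * x⁻¹ ∈ Q)
    (h4 : ∀ v ∈ P, (a * (e * e) * a) * v * (a * (e * e) * a)⁻¹ ∈ Q)
    (h5 : ∀ v ∈ P, (a * a * e * (a * a)) * v * (a * a * e * (a * a))⁻¹ ∈ Q)
    (h6 : ∀ v ∈ Q, (a * a * e * (a * a)) * v * (a * a * e * (a * a))⁻¹ ∈ P) :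
    ∀ v ∈ P, a ^ 3 * v = v * a ^ 3 := by
  letI : CommGroup V := { (inferInstance : Group V) with
    mul_comm := fun x y => Subtype.ext (hc x x.2 y y.2) }
  let f : ∀ g : H, (∀ x ∈ V, g * x * g⁻¹ ∈ V) → V →* V := fun g hg =>
    { toFun := fun x => ⟨g * x * g⁻¹, hg x x.2⟩
      map_one' := Subtype.ext (by simp)
      map_mul' := fun x y => Subtype.ext (by simp) }
  have ha : ∀ x ∈ V, a * x * a⁻¹ ∈ V := fun x hx => by simpa using mul_mem (hP (h1 x hx)) hx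
  have he : ∀ x ∈ V, e * x * e⁻¹ ∈ V := fun x hx => by simpa using mul_mem (hQ (h2 x hx)) hx
  have := cube_add (M := Additive V) (P.subgroupOf V).toAddSubgroup (Q.subgroupOf V).toAddSubgroup
    (MonoidHom.toAdditive (f a ha)) (MonoidHom.toAdditive (f e he))
    (fun x => by have := h1 _ x.toMul.2; rw [← div_eq_mul_inv] at this; exact this)
    (fun x => by have := h2 _ x.toMul.2; rw [← div_eq_mul_inv] at this; exact this)
    (fun x a b => Subtype.ext (hi _ a b))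
    (fun v hv => by
      have := h4 _ hv
      show a * (e * (e * (a * (v.toMul : H) * a⁻¹) * e⁻¹) * e⁻¹) * a⁻¹ ∈ Q
      convert this using 1; simp only [Subgroup.coe_subtype]; group)
    (fun v hv => by
      have := h5 _ hv
      show a * (a * (e * (a * (a * (v.toMul : H) * a⁻¹) * a⁻¹) * e⁻¹) * a⁻¹) * a⁻¹ ∈ Q
      convert this using 1; simp only [Subgroup.coe_subtype]; group)
    (fun v hv => by
      have := h6 _ hv
      show a * (a * (e * (a * (a * (v.toMul : H) * a⁻¹) * a⁻¹) * e⁻¹) * a⁻¹) * a⁻¹ ∈ P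
      convert this using 1; simp only [Subgroup.coe_subtype]; group)
  intro v hv
  have e1 : a * (a * (a * (a * (a * (a * v * a⁻¹) * a⁻¹) * a⁻¹) * a⁻¹) * a⁻¹) * a⁻¹ =
      a * (a * (a * v * a⁻¹) * a⁻¹) * a⁻¹ :=
    congrArg (fun x : Additive V => (x.toMul : H)) (this (Additive.ofMul ⟨v, hP hv⟩) hv)
  calc a ^ 3 * v = (a ^ 3)⁻¹ * (a * (a * (a * (a * (a * (a * v * a⁻¹) * a⁻¹) * a⁻¹) * a⁻¹) * a⁻¹) *
        a⁻¹) * a ^ 6 := by group
    _ = v * a ^ 3 := by rw [e1]; group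

namespace RS

variable {S : Set (Subgroup G)} (hS : RS S)
include hS

theorem cj_ne_of_com {A B C : Subgroup G} (hA : A ∈ S) (hB : B ∈ S) (hC : C ∈ S)
    (h1 : IsRankOnePair A B) (hAC : Com A C) (hne : C ≠ A) {a c : G} (ha : a ∈ A) (hc : c ∈ C)
    (e : cj c B = cj a B) : a = 1 := by
  by_contra a1
  have := (hS.mem_om_of_cj_eq hA hB hC h1 ha a1 hc e).1
  exact hne (om_eq_of_com h1 this left_mem_om hAC.symm)

theorem sp_of_triple {A B C : Subgroup G} (hA : A ∈ S) (hB : B ∈ S) (hC : C ∈ S)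
    (h1 : IsRankOnePair A B) (h2 : IsRankOnePair C B) (hAC : Com A C) (hne : C ≠ A) : Sp C B := by
  intro c hc b hb ec
  have b1 := r1_ne_one_right h2 hc ec
  obtain ⟨a, ha, -, ea⟩ := r1_cond (r1_symm h1) hb b1
  obtain ⟨c', hc', -, ec'⟩ := r1_cond (r1_symm h2) (inv_mem hb) (inv_ne_one.2 b1)
  have cm : Com (cj c⁻¹ (cj b A)) B := by
    have := (hAC.cj b).cj c⁻¹
    rwa [ec, cj_inv_cj] at this
  have fx : cj b (cj c⁻¹ (cj b A)) = cj c⁻¹ (cj b A) := cm.symm.cj_eq hb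
  have m : b⁻¹ * c * b ∈ cj c' B := by rw [ec']; simpa using conj_mem_cj (g := b⁻¹) hc
  obtain ⟨b₁, hb₁, e1⟩ := mem_cj'.1 m
  have b11 : b₁ ≠ 1 := by
    rintro rfl
    apply r1_ne_one_left h2 hb ec
    have : b⁻¹ * c * b = 1 := by rw [← e1]; group
    calc c = b * (b⁻¹ * c * b) * b⁻¹ := by group
      _ = 1 := by rw [this]; group
  obtain ⟨a₁, ha₁, -, ea₁⟩ := r1_cond (r1_symm h1) (inv_mem hb₁) (inv_ne_one.2 b11)
  have cA : ∀ x ∈ C, cj x A = A := fun x hx => hAC.symm.cj_eq hx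
  have k1 : cj (b⁻¹ * c * b) (cj c⁻¹ (cj b A)) = A := by
    rw [cj_mul, fx, cj_mul, cj_cj_inv, cj_inv_cj]
  have k2 : cj a₁ B = cj (c'⁻¹ * c⁻¹ * a) B := by
    rw [ea₁, cj_mul, cj_mul, ea]
    nth_rewrite 1 [← cA _ (inv_mem hc'), ← k1]
    rw [← e1]
    simp only [cj_cj]
    congr 1; group
  have k3 : cj (c'⁻¹ * c⁻¹) B = cj (a⁻¹ * a₁) B := by
    rw [cj_mul a⁻¹, k2, cj_cj]
    congr 1
    have := hAC a ha _ (mul_mem (inv_mem hc') (inv_mem hc))
    rw [← this]; group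
  have k4 := hS.cj_ne_of_com hA hB hC h1 hAC hne (mul_mem (inv_mem ha) ha₁)
    (mul_mem (inv_mem hc') (inv_mem hc)) k3
  rw [k4, cj_one] at k3
  have k5 := r1_eq_one h2 (mul_mem (inv_mem hc') (inv_mem hc)) k3
  rw [← ec']
  congr 1
  calc c' = c' * (c'⁻¹ * c⁻¹) := by rw [k5, mul_one]
    _ = c⁻¹ := by group

end RS

/-- same commuting partners -/
def Blk (S : Set (Subgroup G)) (E F : Subgroup G) : Prop :=
  ∀ T ∈ S, (T ≠ E ∧ Com T E) ↔ (T ≠ F ∧ Com T F)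

/-- the group generated by a block -/
def JB (S : Set (Subgroup G)) (E : Subgroup G) : Subgroup G := ⨆ F ∈ {F | F ∈ S ∧ Blk S E F}, F

variable {S : Set (Subgroup G)}

theorem Blk.refl (E : Subgroup G) : Blk S E E := fun _ _ => Iff.rfl

theorem Blk.symm {E F : Subgroup G} (h : Blk S E F) : Blk S F E := fun T hT => (h T hT).symm

theorem Blk.trans {E F K : Subgroup G} (h : Blk S E F) (h' : Blk S F K) : Blk S E K :=
  fun T hT => (h T hT).trans (h' T hT)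

theorem Blk.cj (hS : IsRootSubgroupSet S) {E F : Subgroup G} (h : Blk S E F) (g : G) :
    Blk S (cj g E) (cj g F) := by
  intro T hT
  have := h (LocalEven.cj g⁻¹ T) (hS.conj_mem T hT g⁻¹)
  rw [← cj_cj_inv g T, com_cj_iff, com_cj_iff, Ne, Ne, cj_inj, cj_inj]
  exact this

theorem le_JB {E F : Subgroup G} (hF : F ∈ S) (h : Blk S E F) : F ≤ JB S E :=
  le_iSup_mem (T := {F | F ∈ S ∧ Blk S E F}) ⟨hF, h⟩

theorem JB_congr {E F : Subgroup G} (h : Blk S E F) : JB S E = JB S F := by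
  unfold JB
  have : {K | K ∈ S ∧ Blk S E K} = {K | K ∈ S ∧ Blk S F K} := by
    ext K; exact ⟨fun a => ⟨a.1, h.symm.trans a.2⟩, fun a => ⟨a.1, h.trans a.2⟩⟩
  rw [this]

theorem cj_JB (hS : IsRootSubgroupSet S) (g : G) (E : Subgroup G) :
    cj g (JB S E) ≤ JB S (cj g E) :=
  cj_iSup_le fun F hF => ⟨hS.conj_mem F hF.1 g, hF.2.cj hS g⟩

theorem com_JB {E T : Subgroup G} (hT : T ∈ S) (hne : T ≠ E) (h : Com T E) : Com (JB S E) T :=
  com_iSup fun _ hF => ((hF.2 T hT).1 ⟨hne, h⟩).2.symm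

theorem blk_cj_of_mem (hS : IsRootSubgroupSet S) {E : Subgroup G} {g : G} (hg : g ∈ JB S E) :
    Blk S E (cj g E) := by
  intro T hT
  constructor
  · rintro ⟨h1, h2⟩
    have e : cj g T = T := (com_JB hT h1 h2).cj_eq hg
    rw [← e, com_cj_iff, Ne, cj_inj]; exact ⟨h1, h2⟩
  · rintro ⟨h1, h2⟩
    have h3 : cj g⁻¹ T ≠ E := fun e => h1 (by rw [← e, cj_cj_inv])
    have h4 : Com (cj g⁻¹ T) E := by rw [← com_cj_iff (g := g), cj_cj_inv]; exact h2
    have e := (com_JB (hS.conj_mem T hT g⁻¹) h3 h4).cj_eq hg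
    change cj g (cj g⁻¹ T) = cj g⁻¹ T at e
    rw [cj_cj_inv] at e
    rw [e]; exact ⟨h3, h4⟩

/-- the kernel of the action on the blocks of a rank one group -/
def QB (hS : IsRootSubgroupSet S) (A D : Subgroup G) : Subgroup G where
  carrier := {g | ∀ E ∈ Om A D, Blk S E (cj g E)}
  one_mem' := fun E _ => by rw [cj_one]; exact Blk.refl E
  mul_mem' := fun {a b} ha hb E hE => by
    rw [cj_mul]; exact (ha E hE).trans ((hb E hE).cj hS a)
  inv_mem' := fun {a} ha E hE => by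
    have := (ha E hE).cj hS a⁻¹
    rw [cj_inv_cj] at this; exact this.symm

theorem conj_mem_QB (hS : IsRootSubgroupSet S) {A D : Subgroup G} {x q : G} (hx : x ∈ A ⊔ D)
    (hq : q ∈ QB hS A D) : x * q * x⁻¹ ∈ QB hS A D := by
  intro E hE
  have := (hq _ (cj_mem_om hE (inv_mem hx))).cj hS x
  rwa [cj_cj_inv, cj_cj, cj_cj] at this

theorem conj_mem_JB (hS : IsRootSubgroupSet S) {A D E : Subgroup G} (hE : E ∈ Om A D) {q x : G}
    (hq : q ∈ QB hS A D) (hx : x ∈ JB S E) : q * x * q⁻¹ ∈ JB S E := by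
  rw [JB_congr (hq E hE)]; exact cj_JB hS q E (conj_mem_cj hx)

section Config

variable (hS : IsRootSubgroupSet S) (hd : IsDegenerateRootSet S) {A C D : Subgroup G}
  (hA : A ∈ S) (hC : C ∈ S) (hD : D ∈ S) (h1 : IsRankOnePair A D) (h2 : IsRankOnePair C D)
  (hAC : Com A C) (hne : C ≠ A)
include hS hA hC hD h1 h2 hAC

theorem uniq_com {a c d : G} (ha : a ∈ A) (hc : c ∈ C) (hd : d ∈ D) (e : cj d C = cj c D)
    (hcm : Com (cj a D) (cj c D)) : cj d A = cj a D := by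
  have c1 := r1_ne_one_left h2 hd e
  by_cases a1 : a = 1
  · rw [a1, cj_one] at hcm
    exact absurd hcm (r1_not_com (r1_cj_self h2 hc c1))
  obtain ⟨d₁, hd₁, -, e1⟩ := r1_cond h1 ha a1
  by_cases e2 : d₁⁻¹ * d = 1
  · rw [← e1, ← inv_mul_eq_one.1 e2]
  · exfalso
    obtain ⟨c', hc', -, e3⟩ := r1_cond (r1_symm h2) (mul_mem (inv_mem hd₁) hd) e2
    rw [← e1, ← e, ← com_cj_iff (g := d₁⁻¹), cj_inv_cj, cj_cj, ← e3,
      ← hAC.symm.cj_eq hc', com_cj_iff] at hcm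
    exact r1_not_com h1 hcm

include hne

theorem eq_one_of_blk {a : G} (ha : a ∈ A) (hb : Blk S D (cj a D)) : a = 1 := by
  by_contra a1
  obtain ⟨d, hd, d1, e1⟩ := r1_cond h1 ha a1
  obtain ⟨c, hc, c1, e2⟩ := r1_cond (r1_symm h2) hd d1
  have := (hb (cj c D) (hS.conj_mem D hD c)).2 ⟨fun e => a1
    ((rs_of hS).cj_ne_of_com hA hD hC h1 hAC hne ha hc e), by
      rw [e2, ← e1, com_cj_iff]; exact hAC.symm⟩
  exact r1_not_com (r1_cj_self h2 hc c1) this.2.symm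

include hd

omit hD h1 h2 in
theorem blk_triple {A' D' : Subgroup G} (h1 : IsRankOnePair A D) (h2 : IsRankOnePair C D)
    (hD : D ∈ S) (hA' : A' ∈ S) (hD' : D' ∈ S) (b1 : Blk S A A') (b2 : Blk S D D') :
    IsRankOnePair A' D' ∧ IsRankOnePair C D' ∧ Com A' C ∧ C ≠ A' := by
  obtain ⟨n1, c1⟩ := (b1 C hC).1 ⟨hne, hAC.symm⟩
  have r2 : IsRankOnePair C D' := by
    refine (deg_tri hS hd hC hD').resolve_left fun c => ?_
    by_cases e : C = D'
    · subst e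
      exact r1_not_com h1 ((b2 A hA).2 ⟨hne.symm, hAC⟩).2
    · exact r1_not_com h2 ((b2 C hC).2 ⟨e, c⟩).2
  refine ⟨(deg_tri hS hd hA' hD').resolve_left fun c => ?_, r2, c1.symm, n1⟩
  have n2 : A' ≠ D' := by rintro rfl; exact r1_not_com r2 c1
  obtain ⟨n3, c3⟩ := (b2 A' hA').2 ⟨n2, c⟩
  exact r1_not_com h1 ((b1 D hD).2 ⟨n3.symm, c3.symm⟩).2.symm

theorem mul_mem_QB {B : Subgroup G} (hB : B ∈ S) (hb : Blk S A B) {b : G} (hbB : b ∈ B) :
    ∃ a ∈ A, a⁻¹ * b ∈ QB hS A D := by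
  obtain ⟨r1, -, cB, nB⟩ := blk_triple hS hd hA hC hAC hne h1 h2 hD hB hD hb (Blk.refl D)
  have key : ∀ b ∈ B, ∃ a ∈ A, Blk S (cj a D) (cj b D) := by
    intro b hb'
    by_cases b1 : b = 1
    · exact ⟨1, one_mem _, by rw [b1]; exact Blk.refl _⟩
    obtain ⟨d, hd, d1, e1⟩ := r1_cond r1 hb' b1
    obtain ⟨a, ha, -, e2⟩ := r1_cond (r1_symm h1) hd d1
    exact ⟨a, ha, by rw [e2, ← e1]; exact hb.cj hS d⟩
  obtain ⟨a, ha, k⟩ := key b hbB
  refine ⟨a, ha, fun E hE => ?_⟩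
  have xD : Blk S D (cj (a⁻¹ * b) D) := by
    have := k.cj hS a⁻¹
    rwa [cj_inv_cj, cj_cj] at this
  rcases (mem_om_iff h1).1 hE with rfl | ⟨a', ha', rfl⟩
  · exact blk_cj_of_mem hS (mul_mem (inv_mem (le_JB hA (Blk.refl _) ha)) (le_JB hB hb hbB))
  by_cases a1 : a' = 1
  · rw [a1, cj_one]; exact xD
  obtain ⟨d, hd', d1, e1⟩ := r1_cond h1 ha' a1
  obtain ⟨c, hc, c1, e2⟩ := r1_cond (r1_symm h2) hd' d1
  obtain ⟨b', hb', -, e3⟩ := r1_cond (r1_symm r1) hd' d1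
  obtain ⟨a'', ha'', k2⟩ := key (b * b') (mul_mem hbB hb')
  have k3 : Blk S (cj (a⁻¹ * a'') D) (cj (a⁻¹ * b) (cj a' D)) := by
    have t1 : Blk S (cj b' D) (cj a' D) := by rw [e3, ← e1]; exact hb.symm.cj hS d
    have t2 := k2.cj hS a⁻¹
    rw [cj_cj, cj_cj, ← mul_assoc, cj_mul (a⁻¹ * b)] at t2
    exact t2.trans (t1.cj hS _)
  have xc : (a⁻¹ * b) * c = c * (a⁻¹ * b) := by
    have p1 : Commute a⁻¹ c := hAC _ (inv_mem ha) c hc
    have p2 : Commute b c := cB b hbB c hc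
    exact p1.mul_left p2
  have k4 : Blk S (cj c D) (cj (a⁻¹ * b) (cj c D)) := by
    rw [cj_cj, xc, cj_mul]; exact xD.cj hS c
  have m1 : cj a' D ∈ S := hS.conj_mem D hD a'
  have m2 : cj c D ∈ S := hS.conj_mem D hD c
  have n1 : cj a' D ≠ cj c D := fun e => a1
    ((rs_of hS).cj_ne_of_com hA hD hC h1 hAC hne ha' hc e.symm)
  have c0 : Com (cj a' D) (cj c D) := by rw [e2, ← e1, com_cj_iff]; exact hAC
  obtain ⟨n2, c2⟩ := (k4 _ (hS.conj_mem _ m1 (a⁻¹ * b))).2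
    ⟨fun e => n1 (cj_inj.1 e), com_cj_iff.2 c0⟩
  obtain ⟨-, c3⟩ := (k3 _ m2).2 ⟨fun e => n2 e.symm, c2.symm⟩
  have := uniq_com hS hA hC hD h1 h2 hAC (mul_mem (inv_mem ha) ha'') hc hd' e2.symm c3.symm
  rw [← this, e1] at k3
  exact k3

theorem mem_centralizer_R (h2A : ∀ E ∈ S, ∀ a ∈ E, a ≠ 1 → a * a ≠ 1) {k l z : G} (hk : k ∈ JB S A)
    (hl : l ∈ JB S D) (hz : z ∈ centralizer ((JB S A ⊔ JB S D ⊔ C : Subgroup G) : Set G))
    (e : k = l * z) : k ∈ centralizer ((JB S A ⊔ JB S D ⊔ C : Subgroup G) : Set G) := by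
  have kC : ∀ c ∈ C, k * c = c * k := fun c hc => com_JB hC hne hAC.symm k hk c hc
  have main : ∀ A' ∈ S, ∀ D' ∈ S, Blk S A A' → Blk S D D' → A' ⊔ D' ≤ centralizer {k} := by
    intro A' hA' D' hD' b1 b2
    obtain ⟨r1, r2, cm, n1⟩ := blk_triple hS hd hA hC hAC hne h1 h2 hD hA' hD' b1 b2
    have st : ∀ a ∈ A', a ≠ 1 → cj a D' ≤ centralizer {k} := by
      intro a ha a1
      obtain ⟨d, hd', d1, e1⟩ := r1_cond r1 ha a1
      obtain ⟨c, hc, c1, e2⟩ := r1_cond (r1_symm r2) hd' d1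
      have m : cj c⁻¹ (cj a D') ∈ S := hS.conj_mem _ (hS.conj_mem D' hD' a) c⁻¹
      have n2 : cj c⁻¹ (cj a D') ≠ D' := fun e => a1
        ((rs_of hS).cj_ne_of_com hA' hD' hC r1 cm n1 ha hc (by rw [← e, cj_cj_inv, e]))
      have c2 : Com (cj c⁻¹ (cj a D')) D' := by
        rw [← com_cj_iff (g := c), cj_cj_inv, e2, ← e1, com_cj_iff]; exact cm
      obtain ⟨n3, c3⟩ := (b2 _ m).2 ⟨n2, c2⟩
      have c4 := com_JB m n3 c3
      intro y hy
      rw [mem_centralizer_singleton_iff]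
      have y1 : c⁻¹ * y * c ∈ cj c⁻¹ (cj a D') := by simpa using conj_mem_cj (g := c⁻¹) hy
      have yR : c⁻¹ * y * c ∈ JB S A ⊔ JB S D ⊔ C := by
        obtain ⟨w, hw, rfl⟩ := mem_cj'.1 hy
        have a2 : a ∈ JB S A ⊔ JB S D ⊔ C := mem_sup_left (mem_sup_left (le_JB hA' b1 ha))
        have w2 : w ∈ JB S A ⊔ JB S D ⊔ C := mem_sup_left (mem_sup_right (le_JB hD' b2 hw))
        have c2 : c ∈ JB S A ⊔ JB S D ⊔ C := mem_sup_right hc
        exact mul_mem (mul_mem (inv_mem c2) (mul_mem (mul_mem a2 w2) (inv_mem a2))) c2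
      have p1 : Commute l (c⁻¹ * y * c) := c4 l hl _ y1
      have p2 : Commute z (c⁻¹ * y * c) := (hz _ yR).symm
      have p3 : Commute k (c⁻¹ * y * c) := by rw [e]; exact p1.mul_left p2
      have p4 : Commute k c := kC c hc
      have p5 := (p4.mul_right p3).mul_right p4.inv_right
      have : c * (c⁻¹ * y * c) * c⁻¹ = y := by group
      rw [this] at p5
      exact p5.symm
    obtain ⟨a, ha, a1⟩ := r1_exists r1
    have o1 : cj a D' ∈ Om A' D' := cj_mem_om (right_mem_om r1) (mem_sup_left ha)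
    have o2 : cj a⁻¹ D' ∈ Om A' D' := cj_mem_om (right_mem_om r1) (mem_sup_left (inv_mem ha))
    rw [← om_sup r1 o1 o2 fun e => h2A A' hA' a ha a1 (by
      have := r1_inj r1 ha (inv_mem ha) e
      nth_rewrite 2 [this]; simp)]
    exact sup_le (st a ha a1) (st _ (inv_mem ha) (inv_ne_one.2 a1))
  have : JB S A ⊔ JB S D ⊔ C ≤ centralizer {k} := by
    refine sup_le (sup_le ?_ ?_) fun c hc => mem_centralizer_singleton_iff.2 (kC c hc).symm
    · exact iSup₂_le fun F hF => le_sup_left.trans (main F hF.1 D hD hF.2 (Blk.refl D))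
    · exact iSup₂_le fun F hF => le_sup_right.trans (main A hA F hF.1 (Blk.refl A) hF.2)
  intro y hy
  exact mem_centralizer_singleton_iff.1 (this hy)

theorem cube_eq_one (h2A : ∀ E ∈ S, ∀ a ∈ E, a ≠ 1 → a * a ≠ 1) {B : Subgroup G} (hB : B ∈ S)
    (hb : Blk S A B) (hAB : IsRankOnePair A B) {a : G} (ha : a ∈ A) : a ^ 3 = 1 := by
  by_cases a1 : a = 1
  · simp [a1]
  have sp : Sp A D := (rs_of hS).sp_of_triple hC hD hA h2 h1 hAC.symm hne.symm
  set R := JB S A ⊔ JB S D ⊔ C with hR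
  set Q := QB hS A D
  have AR : JB S A ≤ R := le_sup_left.trans le_sup_left
  have DR : JB S D ≤ R := le_sup_right.trans le_sup_left
  have LR : A ⊔ D ≤ R := sup_le ((le_JB hA (Blk.refl _)).trans AR) ((le_JB hD (Blk.refl _)).trans DR)
  have zz : ∀ E ∈ Om A D, ∀ F ∈ Om A D, E ≠ F → ∀ z ∈ JB S E, z ∈ JB S F →
      z ∈ centralizer (R : Set G) := by
    intro E hE F hF n z z1 z2
    obtain ⟨x, hx, rfl, rfl⟩ := om_two_trans h1 hE hF n
    have p1 := cj_JB hS x⁻¹ _ (conj_mem_cj z1)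
    have p2 := cj_JB hS x⁻¹ _ (conj_mem_cj z2)
    rw [cj_inv_cj] at p1 p2
    have := mem_centralizer_R hS hd hA hC hD h1 h2 hAC hne h2A p1 p2 (one_mem _) (mul_one _).symm
    have := conj_mem_of_mem_normalizer
      (LocalEven.normalizer_le_normalizer_centralizer R (le_normalizer (LR hx))) this
    simpa [mul_assoc] using this
  have cz : ∀ E ∈ Om A D, ∀ F ∈ Om A D, E ≠ F → ∀ k ∈ JB S E ⊓ Q, ∀ l ∈ JB S F ⊓ Q,
      ⁅k, l⁆ ∈ centralizer (R : Set G) := by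
    intro E hE F hF n k hk l hl
    apply zz E hE F hF n
    · have k1 := (mem_inf.1 hk).1
      have := mul_mem k1 (conj_mem_JB hS hE (mem_inf.1 hl).2 (inv_mem k1))
      rw [commutatorElement_def]; simpa [mul_assoc] using this
    · have l1 := (mem_inf.1 hl).1
      have := mul_mem (conj_mem_JB hS hF (mem_inf.1 hk).2 l1) (inv_mem l1)
      rwa [commutatorElement_def]
  have cq : ∀ E ∈ Om A D, ∀ g ∈ E, ∀ q ∈ Q, g * q * g⁻¹ * q⁻¹ ∈ JB S E ⊓ Q := by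
    intro E hE g hg q hq
    have gJ := le_JB ((rs_of hS).om_mem hA hD hE) (Blk.refl E) hg
    refine mem_inf.2 ⟨?_, mul_mem (conj_mem_QB hS (le_of_mem_om hE hg) hq) (inv_mem hq)⟩
    have := mul_mem gJ (conj_mem_JB hS hE hq (inv_mem gJ))
    simpa [mul_assoc] using this
  have cjK : ∀ E F, ∀ x ∈ A ⊔ D, cj x E = F → ∀ k ∈ JB S E ⊓ Q, x * k * x⁻¹ ∈ JB S F ⊓ Q :=
    fun E F x hx e k hk => ⟨e ▸ cj_JB hS x E (conj_mem_cj hk.1), conj_mem_QB hS hx hk.2⟩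
  let π := QuotientGroup.mk' (center R)
  have πc : ∀ x y : R, ⁅(x : G), (y : G)⁆ ∈ centralizer (R : Set G) → π x * π y = π y * π x := by
    intro x y h
    rw [← commutatorElement_eq_one_iff_mul_comm, ← map_commutatorElement, QuotientGroup.mk'_apply,
      QuotientGroup.eq_one_iff, mem_center_iff]
    intro g
    exact Subtype.ext (h g g.2)
  let im : Subgroup G → Subgroup (R ⧸ center R) := fun K => (K.subgroupOf R).map π
  have comEF : ∀ E ∈ Om A D, ∀ F ∈ Om A D, E ≠ F → Com (im (JB S E ⊓ Q)) (im (JB S F ⊓ Q)) := by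
    rintro E hE F hF n _ ⟨x, hx, rfl⟩ _ ⟨y, hy, rfl⟩
    exact πc x y (cz E hE F hF n x hx y hy)
  have comEE : ∀ E ∈ Om A D, ∀ F ∈ Om A D, IsRankOnePair E F →
      Com (im (JB S E ⊓ Q)) (im (JB S E ⊓ Q)) := by
    rintro E hE F hF r _ ⟨x, hx, rfl⟩ y hy
    obtain ⟨d, hd', d1⟩ := r1_exists (r1_symm r)
    have dL := le_of_mem_om hF hd'
    have n : cj d E ≠ E := fun e => d1 (r1_eq_one (r1_symm r) hd' e)
    let d' : R := ⟨d, LR dL⟩
    have m1 : π (d' * x * d'⁻¹) ∈ im (JB S (cj d E) ⊓ Q) :=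
      mem_map_of_mem π (cjK E _ d dL rfl x hx)
    have m2 : π (d' * x⁻¹ * d'⁻¹ * x⁻¹⁻¹) ∈ im (JB S F ⊓ Q) :=
      mem_map_of_mem π (cq F hF d hd' _ (inv_mem hx.2))
    have p1 : Commute (π (d' * x * d'⁻¹)) y := comEF _ (cj_mem_om hE dL) E hE n _ m1 y hy
    have p2 : Commute (π (d' * x⁻¹ * d'⁻¹ * x⁻¹⁻¹)) y := comEF F hF E hE r.ne.symm _ m2 y hy
    have := p1.mul_left p2
    rw [← map_mul] at this
    have e : d' * x * d'⁻¹ * (d' * x⁻¹ * d'⁻¹ * x⁻¹⁻¹) = x := by group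
    rw [e] at this
    exact this
  have oA : A ∈ Om A D := left_mem_om
  have oD : D ∈ Om A D := right_mem_om h1
  obtain ⟨b₁, n₁⟩ := exists_ndata h1 sp ha a1
  obtain ⟨b₂, n₂⟩ := exists_ndata h1 sp (mul_mem ha ha) (h2A A hA a ha a1)
  have bb : b₁⁻¹ = b₂⁻¹ * b₂⁻¹ := by
    have m1 := mu_of_partner n₁.swap n₁.ha n₁.hb n₁.e1
    have m2 := mu_of_partner n₁.swap n₂.ha n₂.hb n₂.e1
    rw [← pow_two] at m2
    have := mu_pow h1 sp 2 n₁.swap m2 m1
    rw [conj_pow, mul_left_inj, mul_right_inj] at this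
    rw [← this, pow_two, mul_inv_rev]
  have s1 := n₁.swap
  have s2 := n₂.swap
  rw [bb] at s1
  have aL : a ∈ A ⊔ D := mem_sup_left ha
  have eL : b₂⁻¹ ∈ A ⊔ D := mem_sup_right (inv_mem n₂.hb)
  let a' : R := ⟨a, LR aL⟩
  let e' : R := ⟨b₂⁻¹, LR eL⟩
  have VQ : im (JB S A ⊓ Q) ⊔ im (JB S D ⊓ Q) ≤ im Q :=
    sup_le (map_mono fun _ h => h.2) (map_mono fun _ h => h.2)
  have fin := cube_comm (im (JB S A ⊓ Q)) (im (JB S D ⊓ Q)) _ le_sup_left le_sup_right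
    (((comEE A oA D oD h1).sup_right (comEF A oA D oD h1.ne)).sup_left
      ((comEF D oD A oA h1.ne.symm).sup_right (comEE D oD A oA (r1_symm h1))))
    (by
      rintro _ ⟨x, hx, rfl⟩ ⟨y, hy, e⟩
      have := QuotientGroup.eq.1 e
      rw [QuotientGroup.mk'_apply, QuotientGroup.eq_one_iff, mem_center_iff]
      intro g
      refine Subtype.ext (mem_centralizer_R hS hd hA hC hD h1 h2 hAC hne h2A hx.1 hy.1
        (z := (y⁻¹ * x : R)) (fun w hw => ?_) (by simp) g g.2)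
      exact congrArg Subtype.val (mem_center_iff.1 this ⟨w, hw⟩))
    (π a') (π e')
    (fun x hx => by
      obtain ⟨q, hq, rfl⟩ := VQ hx
      simp only [← map_inv, ← map_mul]
      exact mem_map_of_mem π (cq A oA a ha q hq))
    (fun x hx => by
      obtain ⟨q, hq, rfl⟩ := VQ hx
      simp only [← map_inv, ← map_mul]
      exact mem_map_of_mem π (cq D oD _ (inv_mem n₂.hb) q hq))
    (by
      rintro _ ⟨q, hq, rfl⟩
      simp only [← map_inv, ← map_mul]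
      exact mem_map_of_mem π (cjK A D _ (mul_mem (mul_mem aL (mul_mem eL eL)) aL) s1.1 q hq))
    (by
      rintro _ ⟨q, hq, rfl⟩
      simp only [← map_inv, ← map_mul]
      exact mem_map_of_mem π
        (cjK A D _ (mul_mem (mul_mem (mul_mem aL aL) eL) (mul_mem aL aL)) s2.1 q hq))
    (by
      rintro _ ⟨q, hq, rfl⟩
      simp only [← map_inv, ← map_mul]
      exact mem_map_of_mem π
        (cjK D A _ (mul_mem (mul_mem (mul_mem aL aL) eL) (mul_mem aL aL)) s2.2 q hq))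
  obtain ⟨b, hbB, b1⟩ := r1_exists (r1_symm hAB)
  obtain ⟨a₀, ha₀, hq⟩ := mul_mem_QB hS hd hA hC hD h1 h2 hAC hne hB hb hbB
  have kJ : a₀⁻¹ * b ∈ JB S A := mul_mem (inv_mem (le_JB hA (Blk.refl _) ha₀)) (le_JB hB hb hbB)
  let k : R := ⟨a₀⁻¹ * b, AR kJ⟩
  have f2 := fin (π k) (mem_map_of_mem π ⟨kJ, hq⟩)
  rw [← map_pow, ← map_mul, ← map_mul] at f2
  have f3 := QuotientGroup.eq.1 f2
  have rr : IsRankOnePair A (cj (a₀⁻¹ * b) A) := by
    have := r1_cj (r1_cj_self (r1_symm hAB) hbB b1) a₀⁻¹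
    rwa [cj_eq_of_mem (inv_mem ha₀), cj_cj] at this
  apply r1_eq_one rr (pow_mem ha 3)
  have f4 : cj (((a' ^ 3 * k)⁻¹ * (k * a' ^ 3) : R) : G) A = A := by
    apply cj_eq_of_comm
    intro x hx
    exact (congrArg Subtype.val (mem_center_iff.1 f3 ⟨x, LR (mem_sup_left hx)⟩)).symm
  have f5 : (((a' ^ 3 * k)⁻¹ * (k * a' ^ 3) : R) : G) =
      (a ^ 3 * (a₀⁻¹ * b))⁻¹ * (a₀⁻¹ * b * a ^ 3) := rfl
  rw [f5, cj_mul, cj_mul, cj_eq_of_mem (pow_mem ha 3), cj_eq_iff, inv_inv, cj_mul (a ^ 3)] at f4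
  exact f4.symm

theorem not_psl2 {B : Subgroup G} (hB : B ∈ S) (hb : Blk S A B) {k : Type*} [Field k]
    (h3 : 3 < ENat.card k) {A₀ B₀ : Subgroup G} (l1 : A₀ ≤ A) (l2 : B₀ ≤ B)
    (h : IsPSL2PairOver k A₀ B₀) : False := by
  obtain ⟨φ, hr, hk, e1, -⟩ := h
  obtain ⟨t, t0, t1⟩ : ∃ t : k, t ≠ 0 ∧ t ^ 2 ≠ 1 := by
    by_contra hn
    push Not at hn
    have : (Set.univ : Set k) ⊆ {0, 1, -1} := fun t _ => by
      by_cases z : t = 0
      · exact Or.inl z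
      · exact Or.inr (mul_self_eq_one_iff.1 (by rw [← sq]; exact hn t z))
    have h4 := Set.encard_le_encard this
    rw [Set.encard_univ] at h4
    have h5 : ({0, 1, -1} : Set k).encard ≤ 3 := by
      have p1 := Set.encard_insert_le ({1, -1} : Set k) 0
      have p2 := Set.encard_insert_le ({-1} : Set k) 1
      rw [Set.encard_singleton] at p2
      calc _ ≤ _ := p1
        _ ≤ (1 + 1) + 1 := by gcongr
        _ = 3 := by norm_num
    exact absurd (h3.trans_le (h4.trans h5)) (lt_irrefl _)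
  let g : Matrix.SpecialLinearGroup (Fin 2) k := ⟨!![t, 0; 0, t⁻¹], by simp [Matrix.det_fin_two, t0]⟩
  have c1 := conj_mU (g := g) rfl 1
  have nA : A ≤ normalizer (QB hS A D : Set G) := le_normalizer_of_cj_le fun x hx =>
    cj_le_iff'.2 fun q hq => conj_mem_QB hS (mem_sup_left hx) hq
  have m : φ g ∈ QB hS A D ⊔ A := by
    have : φ g ∈ A₀ ⊔ B₀ := hr ▸ ⟨g, rfl⟩
    refine (sup_le (l1.trans le_sup_right) fun b hb' => ?_ : A₀ ⊔ B₀ ≤ _) this
    obtain ⟨a, ha, hq⟩ := mul_mem_QB hS hd hA hC hD h1 h2 hAC hne hB hb (l2 hb')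
    have := mul_mem (mem_sup_right ha : a ∈ QB hS A D ⊔ A) (mem_sup_left hq)
    simpa using this
  obtain ⟨q, hq, a, ha, e⟩ := (mem_sup_iff_of_le_normalizer' nA).1 m
  have uA : ∀ s, φ (mU s) ∈ A := fun s => l1 (e1 ▸ mem_map_of_mem φ (mU_mem s))
  have e2 : φ (mU (t ^ 2 - 1)) = q * (φ (mU 1) * q⁻¹ * (φ (mU 1))⁻¹) := by
    have : mU (t ^ 2 - 1) = g * mU 1 * g⁻¹ * (mU 1)⁻¹ := by
      rw [c1, ← mU_neg, ← mU_add]; simp [g, sub_eq_add_neg]
    rw [this, map_mul, map_mul, map_mul, map_inv, map_inv, ← e, mul_assoc q a,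
      (rs_of hS).com A hA a ha _ (uA 1)]
    group
  have m2 : φ (mU (t ^ 2 - 1)) ∈ QB hS A D :=
    e2 ▸ mul_mem hq (conj_mem_QB hS (mem_sup_left (uA 1)) (inv_mem hq))
  have := eq_one_of_blk hS hA hC hD h1 h2 hAC hne (uA _) (m2 D (right_mem_om h1))
  rcases sl2_mem_center (hk (MonoidHom.mem_ker.2 this)) with z | z
  all_goals
    have := congrFun (congrFun (congrArg Subtype.val z) 0) 1
    simp at this
    exact t1 (sub_eq_zero.1 this)

end Config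

end Cfsg.Agent.Root
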